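import Mathlib
import Cfsg.Agent.Helper71.T4Defs

/-!
# CALL S5637, piece SY (helper76): a Sylow conjugation lemma (pure finite group theory)
-/

set_option autoImplicit false

namespace Cfsg.Agent.Helper76.T4SY

open Matrix Cfsg.Agent.Helper71.T4
open scoped Kronecker

variable {F : Type*} [Field F] {a b : ℕ}

/-! ## Piece SY -/
theorem syl_conj {G : Type*} [Group G] [Finite G] (p : ℕ) [Fact p.Prime] (M H : Subgroup G)
    (T : Set G) (hTM : ∀ t ∈ T, t ∈ M) (hT : ∀ t ∈ T, t ∈ H) (hTp : ∀ t ∈ T, t ^ p = 1)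
    (hi : ∀ t ∈ T, ∀ g ∈ M, g * t * g⁻¹ ∈ H → g ∈ H)
    (C : Subgroup G) (g t' t'' : G) (hg : g ∈ M) (ht' : t' ∈ T) (ht'' : t'' ∈ T) (h1 : t'' ∈ C)
    (h2 : g⁻¹ * t' * g ∈ C) : ∃ m ∈ M, m ∈ C ∧ m * g⁻¹ ∈ H := by
  -- any `p`-subgroup of `M` containing `t''` lies in `H`
  have claim : ∀ Q' : Subgroup G, IsPGroup p Q' → Q' ≤ M → t'' ∈ Q' → Q' ≤ H := by
    intro Q' hQ' hQM htQ
    by_contra hnot
    have hlt : H.subgroupOf Q' < ⊤ := by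
      rw [lt_top_iff_ne_top]
      intro h
      exact hnot (Subgroup.subgroupOf_eq_top.mp h)
    have hnil : Group.IsNilpotent ↥Q' := hQ'.isNilpotent
    have hnc := Group.normalizerCondition_of_isNilpotent (G := Q') (H.subgroupOf Q') hlt
    obtain ⟨x, hxN, hxH⟩ := SetLike.exists_of_lt hnc
    have hx1 : (x : G) ∉ H := fun h => hxH (Subgroup.mem_subgroupOf.mpr h)
    have ht : (⟨t'', htQ⟩ : Q') ∈ H.subgroupOf Q' := Subgroup.mem_subgroupOf.mpr (hT t'' ht'')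
    have h3' := (Subgroup.mem_normalizer_iff.mp hxN ⟨t'', htQ⟩).mp ht
    have h3 : (x : G) * t'' * (x : G)⁻¹ ∈ H := by
      simpa [Subgroup.mem_subgroupOf] using h3'
    exact hx1 (hi t'' ht'' x (hQM x.2) h3)
  obtain ⟨K, hK⟩ : ∃ K : Subgroup G, K = C ⊓ M := ⟨_, rfl⟩
  have hKC : ∀ x : K, (x : G) ∈ C := fun x => (hK.le x.2).1
  have hKM : ∀ x : K, (x : G) ∈ M := fun x => (hK.le x.2).2
  have hrM : g⁻¹ * t' * g ∈ M := M.mul_mem (M.mul_mem (M.inv_mem hg) (hTM t' ht')) hg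
  have hrK : g⁻¹ * t' * g ∈ K := hK.ge ⟨h2, hrM⟩
  have hsK : t'' ∈ K := hK.ge ⟨h1, hTM t'' ht''⟩
  have hr : (⟨g⁻¹ * t' * g, hrK⟩ : K) ^ p = 1 := by
    apply Subtype.ext
    show (g⁻¹ * t' * g) ^ p = 1
    have h : g⁻¹ * t' * g = g⁻¹ * t' * g⁻¹⁻¹ := by rw [inv_inv]
    rw [h, conj_pow, hTp t' ht']; simp
  have hs : (⟨t'', hsK⟩ : K) ^ p = 1 := Subtype.ext (hTp t'' ht'')
  have hzp : ∀ y : K, y ^ p = 1 → IsPGroup p (Subgroup.zpowers y) := by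
    intro y hy
    rintro ⟨x, hx⟩
    obtain ⟨n, rfl⟩ := Subgroup.mem_zpowers_iff.mp hx
    refine ⟨1, Subtype.ext ?_⟩
    show (y ^ n) ^ p ^ 1 = 1
    rw [pow_one, ← zpow_natCast, ← _root_.zpow_mul, mul_comm, _root_.zpow_mul, zpow_natCast, hy, _root_.one_zpow]
  obtain ⟨P, hP⟩ := (hzp _ hr).exists_le_sylow
  obtain ⟨Q, hQ⟩ := (hzp _ hs).exists_le_sylow
  obtain ⟨c, hc⟩ := MulAction.exists_smul_eq K P Q
  have hrP : (⟨g⁻¹ * t' * g, hrK⟩ : K) ∈ (P : Subgroup K) := hP (Subgroup.mem_zpowers _)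
  have hsQ : (⟨t'', hsK⟩ : K) ∈ (Q : Subgroup K) := hQ (Subgroup.mem_zpowers _)
  have hcr : c * (⟨g⁻¹ * t' * g, hrK⟩ : K) * c⁻¹ ∈ (Q : Subgroup K) := by
    have h := Subgroup.smul_mem_pointwise_smul _ (MulAut.conj c) (P : Subgroup K) hrP
    rw [← Sylow.pointwise_smul_def, ← Sylow.smul_def, hc] at h
    simpa [MulAut.smul_def] using h
  have hQH : (Q : Subgroup K).map K.subtype ≤ H := by
    refine claim _ (Q.isPGroup'.map K.subtype) ?_ ⟨_, hsQ, rfl⟩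
    rintro x ⟨y, -, rfl⟩
    exact hKM y
  have h5 : (c : G) * (g⁻¹ * t' * g) * (c : G)⁻¹ ∈ H := hQH ⟨_, hcr, rfl⟩
  refine ⟨c, hKM c, hKC c, ?_⟩
  apply hi t' ht' _ (M.mul_mem (hKM c) (M.inv_mem hg))
  have h6 : (c : G) * g⁻¹ * t' * ((c : G) * g⁻¹)⁻¹ = (c : G) * (g⁻¹ * t' * g) * (c : G)⁻¹ := by
    group
  rw [h6]; exact h5

end Cfsg.Agent.Helper76.T4SY
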