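-- helper76: piece L2 of CALL S5874 (helper95): odd-dimensional nondegenerate subspaces force 2 ≠ 0.
import Mathlib
import Cfsg.Prelude.Def_GeometricClasses

set_option autoImplicit false
set_option linter.unusedSectionVars false
open Cfsg Cfsg.Geo Matrix

namespace Cfsg.Agent.Helper76

variable {ι : Type} [Fintype ι] [DecidableEq ι] {F : Type*} [Field F]

theorem o12_alt_aux {V : Type*} [AddCommGroup V] [Module F V] [FiniteDimensional F V]
    (B : LinearMap.BilinForm F V) (hB : B.IsAlt) :
    ∀ k : ℕ, ∀ U : Submodule F V, U ≤ B.orthogonal U →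
      Module.finrank F V - Module.finrank F U ≤ k →
      ∃ U' : Submodule F V, U' ≤ B.orthogonal U' ∧ B.orthogonal U' ≤ U' := by
  have hrefl : B.IsRefl := hB.isRefl
  have step : ∀ U : Submodule F V, U ≤ B.orthogonal U → ¬ B.orthogonal U ≤ U →
      ∃ U' : Submodule F V, U' ≤ B.orthogonal U' ∧
        Module.finrank F U < Module.finrank F U' := by
    intro U hU hle
    obtain ⟨x, hx, hxU⟩ := Set.not_subset.mp hle
    have hx' : ∀ w ∈ U, B w x = 0 := fun w hw => hx w hw
    have hx'' : ∀ w ∈ U, B x w = 0 := fun w hw => hrefl _ _ (hx' w hw)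
    have hlt : U < U ⊔ Submodule.span F {x} := by
      refine lt_of_le_of_ne le_sup_left ?_
      intro h
      apply hxU
      have : x ∈ U ⊔ Submodule.span F {x} :=
        Submodule.mem_sup_right (Submodule.mem_span_singleton_self x)
      rw [← h] at this
      exact this
    refine ⟨U ⊔ Submodule.span F {x}, ?_, Submodule.finrank_lt_finrank_of_lt hlt⟩
    intro v hv u hu
    obtain ⟨u₁, hu₁, u₂, hu₂, rfl⟩ := Submodule.mem_sup.mp hu
    obtain ⟨v₁, hv₁, v₂, hv₂, rfl⟩ := Submodule.mem_sup.mp hv
    obtain ⟨a, rfl⟩ := Submodule.mem_span_singleton.mp hu₂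
    obtain ⟨b, rfl⟩ := Submodule.mem_span_singleton.mp hv₂
    show B (u₁ + a • x) (v₁ + b • x) = 0
    have h1 : B u₁ v₁ = 0 := hU hv₁ u₁ hu₁
    have h2 : B x x = 0 := hB x
    simp only [map_add, map_smul, LinearMap.add_apply, LinearMap.smul_apply, smul_eq_mul,
      h1, h2, hx' u₁ hu₁, hx'' v₁ hv₁]
    ring
  intro k
  induction k with
  | zero =>
    intro U hU hk
    by_cases hle : B.orthogonal U ≤ U
    · exact ⟨U, hU, hle⟩
    · exfalso
      obtain ⟨U', -, hlt⟩ := step U hU hle
      have h2 := Submodule.finrank_le U'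
      omega
  | succ k ih =>
    intro U hU hk
    by_cases hle : B.orthogonal U ≤ U
    · exact ⟨U, hU, hle⟩
    · obtain ⟨U', hU', hlt⟩ := step U hU hle
      have h2 := Submodule.finrank_le U'
      exact ih U' hU' (by omega)

theorem o12_alt_even {V : Type*} [AddCommGroup V] [Module F V] [FiniteDimensional F V]
    (B : LinearMap.BilinForm F V) (hB : B.IsAlt) (hnd : B.Nondegenerate) :
    Even (Module.finrank F V) := by
  obtain ⟨U, hU, hle⟩ := o12_alt_aux B hB (Module.finrank F V) ⊥ (by simp) (by omega)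
  have heq : B.orthogonal U = U := le_antisymm hle hU
  have h1 := LinearMap.BilinForm.finrank_orthogonal hnd U
  have h2 := Submodule.finrank_le U
  rw [heq] at h1
  exact ⟨Module.finrank F U, by omega⟩

theorem o12_two_ne_of_odd (Q : (ι → F) → F) (hQ : IsNondegenerateQuadraticForm Q)
    (W : Submodule F (ι → F)) (hnd : IsNondegenerateOn (QuadraticMap.polar Q) W)
    (hodd : Odd (Module.finrank F W)) : (2 : F) ≠ 0 := by
  intro h2
  have hb := hQ.polar_bilinear
  let B : LinearMap.BilinForm F W :=
    LinearMap.mk₂ F (fun u v : W => QuadraticMap.polar Q (u : ι → F) (v : ι → F))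
      (fun x y v => hb.add_left _ _ _) (fun c x v => hb.smul_left _ _ _)
      (fun v x y => hb.add_right _ _ _) (fun c v x => hb.smul_right _ _ _)
  have hBapp : ∀ u v : W, B u v = QuadraticMap.polar Q (u : ι → F) (v : ι → F) := fun _ _ => rfl
  have hQ0 : Q 0 = 0 := by
    have := hQ.smul 0 0
    simpa using this
  have halt : B.IsAlt := by
    intro v
    rw [hBapp]
    unfold QuadraticMap.polar
    have hvv : (v : ι → F) + (v : ι → F) = 0 := by
      rw [← two_smul F (v : ι → F), h2, zero_smul]
    rw [hvv, hQ0]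
    have : Q (v : ι → F) + Q (v : ι → F) = 0 := by
      rw [← two_mul, h2, zero_mul]
    linear_combination -this
  have hndB : B.Nondegenerate := by
    constructor
    · intro x hx
      by_contra hx0
      have hx0' : (x : ι → F) ≠ 0 := fun h => hx0 (Subtype.ext h)
      obtain ⟨-, ⟨y, hy, hxy⟩⟩ := hnd x x.2 hx0'
      exact hxy (hx ⟨y, hy⟩)
    · intro y hy
      by_contra hy0
      have hy0' : (y : ι → F) ≠ 0 := fun h => hy0 (Subtype.ext h)
      obtain ⟨⟨x, hx, hxy⟩, -⟩ := hnd y y.2 hy0'
      exact hxy (hy ⟨x, hx⟩)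
  have heven := o12_alt_even B halt hndB
  exact (Nat.not_even_iff_odd.mpr hodd) heven

end Cfsg.Agent.Helper76
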