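import Mathlib
import Cfsg.Agent.Helper27.SameOrderA

set_option autoImplicit false

namespace Cfsg.Agent.Helper76

open Cfsg.Agent.Helper27.SO

variable {H : Type*} [Group H] [Finite H]

open Classical in
/-- the elements of order `d` generating the same cyclic subgroup as `g` (of order `d`) -/
theorem nse_fiber_card [Fintype H] [DecidableEq H] (d : ℕ) (g : H) (hgd : orderOf g = d) :
    ((Finset.univ.filter (fun x : H => orderOf x = d)).filter
      (fun a => Subgroup.zpowers a = Subgroup.zpowers g)).card = d.totient := by
  classical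
  have hcyc := IsCyclic.card_orderOf_eq_totient (α := Subgroup.zpowers g) (d := d)
    (by rw [Fintype.card_zpowers, hgd])
  rw [← hcyc]
  symm
  apply Finset.card_bij (fun (a : Subgroup.zpowers g) _ => (a : H))
  · intro a ha
    have had : orderOf a = d := (Finset.mem_filter.mp ha).2
    have had' : orderOf (a : H) = d := by rw [Subgroup.orderOf_coe]; exact had
    rw [Finset.mem_filter, Finset.mem_filter]
    refine ⟨⟨Finset.mem_univ _, had'⟩, ?_⟩
    apply Subgroup.eq_of_le_of_card_ge (Subgroup.zpowers_le.mpr a.2)
    rw [Nat.card_zpowers, Nat.card_zpowers, hgd, had']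
  · intro a _ b _ hab
    exact Subtype.ext hab
  · intro b hb
    rw [Finset.mem_filter, Finset.mem_filter] at hb
    obtain ⟨⟨_, hbd⟩, hbK⟩ := hb
    have hbmem : b ∈ Subgroup.zpowers g := hbK ▸ Subgroup.mem_zpowers b
    refine ⟨⟨b, hbmem⟩, ?_, rfl⟩
    rw [Finset.mem_filter]
    exact ⟨Finset.mem_univ _, by rw [← Subgroup.orderOf_coe]; exact hbd⟩

theorem totient_dvd_sc (d : ℕ) : d.totient ∣ sc H d := by
  classical
  have : Fintype H := Fintype.ofFinite H
  rw [sc_eq_card_filter]
  have hfib : ∀ K ∈ (Finset.univ.filter (fun x : H => orderOf x = d)).image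
      (fun g => Subgroup.zpowers g),
      ((Finset.univ.filter (fun x : H => orderOf x = d)).filter
        (fun a => Subgroup.zpowers a = K)).card = d.totient := by
    intro K hK
    obtain ⟨g, hg, rfl⟩ := Finset.mem_image.mp hK
    exact nse_fiber_card d g (Finset.mem_filter.mp hg).2
  rw [Finset.card_eq_sum_card_fiberwise (f := fun g => Subgroup.zpowers g)
    (t := (Finset.univ.filter (fun x : H => orderOf x = d)).image (fun g => Subgroup.zpowers g))
    (fun x hx => Finset.mem_image_of_mem _ hx)]
  rw [Finset.sum_congr rfl hfib, Finset.sum_const, smul_eq_mul]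
  exact Dvd.intro_left _ rfl

end Cfsg.Agent.Helper76
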