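import Mathlib
import Cfsg.Agent.Helper27.SameOrderA
import Cfsg.Agent.Helper76.NseTOT

set_option autoImplicit false

namespace Cfsg.Agent.Helper76

open Cfsg.Agent.Helper27.SO
open scoped Pointwise

variable {H : Type*} [Group H] [Finite H]

theorem nse_sylow_card {p : ℕ} [Fact p.Prime] (P : Sylow p H) {a : ℕ}
    (hP : Nat.card (P : Subgroup H) = p ^ a) (Q : Sylow p H) :
    Nat.card (Q : Subgroup H) = p ^ a := by
  have h1 : Nat.card (Q : Subgroup H) = p ^ (Nat.card H).factorization p :=
    Sylow.card_eq_multiplicity Q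
  have h2 : Nat.card (P : Subgroup H) = p ^ (Nat.card H).factorization p :=
    Sylow.card_eq_multiplicity P
  rw [h1, ← h2, hP]

/-- an element whose order is the order of a Sylow `p`-subgroup generates a Sylow `p`-subgroup -/
theorem nse_zpowers_sylow {p : ℕ} [Fact p.Prime] (P : Sylow p H) {a : ℕ}
    (hP : Nat.card (P : Subgroup H) = p ^ a) (x : H) (hx : orderOf x = p ^ a) :
    ∃ Q : Sylow p H, (Q : Subgroup H) = Subgroup.zpowers x := by
  have hpg : IsPGroup p (Subgroup.zpowers x) :=
    IsPGroup.of_card (n := a) (by rw [Nat.card_zpowers, hx])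
  obtain ⟨Q, hQ⟩ := hpg.exists_le_sylow
  refine ⟨Q, (Subgroup.eq_of_le_of_card_ge hQ ?_).symm⟩
  exact le_of_eq (by rw [Nat.card_zpowers, hx, nse_sylow_card P hP Q])

/-- if some element has the order of a Sylow `p`-subgroup, every Sylow `p`-subgroup is cyclic -/
theorem nse_sylow_gen {p : ℕ} [Fact p.Prime] (P : Sylow p H) {a : ℕ}
    (hP : Nat.card (P : Subgroup H) = p ^ a) (hne : sc H (p ^ a) ≠ 0) (Q : Sylow p H) :
    ∃ y : H, orderOf y = p ^ a ∧ Subgroup.zpowers y = (Q : Subgroup H) := by
  obtain ⟨g0, hg0⟩ := exists_of_sc_ne_zero hne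
  obtain ⟨Q0, hQ0⟩ := nse_zpowers_sylow P hP g0 hg0
  obtain ⟨c, hc⟩ := MulAction.exists_smul_eq H Q0 Q
  have hord : orderOf (c * g0 * c⁻¹) = p ^ a := by rw [orderOf_conj', hg0]
  have hmem : c * g0 * c⁻¹ ∈ (Q : Subgroup H) := by
    have h1 : (Q : Subgroup H) = MulAut.conj c • (Q0 : Subgroup H) := by rw [← hc]; rfl
    rw [h1]
    have h2 : g0 ∈ (Q0 : Subgroup H) := by rw [hQ0]; exact Subgroup.mem_zpowers g0
    exact Subgroup.smul_mem_pointwise_smul g0 (MulAut.conj c) _ h2
  refine ⟨c * g0 * c⁻¹, hord, Subgroup.eq_of_le_of_card_ge (Subgroup.zpowers_le.mpr hmem) ?_⟩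
  exact le_of_eq (by rw [Nat.card_zpowers, hord, nse_sylow_card P hP Q])

open Classical in
theorem nse_cyclic_le {C : Type*} [Group C] [Fintype C] [IsCyclic C] (m : ℕ) :
    (Finset.univ.filter (fun x : C => orderOf x = m)).card ≤ m.totient := by
  by_cases hm : m ∣ Fintype.card C
  · exact le_of_eq (IsCyclic.card_orderOf_eq_totient hm)
  · have : Finset.univ.filter (fun x : C => orderOf x = m) = ∅ := by
      rw [Finset.filter_eq_empty_iff]
      intro x _ hx
      exact hm (hx ▸ orderOf_dvd_card)
    rw [this]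
    simp

theorem sc_sylow_cyclic {p : ℕ} [Fact p.Prime] (P : Sylow p H) {a : ℕ}
    (hP : Nat.card (P : Subgroup H) = p ^ a) (hne : sc H (p ^ a) ≠ 0) :
    sc H (p ^ a) = (p ^ a).totient * Nat.card (Sylow p H) ∧
      ∀ j : ℕ, sc H (p ^ j) ≤ (p ^ j).totient * Nat.card (Sylow p H) := by
  classical
  have : Fintype H := Fintype.ofFinite H
  have : Fintype (Sylow p H) := Fintype.ofFinite _
  constructor
  · rw [sc_eq_card_filter]
    have himg : ∀ x ∈ Finset.univ.filter (fun x : H => orderOf x = p ^ a),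
        Subgroup.zpowers x ∈ (Finset.univ : Finset (Sylow p H)).image
          (fun Q : Sylow p H => (Q : Subgroup H)) := by
      intro x hx
      obtain ⟨Q, hQ⟩ := nse_zpowers_sylow P hP x (Finset.mem_filter.mp hx).2
      exact Finset.mem_image.mpr ⟨Q, Finset.mem_univ _, hQ⟩
    have hfib : ∀ K ∈ (Finset.univ : Finset (Sylow p H)).image (fun Q : Sylow p H => (Q : Subgroup H)),
        ((Finset.univ.filter (fun x : H => orderOf x = p ^ a)).filter
          (fun x => Subgroup.zpowers x = K)).card = (p ^ a).totient := by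
      intro K hK
      obtain ⟨Q, _, rfl⟩ := Finset.mem_image.mp hK
      obtain ⟨y, hy, hyQ⟩ := nse_sylow_gen P hP hne Q
      rw [← hyQ]
      exact nse_fiber_card (p ^ a) y hy
    rw [Finset.card_eq_sum_card_fiberwise himg, Finset.sum_congr rfl hfib, Finset.sum_const,
      smul_eq_mul, Finset.card_image_of_injective _ (fun Q Q' h => Sylow.ext h), Finset.card_univ,
      Nat.card_eq_fintype_card, mul_comm]
  · intro j
    rw [sc_eq_card_filter]
    have hsub : Finset.univ.filter (fun x : H => orderOf x = p ^ j) ⊆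
        (Finset.univ : Finset (Sylow p H)).biUnion
          (fun Q => Finset.univ.filter (fun x : H => x ∈ (Q : Subgroup H) ∧ orderOf x = p ^ j)) := by
      intro x hx
      have hxj := (Finset.mem_filter.mp hx).2
      have hpg : IsPGroup p (Subgroup.zpowers x) :=
        IsPGroup.of_card (n := j) (by rw [Nat.card_zpowers, hxj])
      obtain ⟨Q, hQ⟩ := hpg.exists_le_sylow
      rw [Finset.mem_biUnion]
      exact ⟨Q, Finset.mem_univ _,
        Finset.mem_filter.mpr ⟨Finset.mem_univ _, hQ (Subgroup.mem_zpowers x), hxj⟩⟩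
    have hQcard : ∀ Q : Sylow p H,
        (Finset.univ.filter (fun x : H => x ∈ (Q : Subgroup H) ∧ orderOf x = p ^ j)).card
          ≤ (p ^ j).totient := by
      intro Q
      obtain ⟨y, hy, hyQ⟩ := nse_sylow_gen P hP hne Q
      have hyQ' : y ∈ (Q : Subgroup H) := hyQ ▸ Subgroup.mem_zpowers y
      have hcyc : IsCyclic (Q : Subgroup H) := by
        apply isCyclic_of_orderOf_eq_card (⟨y, hyQ'⟩ : (Q : Subgroup H))
        rw [Subgroup.orderOf_mk, hy, nse_sylow_card P hP Q]
      have heq : (Finset.univ.filter (fun x : (Q : Subgroup H) => orderOf x = p ^ j)).card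
          = (Finset.univ.filter
              (fun x : H => x ∈ (Q : Subgroup H) ∧ orderOf x = p ^ j)).card := by
        apply Finset.card_bij (fun (x : (Q : Subgroup H)) _ => (x : H))
        · intro x hx
          rw [Finset.mem_filter] at hx ⊢
          exact ⟨Finset.mem_univ _, x.2, by rw [Subgroup.orderOf_coe]; exact hx.2⟩
        · intro x _ x' _ h
          exact Subtype.ext h
        · intro x hx
          rw [Finset.mem_filter] at hx
          exact ⟨⟨x, hx.2.1⟩, Finset.mem_filter.mpr
            ⟨Finset.mem_univ _, by rw [← Subgroup.orderOf_coe]; exact hx.2.2⟩, rfl⟩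
      rw [← heq]
      exact nse_cyclic_le (p ^ j)
    calc (Finset.univ.filter (fun x : H => orderOf x = p ^ j)).card
        ≤ ((Finset.univ : Finset (Sylow p H)).biUnion
          (fun Q => Finset.univ.filter
            (fun x : H => x ∈ (Q : Subgroup H) ∧ orderOf x = p ^ j))).card :=
          Finset.card_le_card hsub
      _ ≤ ∑ Q : Sylow p H, (Finset.univ.filter
            (fun x : H => x ∈ (Q : Subgroup H) ∧ orderOf x = p ^ j)).card :=
          Finset.card_biUnion_le
      _ ≤ ∑ _Q : Sylow p H, (p ^ j).totient := Finset.sum_le_sum (fun Q _ => hQcard Q)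
      _ = (p ^ j).totient * Nat.card (Sylow p H) := by
          rw [Finset.sum_const, smul_eq_mul, Finset.card_univ, Nat.card_eq_fintype_card, mul_comm]

end Cfsg.Agent.Helper76
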