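import Mathlib
import Cfsg.Agent.Helper27.SameOrderA
import Cfsg.Agent.Helper20.NsePAIR
import Cfsg.Agent.Helper76.NseCYC

set_option autoImplicit false

namespace Cfsg.Agent.Helper76

open Cfsg.Agent.Helper27.SO
open scoped Pointwise

variable {H : Type*} [Group H] [Finite H]

/-- the fibre over an element `x` of order `p` does not depend on `x` -/
theorem nse_fibre_card {p m : ℕ} [Fact p.Prime] (P : Sylow p H)
    (hP : Nat.card (P : Subgroup H) = p) (x : H) (hx : orderOf x = p) :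
    Nat.card {y : H // orderOf y = m ∧ Commute x y} =
      Nat.card {y : H // orderOf y = m ∧ ∀ x' ∈ (P : Subgroup H), Commute x' y} := by
  have hP1 : Nat.card (P : Subgroup H) = p ^ 1 := by rw [hP, pow_one]
  obtain ⟨Q, hQ⟩ := nse_zpowers_sylow P hP1 x (by rw [hx, pow_one])
  obtain ⟨g, hg⟩ := MulAction.exists_smul_eq H P Q
  have hQP : (Q : Subgroup H) = MulAut.conj g • (P : Subgroup H) := by rw [← hg]; rfl
  have h1 : ∀ x' ∈ (P : Subgroup H), g * x' * g⁻¹ ∈ Subgroup.zpowers x := by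
    intro x' hx'
    rw [← hQ, hQP]
    exact Subgroup.smul_mem_pointwise_smul x' (MulAut.conj g) _ hx'
  have h2 : ∃ x0 ∈ (P : Subgroup H), g * x0 * g⁻¹ = x := by
    have hxQ : x ∈ (Q : Subgroup H) := by rw [hQ]; exact Subgroup.mem_zpowers x
    rw [hQP, Subgroup.mem_smul_pointwise_iff_exists] at hxQ
    obtain ⟨s, hs, hsx⟩ := hxQ
    exact ⟨s, hs, hsx⟩
  obtain ⟨x0, hx0, hx0x⟩ := h2
  apply Nat.card_congr
  refine
    { toFun := fun y => ⟨g⁻¹ * y.1 * g, ?_, ?_⟩
      invFun := fun y => ⟨g * y.1 * g⁻¹, ?_, ?_⟩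
      left_inv := fun y => Subtype.ext (by simp [mul_assoc])
      right_inv := fun y => Subtype.ext (by simp [mul_assoc]) }
  · have h := orderOf_conj' g⁻¹ y.1
    rw [inv_inv] at h
    rw [h]
    exact y.2.1
  · intro x' hx'
    obtain ⟨k, hk⟩ := Subgroup.mem_zpowers_iff.mp (h1 x' hx')
    have hc : Commute (g * x' * g⁻¹) y.1 := by
      rw [← hk]
      exact y.2.2.zpow_left k
    refine (Commute.conj_iff g).mp ?_
    rw [show g * (g⁻¹ * y.1 * g) * g⁻¹ = y.1 by group]
    exact hc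
  · rw [orderOf_conj']
    exact y.2.1
  · rw [← hx0x]
    exact (Commute.conj_iff g).mpr (y.2.2 x0 hx0)

theorem sc_prime_mul {p m : ℕ} [Fact p.Prime] (hpm : p.Coprime m) (P : Sylow p H)
    (hP : Nat.card (P : Subgroup H) = p) :
    sc H (p * m) =
      sc H p * Nat.card {y : H // orderOf y = m ∧ ∀ x ∈ (P : Subgroup H), Commute x y} := by
  classical
  have : Fintype H := Fintype.ofFinite H
  rw [Cfsg.Agent.Helper20.sc_mul_eq_card_pairs hpm]
  have e : {x : H × H // orderOf x.1 = p ∧ orderOf x.2 = m ∧ Commute x.1 x.2} ≃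
      Σ x : {x : H // orderOf x = p}, {y : H // orderOf y = m ∧ Commute x.1 y} :=
    { toFun := fun z => ⟨⟨z.1.1, z.2.1⟩, ⟨z.1.2, z.2.2.1, z.2.2.2⟩⟩
      invFun := fun z => ⟨(z.1.1, z.2.1), z.1.2, z.2.2.1, z.2.2.2⟩
      left_inv := fun z => rfl
      right_inv := fun z => rfl }
  rw [Nat.card_congr e, Nat.card_sigma]
  have hfib : ∀ x : {x : H // orderOf x = p},
      Nat.card {y : H // orderOf y = m ∧ Commute x.1 y} =
        Nat.card {y : H // orderOf y = m ∧ ∀ x' ∈ (P : Subgroup H), Commute x' y} :=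
    fun x => nse_fibre_card P hP x.1 x.2
  rw [Finset.sum_congr rfl (fun x _ => hfib x), Finset.sum_const, smul_eq_mul, Finset.card_univ]
  simp only [sc, Nat.card_eq_fintype_card]

end Cfsg.Agent.Helper76
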