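import Mathlib
import Cfsg.Agent.Helper3.FHDefs

set_option autoImplicit false

namespace Cfsg.Agent.Helper76

open Cfsg.Agent.Helper3.FH Real

theorem fh11_trig (q θ : ℝ) : ∀ j : ℕ,
    alphaSeq (q * cos θ) (q * q) j * sin θ * q = q ^ j * sin ((j : ℝ) * θ)
  | 0 => by simp
  | 1 => by simp; ring
  | (j + 2) => by
    have h1 := fh11_trig q θ (j + 1)
    have h0 := fh11_trig q θ j
    rw [alphaSeq_add_two]
    have hs : sin (((j + 2 : ℕ) : ℝ) * θ)
        = 2 * cos θ * sin (((j + 1 : ℕ) : ℝ) * θ) - sin ((j : ℝ) * θ) := by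
      push_cast
      have e1 : ((j : ℝ) + 2) * θ = ((j : ℝ) + 1) * θ + θ := by ring
      have e2 : sin ((j : ℝ) * θ) = sin (((j : ℝ) + 1) * θ - θ) := by
        congr 1; ring
      rw [e1, e2, sin_add, sin_sub]
      ring
    rw [hs]
    linear_combination (2 * q * cos θ) * h1 - q * q * h0

theorem fh11_pos (q y : ℝ) (hq : 0 < q) (hy : q ≤ y) : ∀ j : ℕ,
    0 ≤ alphaSeq y (q * q) j ∧ q ^ j ≤ alphaSeq y (q * q) (j + 1) - q * alphaSeq y (q * q) j
  | 0 => by simp
  | (j + 1) => by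
    obtain ⟨h0, h1⟩ := fh11_pos q y hq hy j
    have hpos : 0 ≤ alphaSeq y (q * q) (j + 1) := by
      have : 0 < q ^ j := pow_pos hq j
      nlinarith [mul_nonneg hq.le h0]
    refine ⟨hpos, ?_⟩
    rw [alphaSeq_add_two, pow_succ]
    nlinarith [mul_nonneg (sub_nonneg.mpr hy) hpos, mul_le_mul_of_nonneg_right h1 hq.le]

theorem fh11_neg (x c : ℝ) : ∀ j : ℕ, alphaSeq (-x) c j = (-1) ^ (j + 1) * alphaSeq x c j
  | 0 => by simp
  | 1 => by simp
  | (j + 2) => by
    rw [alphaSeq_add_two, alphaSeq_add_two, fh11_neg x c (j + 1), fh11_neg x c j]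
    ring

theorem fh_roots_odd (n : ℕ) (x q : ℝ) (hq : 0 < q)
    (h : alphaSeq x (q * q) (n + 1) + q * alphaSeq x (q * q) n = 0) :
    ∃ k : ℕ, 0 < k ∧ k ≤ n ∧ x = q * cos (2 * k * π / (2 * n + 1)) := by
  rcases le_or_gt q x with hx | hx
  · exfalso
    obtain ⟨h0, h1⟩ := fh11_pos q x hq hx n
    have : 0 < q ^ n := pow_pos hq n
    nlinarith [mul_nonneg hq.le h0]
  rcases le_or_gt x (-q) with hx' | hx'
  · exfalso
    have hy : q ≤ -x := by linarith
    obtain ⟨h0, h1⟩ := fh11_pos q (-x) hq hy n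
    have e1 := fh11_neg (-x) (q * q) (n + 1)
    have e2 := fh11_neg (-x) (q * q) n
    rw [neg_neg] at e1 e2
    rw [e1, e2] at h
    have hpow : ((-1 : ℝ)) ^ (n + 1) ≠ 0 := pow_ne_zero _ (by norm_num)
    have hz : (-1 : ℝ) ^ (n + 1)
        * (alphaSeq (-x) (q * q) (n + 1) - q * alphaSeq (-x) (q * q) n) = 0 := by
      linear_combination (-1 : ℝ) * h
    have hz' := (mul_eq_zero.mp hz).resolve_left hpow
    have : 0 < q ^ n := pow_pos hq n
    linarith
  · obtain ⟨θ, hθ⟩ : ∃ θ, θ = arccos (x / q) := ⟨_, rfl⟩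
    have hxq1 : -1 < x / q := by rw [lt_div_iff₀ hq]; linarith
    have hxq2 : x / q < 1 := by rw [div_lt_one hq]; exact hx
    have hcos : cos θ = x / q := by rw [hθ]; exact cos_arccos hxq1.le hxq2.le
    have hθ0 : 0 < θ := by rw [hθ]; exact arccos_pos.mpr hxq2
    have hθπ : θ < π := by rw [hθ]; exact arccos_lt_pi.mpr hxq1
    have hsin : 0 < sin θ := sin_pos_of_pos_of_lt_pi hθ0 hθπ
    have hxe : x = q * cos θ := by rw [hcos]; field_simp
    have t1 := fh11_trig q θ (n + 1)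
    have t0 := fh11_trig q θ n
    rw [← hxe] at t1 t0
    have hsum : sin (((n + 1 : ℕ) : ℝ) * θ) + sin ((n : ℝ) * θ) = 0 := by
      have hq' : q ^ (n + 1) ≠ 0 := pow_ne_zero _ hq.ne'
      have : q ^ (n + 1) * (sin (((n + 1 : ℕ) : ℝ) * θ) + sin ((n : ℝ) * θ)) = 0 := by
        linear_combination (sin θ * q) * h - t1 - q * t0
      exact (mul_eq_zero.mp this).resolve_left hq'
    have hprod : sin ((2 * (n : ℝ) + 1) * θ / 2) * cos (θ / 2) = 0 := by
      have e1 : ((n + 1 : ℕ) : ℝ) * θ = (2 * (n : ℝ) + 1) * θ / 2 + θ / 2 := by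
        push_cast; ring
      have e2 : (n : ℝ) * θ = (2 * (n : ℝ) + 1) * θ / 2 - θ / 2 := by ring
      rw [e1, e2, sin_add, sin_sub] at hsum
      linarith
    have hcos2 : 0 < cos (θ / 2) := cos_pos_of_mem_Ioo ⟨by linarith, by linarith⟩
    have hsin0 : sin ((2 * (n : ℝ) + 1) * θ / 2) = 0 :=
      (mul_eq_zero.mp hprod).resolve_right hcos2.ne'
    obtain ⟨k, hk⟩ := sin_eq_zero_iff.mp hsin0
    have hk0 : 0 < k := by
      have h1 : (0 : ℝ) < (k : ℝ) * π := by rw [hk]; positivity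
      have h2 : (0 : ℝ) < k := by
        by_contra hneg
        push Not at hneg
        nlinarith [pi_pos, mul_nonpos_of_nonpos_of_nonneg hneg pi_pos.le]
      exact_mod_cast h2
    have hkn : k ≤ n := by
      have h1 : (k : ℝ) * π < (2 * (n : ℝ) + 1) * π / 2 := by
        rw [hk]
        have : (0 : ℝ) < 2 * (n : ℝ) + 1 := by positivity
        nlinarith
      have h2 : 2 * (k : ℝ) < 2 * (n : ℝ) + 1 := by
        by_contra hneg
        push Not at hneg
        nlinarith [pi_pos, mul_le_mul_of_nonneg_right hneg pi_pos.le]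
      have h3 : 2 * k < 2 * (n : ℤ) + 1 := by exact_mod_cast h2
      omega
    lift k to ℕ using hk0.le
    refine ⟨k, by exact_mod_cast hk0, by exact_mod_cast hkn, ?_⟩
    rw [hxe]
    congr 2
    have : (0 : ℝ) < 2 * (n : ℝ) + 1 := by positivity
    push_cast at hk
    field_simp
    linarith

end Cfsg.Agent.Helper76
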