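import Mathlib
import Cfsg.Agent.Helper3.FHDefs

set_option autoImplicit false
set_option linter.unusedSectionVars false

namespace Cfsg.Agent.Helper76

open Cfsg.Agent.Helper3.FH Real

variable {Ω : Type*} [Fintype Ω] [DecidableEq Ω]

theorem fh6_tr_ba (a b E : Matrix Ω Ω ℝ) (hEb : E * b = b * E) :
    (b * a * E).trace = (a * b * E).trace := by
  rw [Matrix.mul_assoc b a E, Matrix.trace_mul_comm b (a * E), Matrix.mul_assoc a E b, hEb,
    ← Matrix.mul_assoc]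

theorem fh6_eq1 (a b E : Matrix Ω Ω ℝ) (s t ζ : ℝ) (hEb : E * b = b * E)
    (hz : (a * b + b * a - (t - 1) • a - (s - 1) • b) * E = ζ • E) :
    2 * (a * b * E).trace - (t - 1) * (a * E).trace - (s - 1) * (b * E).trace = ζ * E.trace := by
  have h1 := congrArg Matrix.trace hz
  rw [Matrix.trace_smul, smul_eq_mul] at h1
  rw [← h1]
  simp only [Matrix.sub_mul, Matrix.add_mul, Matrix.smul_mul, Matrix.trace_sub, Matrix.trace_add,
    Matrix.trace_smul, smul_eq_mul]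
  rw [fh6_tr_ba a b E hEb]
  ring

theorem fh6_eq2 (a b E : Matrix Ω Ω ℝ) (s t ζ : ℝ)
    (ha : a * a = s • (1 : Matrix Ω Ω ℝ) + (s - 1) • a)
    (hEa : E * a = a * E)
    (hz : (a * b + b * a - (t - 1) • a - (s - 1) • b) * E = ζ • E) :
    2 * (s * (b * E).trace + (s - 1) * (a * b * E).trace)
      - (t - 1) * (s * E.trace + (s - 1) * (a * E).trace) - (s - 1) * (a * b * E).trace
      = ζ * (a * E).trace := by
  have key : a * ((a * b + b * a - (t - 1) • a - (s - 1) • b) * E) = ζ • (a * E) := by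
    rw [hz, Matrix.mul_smul]
  have h1 := congrArg Matrix.trace key
  rw [Matrix.trace_smul, smul_eq_mul] at h1
  rw [← h1]
  have e1 : a * ((a * b + b * a - (t - 1) • a - (s - 1) • b) * E)
      = a * a * b * E + a * b * a * E - (t - 1) • (a * a * E) - (s - 1) • (a * b * E) := by
    simp only [Matrix.sub_mul, Matrix.add_mul, Matrix.smul_mul, Matrix.mul_sub, Matrix.mul_add,
      Matrix.mul_smul, Matrix.mul_assoc]
  have e2 : (a * b * a * E).trace = (a * a * b * E).trace := by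
    rw [Matrix.mul_assoc (a * b) a E, ← hEa, ← Matrix.mul_assoc (a * b) E a,
      Matrix.trace_mul_comm, ← Matrix.mul_assoc, ← Matrix.mul_assoc]
  have e3 : (a * a * b * E).trace = s * (b * E).trace + (s - 1) * (a * b * E).trace := by
    rw [ha]
    simp only [Matrix.add_mul, Matrix.smul_mul, Matrix.one_mul, Matrix.trace_add,
      Matrix.trace_smul, smul_eq_mul]
  have e4 : (a * a * E).trace = s * E.trace + (s - 1) * (a * E).trace := by
    rw [ha]
    simp only [Matrix.add_mul, Matrix.smul_mul, Matrix.one_mul, Matrix.trace_add,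
      Matrix.trace_smul, smul_eq_mul]
  rw [e1]
  simp only [Matrix.trace_sub, Matrix.trace_add, Matrix.trace_smul, smul_eq_mul]
  rw [e2, e3, e4]
  ring

theorem fh_trace_generic (C : HeckeCfg Ω) {E : Matrix Ω Ω ℝ} {ζ : ℝ} (h : C.IsEig E ζ)
    (hg : C.Generic ζ) :
    (C.a * E).trace = ((C.s : ℝ) - 1) * E.trace / 2 ∧
    (C.b * E).trace = ((C.t : ℝ) - 1) * E.trace / 2 ∧
    (C.a * C.b * E).trace = E.trace * C.xOf ζ := by
  have hz : (C.a * C.b + C.b * C.a - ((C.t : ℝ) - 1) • C.a - ((C.s : ℝ) - 1) • C.b) * E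
      = ζ • E := h.eig
  have hz' : (C.b * C.a + C.a * C.b - ((C.s : ℝ) - 1) • C.b - ((C.t : ℝ) - 1) • C.a) * E
      = ζ • E := by
    rw [← hz]; congr 1; abel
  have e1 := fh6_eq1 C.a C.b E C.s C.t ζ h.comm_b hz
  have e2 := fh6_eq2 C.a C.b E C.s C.t ζ C.a_sq h.comm_a hz
  have e3 := fh6_eq2 C.b C.a E C.t C.s ζ C.b_sq h.comm_b hz'
  rw [fh6_tr_ba C.a C.b E h.comm_b] at e3
  obtain ⟨hg1, hg2⟩ := hg
  have hx : ζ = 2 * C.xOf ζ - ((C.s : ℝ) - 1) * ((C.t : ℝ) - 1) := by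
    unfold HeckeCfg.xOf; ring
  obtain ⟨x, hxdef⟩ : ∃ x, x = C.xOf ζ := ⟨_, rfl⟩
  rw [← hxdef] at hx hg1 hg2 ⊢
  obtain ⟨A, hA⟩ : ∃ A, A = (C.a * E).trace := ⟨_, rfl⟩
  obtain ⟨B, hB⟩ : ∃ B, B = (C.b * E).trace := ⟨_, rfl⟩
  obtain ⟨X, hX⟩ : ∃ X, X = (C.a * C.b * E).trace := ⟨_, rfl⟩
  obtain ⟨μ, hμ⟩ : ∃ μ, μ = E.trace := ⟨_, rfl⟩
  obtain ⟨S, hS⟩ : ∃ S, S = (C.s : ℝ) := ⟨_, rfl⟩
  obtain ⟨T, hT⟩ : ∃ T, T = (C.t : ℝ) := ⟨_, rfl⟩
  rw [← hA, ← hB, ← hX, ← hμ, ← hS, ← hT] at e1 e2 e3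
  rw [← hS, ← hT] at hx hg1 hg2
  rw [← hA, ← hB, ← hX, ← hμ, ← hS, ← hT]
  subst hx
  have hD : (2 * x + S + T) * (2 * x - S * T - 1) ≠ 0 := by
    apply mul_ne_zero
    · linarith
    · linarith
  have hA' : (2 * x + S + T) * (2 * x - S * T - 1) * (A - (S - 1) * μ / 2) = 0 := by
    linear_combination ((2 * S * (T - 1) + 2 * x * (S - 1)) / 2) * e1
      + (((S - 1) * (T - 1) - 4 * x) / 2) * e2 + (-(S + 1) ^ 2 / 2) * e3
  have hB' : (2 * x + S + T) * (2 * x - S * T - 1) * (B - (T - 1) * μ / 2) = 0 := by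
    linear_combination ((2 * x * (T - 1) + 2 * T * (S - 1)) / 2) * e1
      + (-(T + 1) ^ 2 / 2) * e2 + (((S - 1) * (T - 1) - 4 * x) / 2) * e3
  have hX' : (2 * x + S + T) * (2 * x - S * T - 1) * (X - μ * x) = 0 := by
    linear_combination ((4 * x ^ 2 - 4 * S * T) / 2) * e1
      + (-(2 * x * (T - 1) + 2 * T * (S - 1)) / 2) * e2
      + (-(2 * S * (T - 1) + 2 * x * (S - 1)) / 2) * e3
  refine ⟨?_, ?_, ?_⟩
  · have := (mul_eq_zero.mp hA').resolve_left hD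
    linarith
  · have := (mul_eq_zero.mp hB').resolve_left hD
    linarith
  · have := (mul_eq_zero.mp hX').resolve_left hD
    linarith

end Cfsg.Agent.Helper76
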