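-- helper76: piece LAG of CALL S5874 (helper95): a Lagrangian subspace for a symplectic form.
import Mathlib
import Cfsg.Prelude.Def_GeometricClasses
import Cfsg.Agent.Helper96.SpBasic

set_option autoImplicit false
open Cfsg Cfsg.Geo Matrix

namespace Cfsg.Agent.Helper76

variable {F : Type*} [Field F]

theorem o12_lag_aux {m : ℕ} (f₂ : (Fin m → F) → (Fin m → F) → F) (hf₂ : IsSymplecticForm f₂) :
    ∀ k : ℕ, ∀ U : Submodule F (Fin m → F), (∀ u ∈ U, ∀ v ∈ U, f₂ u v = 0) →
      m - Module.finrank F U ≤ k →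
      ∃ U' : Submodule F (Fin m → F), (∀ u ∈ U', ∀ v ∈ U', f₂ u v = 0) ∧
        Helper96.Sy.perp hf₂ U' ≤ U' := by
  intro k
  induction k with
  | zero =>
    intro U hU hk
    by_cases hle : Helper96.Sy.perp hf₂ U ≤ U
    · exact ⟨U, hU, hle⟩
    · exfalso
      obtain ⟨x, hx, hxU⟩ := Set.not_subset.mp hle
      have hlt : U < U ⊔ Submodule.span F {x} := by
        refine lt_of_le_of_ne le_sup_left ?_
        intro h
        apply hxU
        have : x ∈ U ⊔ Submodule.span F {x} :=
          Submodule.mem_sup_right (Submodule.mem_span_singleton_self x)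
        rw [← h] at this
        exact this
      have h1 := Submodule.finrank_lt_finrank_of_lt hlt
      have h2 := Submodule.finrank_le (U ⊔ Submodule.span F {x})
      rw [Module.finrank_fintype_fun_eq_card, Fintype.card_fin] at h2
      omega
  | succ k ih =>
    intro U hU hk
    by_cases hle : Helper96.Sy.perp hf₂ U ≤ U
    · exact ⟨U, hU, hle⟩
    · obtain ⟨x, hx, hxU⟩ := Set.not_subset.mp hle
      have hx' : ∀ w ∈ U, f₂ w x = 0 := (Helper96.Sy.mem_perp hf₂ U x).mp hx
      have hx'' : ∀ w ∈ U, f₂ x w = 0 := (Helper96.Sy.mem_perp' hf₂ U x).mp hx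
      have hlt : U < U ⊔ Submodule.span F {x} := by
        refine lt_of_le_of_ne le_sup_left ?_
        intro h
        apply hxU
        have : x ∈ U ⊔ Submodule.span F {x} :=
          Submodule.mem_sup_right (Submodule.mem_span_singleton_self x)
        rw [← h] at this
        exact this
      have h1 := Submodule.finrank_lt_finrank_of_lt hlt
      have h2 := Submodule.finrank_le (U ⊔ Submodule.span F {x})
      rw [Module.finrank_fintype_fun_eq_card, Fintype.card_fin] at h2
      apply ih (U ⊔ Submodule.span F {x})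
      · intro u hu v hv
        obtain ⟨u₁, hu₁, u₂, hu₂, rfl⟩ := Submodule.mem_sup.mp hu
        obtain ⟨v₁, hv₁, v₂, hv₂, rfl⟩ := Submodule.mem_sup.mp hv
        obtain ⟨a, rfl⟩ := Submodule.mem_span_singleton.mp hu₂
        obtain ⟨b, rfl⟩ := Submodule.mem_span_singleton.mp hv₂
        rw [hf₂.bilinear.add_left, hf₂.bilinear.add_right, hf₂.bilinear.add_right,
          hf₂.bilinear.smul_left, hf₂.bilinear.smul_right, hf₂.bilinear.smul_right,
          hf₂.bilinear.smul_left, hU u₁ hu₁ v₁ hv₁, hx' u₁ hu₁, hx'' v₁ hv₁, hf₂.alternating x]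
        ring
      · omega

theorem o12_lagrangian {m : ℕ} (f₂ : (Fin m → F) → (Fin m → F) → F) (hf₂ : IsSymplecticForm f₂) :
    ∃ U₂ : Submodule F (Fin m → F), (∀ u ∈ U₂, ∀ v ∈ U₂, f₂ u v = 0) ∧
      2 * Module.finrank F U₂ = m := by
  obtain ⟨U, hU, hle⟩ := o12_lag_aux f₂ hf₂ m ⊥ (by
      intro u hu v hv
      rw [Submodule.mem_bot] at hu
      subst hu
      exact Helper96.Sy.zero_left hf₂ v) (by omega)
  refine ⟨U, hU, ?_⟩
  have hge : U ≤ Helper96.Sy.perp hf₂ U := by
    intro v hv
    rw [Helper96.Sy.mem_perp]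
    intro w hw
    exact hU w hw v hv
  have heq : Helper96.Sy.perp hf₂ U = U := le_antisymm hle hge
  have h := Helper96.Sy.finrank_perp hf₂ U
  rw [heq, Fintype.card_fin] at h
  omega

end Cfsg.Agent.Helper76
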