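-- helper76: piece N1 of CALL S5874 (helper95): Ω(Q) is irreducible (n ≥ 5, all characteristics).
import Mathlib
import Cfsg.Prelude.Def_GeometricClasses
import Cfsg.Agent.Helper45.SiegelGen
import Cfsg.Agent.Helper94.ONd1
import Cfsg.Agent.Helper94.Quad
import Cfsg.Agent.Helper98.OPar

set_option autoImplicit false
set_option linter.unusedSectionVars false
open Cfsg Cfsg.Geo Matrix

namespace Cfsg.Agent.Helper76

variable {ι : Type} [Fintype ι] [DecidableEq ι] {F : Type*} [Field F]

theorem o12_notOmega_subspace_aux [Fintype F] (Q : QuadraticForm F (ι → F))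
    (hQ : (QuadraticMap.polarBilin Q).Nondegenerate)
    (hn : 5 ≤ Fintype.card ι) (W : Submodule F (ι → F)) (hW0 : W ≠ ⊥) (hW1 : W ≠ ⊤) :
    ¬ omegaGL ⇑Q ≤ subspaceStabilizer W := by
  intro hle
  have hE : ∀ (u b : ι → F), Q u = 0 → QuadraticMap.polar ⇑Q u b = 0 → ∀ w ∈ W,
      w + (QuadraticMap.polar ⇑Q b w - Q b * QuadraticMap.polar ⇑Q u w) • u
        - (QuadraticMap.polar ⇑Q u w) • b ∈ W := by
    intro u b hu hub w hw
    have hmem : ((Helper94.oE Q u b : ↥(isometryGroup F ⇑Q)) : GL ι F) ∈ omegaGL ⇑Q :=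
      ⟨Helper94.oE Q u b, Helper94.oE_mem_omega Q hQ hn u b, rfl⟩
    have h1 := ((Helper94.mem_subspaceStabilizer_iff W _).mp (hle hmem) w).mp hw
    rw [← Helper94.mv_oE Q u b hu hub w]
    exact h1
  -- every singular vector lies in W
  have hsing : ∀ u : ι → F, Q u = 0 → u ∈ W := by
    obtain ⟨w, hwW, hw0⟩ := (Submodule.ne_bot_iff W).mp hW0
    intro u hu
    by_cases hu0 : u = 0
    · rw [hu0]
      exact W.zero_mem
    by_cases hwu : QuadraticMap.polar ⇑Q u w = 0
    · by_cases hmul : w ∈ Submodule.span F {u}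
      · obtain ⟨c, rfl⟩ := Submodule.mem_span_singleton.mp hmul
        have hc : c ≠ 0 := by
          rintro rfl
          exact hw0 (zero_smul _ _)
        have := W.smul_mem c⁻¹ hwW
        rwa [smul_smul, inv_mul_cancel₀ hc, one_smul] at this
      · obtain ⟨x, hx1, hx2⟩ :=
          Helper45.exists_perp_of_notMem Q hQ (Submodule.span F {u}) w hmul
        have hux : QuadraticMap.polar ⇑Q u x = 0 :=
          hx1 u (Submodule.mem_span_singleton_self u)
        have h1 := hE u x hu hux w hwW
        have h2 := W.sub_mem h1 hwW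
        have e : w + (QuadraticMap.polar ⇑Q x w - Q x * QuadraticMap.polar ⇑Q u w) • u
            - (QuadraticMap.polar ⇑Q u w) • x - w = (QuadraticMap.polar ⇑Q x w) • u := by
          rw [hwu]
          module
        rw [e] at h2
        have := W.smul_mem (QuadraticMap.polar ⇑Q x w)⁻¹ h2
        rwa [smul_smul, inv_mul_cancel₀ hx2, one_smul] at this
    · obtain ⟨a, ha, hua, -⟩ := Helper45.exists_nonsing_perp2 Q hQ hn u u
      have ha_notin : a ∉ Submodule.span F {u} := by
        intro h
        obtain ⟨c, rfl⟩ := Submodule.mem_span_singleton.mp h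
        apply ha
        rw [QuadraticMap.map_smul, hu, smul_zero]
      obtain ⟨b, hb1, hb2⟩ :=
        Helper45.exists_perp_of_notMem Q hQ (Submodule.span F {u}) a ha_notin
      have hub : QuadraticMap.polar ⇑Q u b = 0 :=
        hb1 u (Submodule.mem_span_singleton_self u)
      have h1 := hE u a hu hua w hwW
      have h2 := hE u b hu hub w hwW
      have h3 := hE u (b + a) hu
        (by rw [QuadraticMap.polar_add_right, hua, hub, add_zero]) w hwW
      have h5 := W.add_mem (W.sub_mem (W.sub_mem h3 h1) h2) hwW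
      have hQab : Q (b + a) = Q b + Q a + QuadraticMap.polar ⇑Q b a := Helper13.Q_add' Q b a
      have e : w + (QuadraticMap.polar ⇑Q (b + a) w - Q (b + a) * QuadraticMap.polar ⇑Q u w) • u
            - (QuadraticMap.polar ⇑Q u w) • (b + a)
          - (w + (QuadraticMap.polar ⇑Q a w - Q a * QuadraticMap.polar ⇑Q u w) • u
            - (QuadraticMap.polar ⇑Q u w) • a)
          - (w + (QuadraticMap.polar ⇑Q b w - Q b * QuadraticMap.polar ⇑Q u w) • u
            - (QuadraticMap.polar ⇑Q u w) • b) + w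
          = (-(QuadraticMap.polar ⇑Q b a * QuadraticMap.polar ⇑Q u w)) • u := by
        rw [QuadraticMap.polar_add_left, hQab]
        module
      rw [e] at h5
      have hne : -(QuadraticMap.polar ⇑Q b a * QuadraticMap.polar ⇑Q u w) ≠ 0 :=
        neg_ne_zero.mpr (mul_ne_zero hb2 hwu)
      have := W.smul_mem (-(QuadraticMap.polar ⇑Q b a * QuadraticMap.polar ⇑Q u w))⁻¹ h5
      rwa [smul_smul, inv_mul_cancel₀ hne, one_smul] at this
  -- singular vectors span
  apply hW1
  rw [eq_top_iff]
  intro y _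
  obtain ⟨u, hu0, hu, -, -⟩ := Helper45.exists_sing_perp2 Q hn 0 0
  have huu : QuadraticMap.polar ⇑Q u u = 0 := Helper45.polar_self_zero Q u hu
  have key : ∀ z : ι → F, QuadraticMap.polar ⇑Q u z ≠ 0 → z ∈ W := by
    intro z hz
    have h0 : Q (z - (Q z / QuadraticMap.polar ⇑Q u z) • u) = 0 := by
      rw [Helper45.q_sub, QuadraticMap.map_smul, hu, smul_zero, QuadraticMap.polar_smul_right,
        QuadraticMap.polar_comm ⇑Q z u, smul_eq_mul]
      field_simp
      ring
    have h1 := hsing _ h0
    have h2 := W.add_mem h1 (W.smul_mem (Q z / QuadraticMap.polar ⇑Q u z) (hsing u hu))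
    rwa [sub_add_cancel] at h2
  obtain ⟨v, hv⟩ : ∃ v, QuadraticMap.polar ⇑Q u v ≠ 0 := by
    by_contra hcon
    push Not at hcon
    apply hu0
    exact hQ.1 u hcon
  by_cases hy : QuadraticMap.polar ⇑Q u y = 0
  · have h1 : y + v ∈ W := by
      apply key
      rw [QuadraticMap.polar_add_right, hy, zero_add]
      exact hv
    have h2 := W.sub_mem h1 (key v hv)
    rwa [add_sub_cancel_right] at h2
  · exact key y hy

theorem o12_notOmega_subspace [Fintype F] (Q : (ι → F) → F) (hQ : IsNondegenerateQuadraticForm Q)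
    (hn : 5 ≤ Fintype.card ι) (W : Submodule F (ι → F)) (hW0 : W ≠ ⊥) (hW1 : W ≠ ⊤) :
    ¬ omegaGL Q ≤ subspaceStabilizer W :=
  o12_notOmega_subspace_aux (Helper98.op_qf Q hQ) (Helper98.op_qf_nondeg Q hQ) hn W hW0 hW1

end Cfsg.Agent.Helper76
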