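import Mathlib
import Cfsg.Agent.Helper44.UCDefs

/-!
# helper76: CALL S2646 (helper44), PIECE CAYLEY — `H` is `J`-invariant iff the Cayley transform
`(J - 1) (lam + lam^q J)⁻¹` is `H`-skew (`lam + lam ^ q = 1`).
-/

set_option autoImplicit false

namespace Cfsg.Agent.Helper76.UCCAYLEY

open Matrix Cfsg.Agent.Helper21.JCent Cfsg.Agent.Helper44.UC

/-- CAYLEY: `H` is `J`-invariant iff the Cayley transform `(J - 1) (lam + lam^q J)⁻¹` is
`H`-skew (`lam + lam ^ q = 1`). -/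
theorem uc_cayley {K : Type*} [Field K] [Fintype K] {q : ℕ} (hK : Fintype.card K = q ^ 2)
    {ι : Type*} [Fintype ι] [DecidableEq ι] (lam : K) (hlam : lam + lam ^ q = 1)
    (J : Matrix ι ι K) (hB : IsUnit (lam • (1 : Matrix ι ι K) + lam ^ q • J).det) :
    invForms q J = skewForms q ((J - 1) * (lam • (1 : Matrix ι ι K) + lam ^ q • J)⁻¹) := by
  obtain ⟨B, hBdef⟩ : ∃ B : Matrix ι ι K, B = lam • (1 : Matrix ι ι K) + lam ^ q • J := ⟨_, rfl⟩
  rw [← hBdef] at hB ⊢
  have hB' : IsUnit (hT q B).det := isUnit_det_hT hK B hB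
  have hTB : hT q B = lam ^ q • (1 : Matrix ι ι K) + lam • hT q J := by
    rw [hBdef, hT_add hK, hT_smul hK, hT_smul hK, hT_one hK,
      Cfsg.Agent.Helper43.NormH90.pow_q_q hK]
  have hTA : hT q (J - 1) = hT q J - 1 := by rw [hT_sub hK, hT_one hK]
  have key : ∀ H : Matrix ι ι K,
      hT q B * (hT q ((J - 1) * B⁻¹) * H + H * ((J - 1) * B⁻¹)) * B
        = hT q J * H * J - H := by
    intro H
    rw [hT_mul hK, hT_inv hK B hB]
    have h1 : hT q B * ((hT q B)⁻¹ * hT q (J - 1) * H + H * ((J - 1) * B⁻¹)) * B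
        = (hT q B * (hT q B)⁻¹) * hT q (J - 1) * H * B
          + hT q B * H * (J - 1) * (B⁻¹ * B) := by
      noncomm_ring
    rw [h1, Matrix.mul_nonsing_inv _ hB', Matrix.nonsing_inv_mul _ hB, hTA, hTB, hBdef]
    have hl : lam ^ q = 1 - lam := by rw [← hlam]; ring
    rw [hl]
    simp only [Matrix.mul_one, Matrix.one_mul, mul_add, add_mul, mul_sub, sub_mul,
      smul_mul_assoc, mul_smul_comm, Matrix.mul_assoc]
    module
  ext H
  simp only [invForms, skewForms, Set.mem_setOf_eq]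
  constructor
  · rintro ⟨h1, h2, h3⟩
    refine ⟨h1, h2, ?_⟩
    have hk := key H
    rw [h3, sub_self] at hk
    have hE : ∀ E : Matrix ι ι K, E = (hT q B)⁻¹ * (hT q B * E * B) * B⁻¹ := by
      intro E
      rw [Matrix.mul_assoc (hT q B), ← Matrix.mul_assoc (hT q B)⁻¹,
        Matrix.nonsing_inv_mul _ hB', Matrix.one_mul, Matrix.mul_assoc,
        Matrix.mul_nonsing_inv _ hB, Matrix.mul_one]
    rw [hE (hT q ((J - 1) * B⁻¹) * H + H * ((J - 1) * B⁻¹)), hk, Matrix.mul_zero,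
      Matrix.zero_mul]
  · rintro ⟨h1, h2, h3⟩
    refine ⟨h1, h2, ?_⟩
    have hk := key H
    rw [h3, Matrix.mul_zero, Matrix.zero_mul] at hk
    exact sub_eq_zero.mp hk.symm

end Cfsg.Agent.Helper76.UCCAYLEY
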