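import Mathlib
import Cfsg.Agent.Helper57.J1oDefs

/-!
# CALL S4274, piece P9 (helper76): no simple groups of order 760, 1140, 2280, 2926, 4389
(given the Sylow data `J1oSylData`).
-/

set_option autoImplicit false

namespace Cfsg.Agent.Helper76

open Cfsg.Agent.Helper57

universe u

/-- P9. -/
theorem j1o_no_simple_760 (SD : J1oSylData.{u}) {H : Type u} [Group H] [Finite H]
    [IsSimpleGroup H]
    (h : Nat.card H = 760) : False := by
  have : Fact (Nat.Prime 19) := ⟨by norm_num⟩
  obtain ⟨n, e, c, h1, h2, h3, h4, h5, h6, h7, h8, -⟩ :=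
    SD H 19 (by rw [h]; norm_num) (by rw [h]; norm_num) (by rw [h]; norm_num)
  rw [h] at h1 h4
  have hm := j1o_mem_opts (by norm_num) h1 h2 h3 h5 h6
  rw [show j1oOpts 760 19 = [(20, 2, 1)] from by decide +kernel] at hm
  simp only [List.mem_cons, Prod.mk.injEq, List.not_mem_nil, or_false] at hm
  obtain ⟨rfl, rfl, rfl⟩ := hm
  exact h8 (by norm_num) (by norm_num) (by norm_num)

theorem j1o_no_simple_1140 (SD : J1oSylData.{u}) {H : Type u} [Group H] [Finite H]
    [IsSimpleGroup H]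
    (h : Nat.card H = 1140) : False := by
  have : Fact (Nat.Prime 5) := ⟨by norm_num⟩
  obtain ⟨n, e, c, h1, h2, h3, h4, h5, h6, -⟩ :=
    SD H 5 (by rw [h]; norm_num) (by rw [h]; norm_num) (by rw [h]; norm_num)
  rw [h] at h1 h4
  have hm := j1o_mem_opts (by norm_num) h1 h2 h3 h5 h6
  rw [show j1oOpts 1140 5 = [(6, 2, 19)] from by decide +kernel] at hm
  simp only [List.mem_cons, Prod.mk.injEq, List.not_mem_nil, or_false] at hm
  obtain ⟨rfl, rfl, rfl⟩ := hm
  have := h4 19 (by norm_num) (by norm_num)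
  omega

theorem j1o_no_simple_2280 (SD : J1oSylData.{u}) {H : Type u} [Group H] [Finite H]
    [IsSimpleGroup H]
    (h : Nat.card H = 2280) : False := by
  have : Fact (Nat.Prime 19) := ⟨by norm_num⟩
  obtain ⟨n, e, c, h1, h2, h3, h4, h5, h6, h7, h8, -⟩ :=
    SD H 19 (by rw [h]; norm_num) (by rw [h]; norm_num) (by rw [h]; norm_num)
  rw [h] at h1 h4
  have hm := j1o_mem_opts (by norm_num) h1 h2 h3 h5 h6
  rw [show j1oOpts 2280 19 = [(20, 2, 3), (20, 3, 2), (20, 6, 1)] from by decide +kernel] at hm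
  simp only [List.mem_cons, Prod.mk.injEq, List.not_mem_nil, or_false] at hm
  rcases hm with ⟨rfl, rfl, rfl⟩ | ⟨rfl, rfl, rfl⟩ | ⟨rfl, rfl, rfl⟩
  · have := h7 3 (by norm_num) (by norm_num)
    omega
  · have := h7 2 (by norm_num) (by norm_num)
    omega
  · exact h8 (by norm_num) (by norm_num) (by norm_num)

theorem j1o_no_simple_2926 (SD : J1oSylData.{u}) {H : Type u} [Group H] [Finite H]
    [IsSimpleGroup H]
    (h : Nat.card H = 2926) : False := by
  have : Fact (Nat.Prime 7) := ⟨by norm_num⟩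
  obtain ⟨n, e, c, h1, h2, h3, h4, h5, h6, -⟩ :=
    SD H 7 (by rw [h]; norm_num) (by rw [h]; norm_num) (by rw [h]; norm_num)
  rw [h] at h1 h4
  have hm := j1o_mem_opts (by norm_num) h1 h2 h3 h5 h6
  rw [show j1oOpts 2926 7 = [] from by decide +kernel] at hm
  simp at hm

theorem j1o_no_simple_4389 (SD : J1oSylData.{u}) {H : Type u} [Group H] [Finite H]
    [IsSimpleGroup H]
    (h : Nat.card H = 4389) : False := by
  have : Fact (Nat.Prime 3) := ⟨by norm_num⟩
  obtain ⟨n, e, c, h1, h2, h3, h4, h5, h6, -⟩ :=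
    SD H 3 (by rw [h]; norm_num) (by rw [h]; norm_num) (by rw [h]; norm_num)
  rw [h] at h1 h4
  have hm := j1o_mem_opts (by norm_num) h1 h2 h3 h5 h6
  rw [show j1oOpts 4389 3 = [] from by decide +kernel] at hm
  simp at hm

end Cfsg.Agent.Helper76
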