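import Mathlib
import Cfsg.Prelude.Def_GeometricClasses
import Cfsg.Agent.Helper69.E4Def
import Cfsg.Agent.Helper66.E4BASE1

set_option autoImplicit false
set_option linter.unusedSimpArgs false
set_option linter.unreachableTactic false
set_option linter.unusedTactic false

namespace Cfsg.Agent.Helper76
open Cfsg.Agent.Helper69
open scoped Matrix

theorem e4_norm_aux {F : Type*} [Field F] (h2 : (2 : F) ≠ 0) (ι : F) (hι : ι ^ 2 = -1)
    (c : F) (g : GL (Fin 4) F) (M : Matrix (Fin 4) (Fin 4) F)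
    (hg : (g : Matrix (Fin 4) (Fin 4) F) = c • M)
    (a1 b1 c1 d1 e1 a2 b2 c2 d2 e2 a3 b3 c3 d3 e3 a4 b4 c4 d4 e4 : ℕ)
    (hX1 : M * e4X1 F = (ι ^ a1 • e4Pauli F b1 c1 d1 e1) * M)
    (hZ1 : M * e4Z1 F = (ι ^ a2 • e4Pauli F b2 c2 d2 e2) * M)
    (hX2 : M * e4X2 F = (ι ^ a3 • e4Pauli F b3 c3 d3 e3) * M)
    (hZ2 : M * e4Z2 F = (ι ^ a4 • e4Pauli F b4 c4 d4 e4) * M) :
    g ∈ Cfsg.Geo.subgroupNormalizer (E4 ι) := by
  apply Cfsg.Agent.Helper66.e4_mem_normalizer h2 ι hι g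
  · refine ⟨_, Cfsg.Agent.Helper66.e4g_mem ι hι a1 b1 c1 d1 e1, ?_⟩
    rw [Cfsg.Agent.Helper66.e4g_val, hg, Matrix.smul_mul, Matrix.mul_smul, hX1]
  · refine ⟨_, Cfsg.Agent.Helper66.e4g_mem ι hι a2 b2 c2 d2 e2, ?_⟩
    rw [Cfsg.Agent.Helper66.e4g_val, hg, Matrix.smul_mul, Matrix.mul_smul, hZ1]
  · refine ⟨_, Cfsg.Agent.Helper66.e4g_mem ι hι a3 b3 c3 d3 e3, ?_⟩
    rw [Cfsg.Agent.Helper66.e4g_val, hg, Matrix.smul_mul, Matrix.mul_smul, hX2]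
  · refine ⟨_, Cfsg.Agent.Helper66.e4g_mem ι hι a4 b4 c4 d4 e4, ?_⟩
    rw [Cfsg.Agent.Helper66.e4g_val, hg, Matrix.smul_mul, Matrix.mul_smul, hZ2]

theorem e4_T1_mem_normalizer {F : Type*} [Field F] (h2 : (2 : F) ≠ 0) (ι : F) (hι : ι ^ 2 = -1)
    (c : F) (g : GL (Fin 4) F) (hg : (g : Matrix (Fin 4) (Fin 4) F) = c • e4T1 ι) :
    g ∈ Cfsg.Geo.subgroupNormalizer (E4 ι) := by
  apply e4_norm_aux h2 ι hι c g (e4T1 ι) hg 0 0 1 0 0 1 1 1 0 0 0 0 0 1 0 0 0 0 0 1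
  · ext i j
    fin_cases i <;> fin_cases j <;>
      simp [e4T1, e4T2, e4Y5, e4Pauli, e4X1, e4Z1, e4X2, e4Z2, Matrix.mul_apply,
        Fin.sum_univ_four] <;>
      grind
  · ext i j
    fin_cases i <;> fin_cases j <;>
      simp [e4T1, e4T2, e4Y5, e4Pauli, e4X1, e4Z1, e4X2, e4Z2, Matrix.mul_apply,
        Fin.sum_univ_four] <;>
      grind
  · ext i j
    fin_cases i <;> fin_cases j <;>
      simp [e4T1, e4T2, e4Y5, e4Pauli, e4X1, e4Z1, e4X2, e4Z2, Matrix.mul_apply,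
        Fin.sum_univ_four] <;>
      grind
  · ext i j
    fin_cases i <;> fin_cases j <;>
      simp [e4T1, e4T2, e4Y5, e4Pauli, e4X1, e4Z1, e4X2, e4Z2, Matrix.mul_apply,
        Fin.sum_univ_four] <;>
      grind

theorem e4_T2_mem_normalizer {F : Type*} [Field F] (h2 : (2 : F) ≠ 0) (ι : F) (hι : ι ^ 2 = -1)
    (c : F) (g : GL (Fin 4) F) (hg : (g : Matrix (Fin 4) (Fin 4) F) = c • e4T2 ι) :
    g ∈ Cfsg.Geo.subgroupNormalizer (E4 ι) := by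
  apply e4_norm_aux h2 ι hι c g (e4T2 ι) hg 0 0 1 0 0 1 1 1 0 0 0 0 0 0 1 1 0 0 1 1
  · ext i j
    fin_cases i <;> fin_cases j <;>
      simp [e4T1, e4T2, e4Y5, e4Pauli, e4X1, e4Z1, e4X2, e4Z2, Matrix.mul_apply,
        Fin.sum_univ_four] <;>
      grind
  · ext i j
    fin_cases i <;> fin_cases j <;>
      simp [e4T1, e4T2, e4Y5, e4Pauli, e4X1, e4Z1, e4X2, e4Z2, Matrix.mul_apply,
        Fin.sum_univ_four] <;>
      grind
  · ext i j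
    fin_cases i <;> fin_cases j <;>
      simp [e4T1, e4T2, e4Y5, e4Pauli, e4X1, e4Z1, e4X2, e4Z2, Matrix.mul_apply,
        Fin.sum_univ_four] <;>
      grind
  · ext i j
    fin_cases i <;> fin_cases j <;>
      simp [e4T1, e4T2, e4Y5, e4Pauli, e4X1, e4Z1, e4X2, e4Z2, Matrix.mul_apply,
        Fin.sum_univ_four] <;>
      grind

theorem e4_Y5_mem_normalizer {F : Type*} [Field F] (h2 : (2 : F) ≠ 0) (ι : F) (hι : ι ^ 2 = -1)
    (c : F) (g : GL (Fin 4) F) (hg : (g : Matrix (Fin 4) (Fin 4) F) = c • e4Y5 ι) :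
    g ∈ Cfsg.Geo.subgroupNormalizer (E4 ι) := by
  apply e4_norm_aux h2 ι hι c g (e4Y5 ι) hg 3 1 1 1 0 0 1 0 0 0 0 1 0 0 1 0 0 0 1 0
  · ext i j
    fin_cases i <;> fin_cases j <;>
      simp [e4T1, e4T2, e4Y5, e4Pauli, e4X1, e4Z1, e4X2, e4Z2, Matrix.mul_apply,
        Fin.sum_univ_four] <;>
      grind
  · ext i j
    fin_cases i <;> fin_cases j <;>
      simp [e4T1, e4T2, e4Y5, e4Pauli, e4X1, e4Z1, e4X2, e4Z2, Matrix.mul_apply,
        Fin.sum_univ_four] <;>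
      grind
  · ext i j
    fin_cases i <;> fin_cases j <;>
      simp [e4T1, e4T2, e4Y5, e4Pauli, e4X1, e4Z1, e4X2, e4Z2, Matrix.mul_apply,
        Fin.sum_univ_four] <;>
      grind
  · ext i j
    fin_cases i <;> fin_cases j <;>
      simp [e4T1, e4T2, e4Y5, e4Pauli, e4X1, e4Z1, e4X2, e4Z2, Matrix.mul_apply,
        Fin.sum_univ_four] <;>
      grind

end Cfsg.Agent.Helper76
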