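import Cfsg.Agent.Helper76.ItoD
import Cfsg.Agent.Helper76.PQMin

/-!
# Ito's theorem on `p`-solvable linear groups of degree `< p`, part E (helper76)

* `ito_exists_noncentral`: in a `p`-solvable group with an abelian non-normal Sylow
  `p`-subgroup `P`, some element of `P` does not centralize `O_{p'}(G)`.
* `ito_main`: **Ito's theorem**. If the `p`-solvable group `G` has a faithful character of degree
  `n ≤ p - 1` and a non-normal Sylow `p`-subgroup, then `n = p - 1` is a power of `2` and the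
  character is irreducible.
-/

set_option autoImplicit false

namespace Cfsg.Agent.Helper76

open Cfsg

theorem ito_exists_noncentral {G : Type*} [Group G] [Finite G] (p : ℕ) (hp : p.Prime)
    (hsolv : IsPSolvable p G) (P : Sylow p G)
    (hab : ∀ a ∈ (P : Subgroup G), ∀ b ∈ (P : Subgroup G), a * b = b * a)
    (hP : ¬ (P : Subgroup G).Normal) :
    ∃ x ∈ (P : Subgroup G), ∃ l ∈ pPrimeCore p G, x * l ≠ l * x := by
  have hfact : Fact p.Prime := ⟨hp⟩
  by_contra hcon
  push Not at hcon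
  apply hP
  have hKn : (pPrimeCore p G).Normal := pPrimeCore_normal
  have hKc : ∀ l ∈ pPrimeCore p G, (orderOf l).Coprime p := pPrimeCore_forall_coprime
  have hs : IsPSolvableElt p (G ⧸ pPrimeCore p G) :=
    (isPSolvableElt_of_isPSolvable hsolv).quotient (pPrimeCore p G)
  have h0 : pPrimeCore p (G ⧸ pPrimeCore p G) = ⊥ := pPrimeCore_quotient_eq_bot
  have hC := centralizer_pCore_le hs h0
  have hOn : (pCore p (G ⧸ pPrimeCore p G)).Normal := pCore_normal
  have hsurj := QuotientGroup.mk'_surjective (pPrimeCore p G)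
  have hOP : pCore p (G ⧸ pPrimeCore p G) ≤ (P.mapSurjective hsurj : Subgroup _) :=
    normal_le_sylow pCore_isPGroup (P.mapSurjective hsurj)
  rw [Sylow.coe_mapSurjective] at hOP
  have hPO : (P : Subgroup G).map (QuotientGroup.mk' (pPrimeCore p G)) ≤
      pCore p (G ⧸ pPrimeCore p G) := by
    refine le_trans ?_ hC
    rintro _ ⟨a, ha, rfl⟩
    rw [Subgroup.mem_centralizer_iff]
    intro z hz
    obtain ⟨b, hb, rfl⟩ := hOP hz
    rw [← map_mul, ← map_mul, hab b hb a ha]
  have hEq : (P : Subgroup G).map (QuotientGroup.mk' (pPrimeCore p G)) =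
      pCore p (G ⧸ pPrimeCore p G) := le_antisymm hPO hOP
  have hPn : ((P : Subgroup G).map (QuotientGroup.mk' (pPrimeCore p G))).Normal := hEq ▸ hOn
  constructor
  intro n hn g
  have h1 : QuotientGroup.mk' (pPrimeCore p G) (g * n * g⁻¹) ∈
      (P : Subgroup G).map (QuotientGroup.mk' (pPrimeCore p G)) := by
    rw [map_mul, map_mul, map_inv]
    exact hPn.conj_mem _ (Subgroup.mem_map_of_mem _ hn) _
  obtain ⟨u, hu, hu2⟩ := h1
  have hl : u⁻¹ * (g * n * g⁻¹) ∈ pPrimeCore p G := QuotientGroup.eq.mp hu2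
  have hcomm : Commute u (u⁻¹ * (g * n * g⁻¹)) := hcon u hu _ hl
  have hu1 := blich_pow_ordProj p hp u (blich_pelt_of_mem P.isPGroup' hu)
  have hn1 := blich_pow_ordProj p hp n (blich_pelt_of_mem P.isPGroup' hn)
  have h2 : (u * (u⁻¹ * (g * n * g⁻¹))) ^ (p ^ ((Nat.card G).factorization p)) = 1 := by
    rw [mul_inv_cancel_left, conj_pow, hn1, mul_one, mul_inv_cancel]
  rw [hcomm.mul_pow, hu1, one_mul] at h2
  have h3 : orderOf (u⁻¹ * (g * n * g⁻¹)) = 1 :=
    Nat.Coprime.eq_one_of_dvd ((hKc _ hl).pow_right _) (orderOf_dvd_of_pow_eq_one h2)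
  have h4 : u⁻¹ * (g * n * g⁻¹) = 1 := orderOf_eq_one_iff.mp h3
  have h5 : g * n * g⁻¹ = u := by
    rw [← mul_inv_cancel_left u (g * n * g⁻¹), h4, mul_one]
  rw [h5]
  exact hu

theorem ito_main {G : Type*} [Group G] [Finite G] (χ : G → ℂ) (hχ : IsCharacter G χ)
    (hfaith : ∀ g : G, χ g = χ 1 → g = 1) (n : ℕ) (hn : charDegree χ = n) (p : ℕ)
    (hp : p.Prime) (hsolv : IsPSolvable p G) (hnp : n + 1 ≤ p) (P : Sylow p G)
    (hP : ¬ (P : Subgroup G).Normal) :
    n + 1 = p ∧ (∃ k : ℕ, n = 2 ^ k) ∧ IsIrrCharacter G χ := by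
  classical
  let _ : Fintype G := Fintype.ofFinite G
  have hfact : Fact p.Prime := ⟨hp⟩
  -- `P` is abelian
  have hPab : ∀ a b : (P : Subgroup G), a * b = b * a := by
    apply blich_pgroup_abelian p hp P.isPGroup' (fun y : (P : Subgroup G) => χ y)
      (Helper79.isCharacter_restrict hχ P)
    · intro g hg
      exact Subtype.ext (hfaith _ hg)
    · show charDegree χ < p
      omega
  have hab : ∀ a ∈ (P : Subgroup G), ∀ b ∈ (P : Subgroup G), a * b = b * a := by
    intro a ha b hb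
    exact congrArg Subtype.val (hPab ⟨a, ha⟩ ⟨b, hb⟩)
  obtain ⟨x, hxP, l, hl, hxl⟩ := ito_exists_noncentral p hp hsolv P hab hP
  have hKn : (pPrimeCore p G).Normal := pPrimeCore_normal
  have hKc : ∀ l ∈ pPrimeCore p G, (orderOf l).Coprime p := pPrimeCore_forall_coprime
  have hxp : ∃ j, x ^ (p ^ j) = 1 := blich_pelt_of_mem P.isPGroup' hxP
  have hcomm_ne : ∀ s : G, x * s ≠ s * x → χ (x * s * x⁻¹ * s⁻¹) ≠ χ 1 := by
    intro s hs h
    apply hs
    have h1 := hfaith _ h
    have h2 := congrArg (fun z => z * s * x) h1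
    simpa [mul_assoc] using h2
  have hne := hcomm_ne l hxl
  have hxK : x ∈ Subgroup.normalizer ((pPrimeCore p G : Subgroup G) : Set G) := by
    rw [Subgroup.normalizer_eq_top]
    exact Subgroup.mem_top x
  obtain ⟨d, hd1, hd2, -⟩ := ito_exists_degree p hp (pPrimeCore p G) hKc x hxp hxK χ hχ l hl hne
  have hnp' : n + 1 = p := by omega
  refine ⟨hnp', ?_, ?_⟩
  · -- `n` is a power of `2`
    obtain ⟨r, S, hr, hS, hSK, hxS, s, hs, hxs⟩ :=
      ito_exists_rsubgroup p hp (pPrimeCore p G) hKc x hxp l hl hxl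
    have hSc : ∀ l ∈ S, (orderOf l).Coprime p := fun l hl => hKc l (hSK hl)
    obtain ⟨d, hd1, hd2, b, hdb⟩ :=
      ito_exists_degree p hp S hSc x hxp hxS χ hχ s hs (hcomm_ne s hxs)
    have hdn : d = n := by omega
    have hfr : Fact r.Prime := ⟨hr⟩
    obtain ⟨m, hm⟩ := IsPGroup.iff_card.mp hS
    rw [hm, hdn] at hdb
    have hn0 : 0 < n := by
      have := hp.two_le
      omega
    have hcop : Nat.Coprime n (p ^ b) :=
      (Nat.Coprime.symm ((Nat.Prime.coprime_iff_not_dvd hp).mpr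
        (Nat.not_dvd_of_pos_of_lt hn0 (by omega)))).pow_right b
    have h1 : n ∣ r ^ m := hcop.dvd_of_dvd_mul_right hdb
    obtain ⟨i, -, hi⟩ := (Nat.dvd_prime_pow hr).mp h1
    by_cases hp2 : p = 2
    · exact ⟨0, by omega⟩
    · rcases hp.eq_two_or_odd' with h | h
      · exact absurd h hp2
      · have h2 : 2 ∣ n := by
          obtain ⟨t, ht⟩ := h
          omega
        rw [hi] at h2
        have h3 : 2 ∣ r := Nat.Prime.dvd_of_dvd_pow Nat.prime_two h2
        have h4 : 2 = r := (Nat.prime_dvd_prime_iff_eq Nat.prime_two hr).mp h3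
        exact ⟨i, by rw [hi, h4]⟩
  · -- `χ` is irreducible
    obtain ⟨ψ, hψ1, hψ2⟩ := ito_exists_constituent hχ _ hne
    have hψc : IsCharacter G (ψ : G → ℂ) := Helper80.isCharacter_of_irr ψ.2
    have hle := Helper15.charDegree_le_of_constituent χ hχ (ψ : G → ℂ) ψ.2 hψ2
    obtain ⟨d', hd'1, hd'2, -⟩ :=
      ito_exists_degree p hp (pPrimeCore p G) hKc x hxp hxK (ψ : G → ℂ) hψc l hl hψ1
    have hdeg : charDegree (ψ : G → ℂ) = n := by omega
    obtain ⟨a, ha⟩ := Helper15.inner_nat hχ hψc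
    have ha0 : a ≠ 0 := by
      rintro rfl
      exact hψ2 (by rw [ha]; simp)
    have hsm := Helper15.char_eq_smul_of_degree_le χ hχ (ψ : G → ℂ) ψ.2 a ha (by
      rw [hdeg, hn]
      exact Nat.le_mul_of_pos_left n (Nat.pos_of_ne_zero ha0))
    have h1 := congrFun hsm 1
    rw [Helper79.isCharacter_one_eq_charDegree hχ, Pi.smul_apply,
      Helper79.isCharacter_one_eq_charDegree hψc, hn, hdeg, smul_eq_mul] at h1
    have hn0 : (n : ℂ) ≠ 0 := by
      have := hp.two_le
      have : n ≠ 0 := by omega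
      exact_mod_cast this
    have ha1 : (a : ℂ) = 1 := by
      have h2 : (a : ℂ) * (n : ℂ) = 1 * (n : ℂ) := by rw [one_mul]; exact h1.symm
      exact mul_right_cancel₀ hn0 h2
    rw [ha1, one_smul] at hsm
    rw [hsm]
    exact ψ.2

end Cfsg.Agent.Helper76
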