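-- helper76: piece KUM of CALL S5949 (helper90): a matrix of SL_n(F) with x^r = c (companion blocks of X^r - c).
import Mathlib

set_option autoImplicit false
open Polynomial

namespace Cfsg.Agent.Helper76

/-- The `r × r` block: multiplication by the root on `F[X]/(X^r - c)` in the power basis. -/
theorem bgl_kummer_block {F : Type*} [Field F] (r : ℕ) (hr : r ≠ 0) (c : F) :
    ∃ (d : ℕ) (M : Matrix (Fin d) (Fin d) F), d = r ∧ M ^ r = c • (1 : Matrix (Fin d) (Fin d) F) ∧
      M.det = (-1 : F) ^ (r + 1) * c := by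
  classical
  have hfm : (X ^ r - C c : F[X]).Monic := monic_X_pow_sub_C c hr
  have hf0 : (X ^ r - C c : F[X]) ≠ 0 := hfm.ne_zero
  have hdeg : (X ^ r - C c : F[X]).natDegree = r := natDegree_X_pow_sub_C
  refine ⟨(AdjoinRoot.powerBasis hf0).dim,
    Algebra.leftMulMatrix (AdjoinRoot.powerBasis hf0).basis (AdjoinRoot.powerBasis hf0).gen,
    hdeg, ?_, ?_⟩
  · rw [← map_pow]
    have h1 : (AdjoinRoot.powerBasis hf0).gen ^ r = algebraMap F (AdjoinRoot (X ^ r - C c : F[X])) c := by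
      have h := AdjoinRoot.eval₂_root (X ^ r - C c : F[X])
      simp only [eval₂_sub, eval₂_pow, eval₂_X, eval₂_C] at h
      rw [AdjoinRoot.powerBasis_gen, AdjoinRoot.algebraMap_eq]
      exact sub_eq_zero.mp h
    rw [h1, AlgHom.commutes, Algebra.algebraMap_eq_smul_one]
  · rw [← Algebra.norm_eq_matrix_det, Algebra.PowerBasis.norm_gen_eq_coeff_zero_minpoly,
      AdjoinRoot.minpoly_powerBasis_gen_of_monic hfm]
    have hdim : (AdjoinRoot.powerBasis hf0).dim = r := hdeg
    rw [hdim, coeff_sub, coeff_X_pow, coeff_C_zero, if_neg (fun h => hr h.symm)]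
    ring

theorem bgl_exists_kummer {F : Type*} [Field F] (n r : ℕ) (hr : r.Prime) (hrn : r ∣ n) (c : F) (hdet : ((-1 : F) ^ (r + 1) * c) ^ (n / r) = 1) :
    ∃ x : Matrix.SpecialLinearGroup (Fin n) F, ((x ^ r : Matrix.SpecialLinearGroup (Fin n) F) : Matrix (Fin n) (Fin n) F) = c • (1 : Matrix (Fin n) (Fin n) F) := by
  classical
  obtain ⟨d, M, hd, hMr, hMdet⟩ := bgl_kummer_block r hr.ne_zero c
  subst hd
  have hcard : Fintype.card (Fin d × Fin (n / d)) = n := by
    rw [Fintype.card_prod, Fintype.card_fin, Fintype.card_fin]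
    exact Nat.mul_div_cancel' hrn
  obtain ⟨e⟩ : Nonempty (Fin d × Fin (n / d) ≃ Fin n) := ⟨Fintype.equivFinOfCardEq hcard⟩
  have hBr : Matrix.blockDiagonal (fun _ : Fin (n / d) => M) ^ d
      = c • (1 : Matrix (Fin d × Fin (n / d)) (Fin d × Fin (n / d)) F) := by
    rw [← Matrix.blockDiagonal_pow]
    have h1 : (fun _ : Fin (n / d) => M) ^ d = c • (1 : Fin (n / d) → Matrix (Fin d) (Fin d) F) := by
      funext k
      simp [hMr]
    rw [h1, Matrix.blockDiagonal_smul, Matrix.blockDiagonal_one]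
  have hBdet : (Matrix.blockDiagonal (fun _ : Fin (n / d) => M)).det = 1 := by
    rw [Matrix.det_blockDiagonal, Finset.prod_const, Finset.card_univ, Fintype.card_fin, hMdet]
    exact hdet
  have hdetx : ((Matrix.reindexAlgEquiv F F e) (Matrix.blockDiagonal (fun _ : Fin (n / d) => M))).det = 1 := by
    rw [Matrix.coe_reindexAlgEquiv, Matrix.det_reindex_self]
    exact hBdet
  obtain ⟨x, hx⟩ : ∃ x : Matrix.SpecialLinearGroup (Fin n) F,
      (x : Matrix (Fin n) (Fin n) F)
        = (Matrix.reindexAlgEquiv F F e) (Matrix.blockDiagonal (fun _ : Fin (n / d) => M)) :=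
    ⟨(⟨_, hdetx⟩ : Matrix.SpecialLinearGroup (Fin n) F), rfl⟩
  refine ⟨x, ?_⟩
  rw [Matrix.SpecialLinearGroup.coe_pow, hx, ← map_pow, hBr, map_smul, map_one]

end Cfsg.Agent.Helper76
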