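-- helper76: piece NT of CALL S5949 (helper90): arithmetic in the cyclic group F^* of a finite field.
import Mathlib

set_option autoImplicit false
set_option linter.unusedVariables false

namespace Cfsg.Agent.Helper76

/-- In a finite field, `y ^ (n / r) = 1` with `v_r(n) ≤ v_r(q - 1)` forces `y` to be an `r`-th power. -/
theorem bgl_nt_core {F : Type*} [Field F] [Fintype F] (n r : ℕ) [Fact r.Prime]
    (hrn : r ∣ n) (hn : 0 < n)
    (hval : padicValNat r n ≤ padicValNat r (Fintype.card F - 1))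
    (y : F) (hy : y ^ (n / r) = 1) : ∃ b : F, b ^ r = y := by
  classical
  have hr : r.Prime := Fact.out
  have hm : 0 < n / r := Nat.div_pos (Nat.le_of_dvd hn hrn) hr.pos
  have hy0 : y ≠ 0 := by
    rintro rfl
    rw [zero_pow (by omega)] at hy
    exact zero_ne_one hy
  obtain ⟨g, hg⟩ := IsCyclic.exists_generator (α := Fˣ)
  have hog : orderOf g = Fintype.card F - 1 := by
    rw [orderOf_eq_card_of_forall_mem_zpowers hg, Nat.card_eq_fintype_card, Fintype.card_units]
  obtain ⟨j, hj⟩ : ∃ j : ℕ, g ^ j = Units.mk0 y hy0 := by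
    have := mem_powers_iff_mem_zpowers.mpr (hg (Units.mk0 y hy0))
    exact this
  have h1 : g ^ (j * (n / r)) = 1 := by
    rw [pow_mul, hj]
    apply Units.ext
    rw [Units.val_pow_eq_pow_val, Units.val_mk0, hy, Units.val_one]
  have h2 : Fintype.card F - 1 ∣ j * (n / r) := by
    rw [← hog]
    exact orderOf_dvd_of_pow_eq_one h1
  have h3 : r ^ padicValNat r n ∣ Fintype.card F - 1 :=
    (pow_dvd_pow r hval).trans pow_padicValNat_dvd
  have h4 : r ^ padicValNat r n ∣ j * (n / r) := h3.trans h2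
  have hrj : r ∣ j := by
    by_contra hnd
    have hcop : Nat.Coprime (r ^ padicValNat r n) j :=
      Nat.Coprime.pow_left _ ((Nat.Prime.coprime_iff_not_dvd hr).mpr hnd)
    have h5 : r ^ padicValNat r n ∣ n / r := hcop.dvd_of_dvd_mul_left h4
    have h6 : r * r ^ padicValNat r n ∣ n := Nat.mul_dvd_of_dvd_div hrn h5
    have h7 := pow_succ_padicValNat_not_dvd (p := r) (n := n) (by omega)
    apply h7
    rw [pow_succ, mul_comm]
    exact h6
  obtain ⟨k, rfl⟩ := hrj
  refine ⟨((g ^ k : Fˣ) : F), ?_⟩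
  rw [← Units.val_pow_eq_pow_val, ← pow_mul, mul_comm k r, hj, Units.val_mk0]

theorem bgl_nt_exists {F : Type*} [Field F] [Fintype F] (n r : ℕ) [Fact r.Prime] (hr1 : r ∣ Fintype.card F - 1)
    (hv : padicValNat r (Fintype.card F - 1) < padicValNat r n) (h2 : r = 2 → Fintype.card F % 4 = 1) :
    ∃ c : F, (∀ b : F, b ^ r ≠ c) ∧ ((-1 : F) ^ (r + 1) * c) ^ (n / r) = 1 := by
  classical
  have hr : r.Prime := Fact.out
  have hq : 1 < Fintype.card F := Fintype.one_lt_card
  have hq1 : Fintype.card F - 1 ≠ 0 := by omega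
  obtain ⟨g, hg⟩ := IsCyclic.exists_generator (α := Fˣ)
  have hog : orderOf g = Fintype.card F - 1 := by
    rw [orderOf_eq_card_of_forall_mem_zpowers hg, Nat.card_eq_fintype_card, Fintype.card_units]
  obtain ⟨a, ha⟩ : ∃ a : ℕ, a = padicValNat r (Fintype.card F - 1) := ⟨_, rfl⟩
  rw [← ha] at hv
  have hdvd : r ^ a ∣ Fintype.card F - 1 := by
    rw [ha]
    exact pow_padicValNat_dvd
  have hndvd : ¬ r ^ (a + 1) ∣ Fintype.card F - 1 := by
    rw [ha]
    exact pow_succ_padicValNat_not_dvd hq1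
  have hk0 : (Fintype.card F - 1) / r ^ a ≠ 0 := by
    intro h0
    have := Nat.div_mul_cancel hdvd
    rw [h0, zero_mul] at this
    exact hq1 this.symm
  obtain ⟨d, hd⟩ : ∃ d : Fˣ, d = g ^ ((Fintype.card F - 1) / r ^ a) := ⟨_, rfl⟩
  have hod : orderOf d = r ^ a := by
    rw [hd, orderOf_pow_of_dvd hk0 (by rw [hog]; exact Nat.div_dvd_of_dvd hdvd), hog,
      Nat.div_div_self hdvd hq1]
  have hdpow : d ^ (r ^ a) = 1 := by
    rw [← hod]
    exact pow_orderOf_eq_one d
  have hnot : ∀ b : F, b ^ r ≠ (d : F) := by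
    intro b hb
    have hb0 : b ≠ 0 := by
      rintro rfl
      rw [zero_pow hr.ne_zero] at hb
      exact d.ne_zero hb.symm
    have h1 : (d : F) ^ ((Fintype.card F - 1) / r) = 1 := by
      rw [← hb, ← pow_mul, Nat.mul_div_cancel' hr1]
      exact FiniteField.pow_card_sub_one_eq_one b hb0
    have h1' : d ^ ((Fintype.card F - 1) / r) = 1 := by
      apply Units.ext
      rw [Units.val_pow_eq_pow_val, h1, Units.val_one]
    have h3 : r ^ a ∣ (Fintype.card F - 1) / r := by
      rw [← hod]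
      exact orderOf_dvd_of_pow_eq_one h1'
    apply hndvd
    rw [pow_succ, mul_comm]
    exact Nat.mul_dvd_of_dvd_div hr1 h3
  have hn_dvd : r ^ (a + 1) ∣ n :=
    (pow_dvd_pow r (Nat.succ_le_of_lt hv)).trans pow_padicValNat_dvd
  have hdn : d ^ (n / r) = 1 := by
    obtain ⟨t, ht⟩ := hn_dvd
    have e : n / r = r ^ a * t := by
      rw [ht, pow_succ, mul_comm (r ^ a) r, mul_assoc]
      exact Nat.mul_div_cancel_left _ hr.pos
    rw [e, pow_mul, hdpow, one_pow]
  refine ⟨(-1 : F) ^ (r + 1) * (d : F), ?_, ?_⟩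
  · by_cases hr2 : r = 2
    · have hsq : IsSquare (-1 : F) := by
        rw [FiniteField.isSquare_neg_one_iff, h2 hr2]
        norm_num
      obtain ⟨i, hi⟩ := hsq
      intro b hb
      apply hnot (i * b)
      rw [mul_pow, hb, hr2]
      have : i ^ 2 = -1 := by rw [sq, ← hi]
      rw [this]
      ring
    · have hodd : Odd r := hr.eq_two_or_odd'.resolve_left hr2
      have heven : Even (r + 1) := hodd.add_one
      rw [heven.neg_one_pow, one_mul]
      exact hnot
  · have e : (-1 : F) ^ (r + 1) * ((-1 : F) ^ (r + 1) * (d : F)) = (d : F) := by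
      rw [← mul_assoc, ← pow_add, ← two_mul, Even.neg_one_pow (even_two_mul _), one_mul]
    rw [e, ← Units.val_pow_eq_pow_val, hdn, Units.val_one]

theorem bgl_nt_exists_two {F : Type*} [Field F] [Fintype F] (n : ℕ) (hn : Even n) (h4 : Fintype.card F % 4 = 3) :
    ∃ c : F, (∀ b : F, b ^ 2 ≠ c) ∧ ((-1 : F) ^ (2 + 1) * c) ^ (n / 2) = 1 := by
  refine ⟨-1, ?_, ?_⟩
  · intro b hb
    have hsq : IsSquare (-1 : F) := ⟨b, by rw [← hb, sq]⟩
    rw [FiniteField.isSquare_neg_one_iff] at hsq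
    exact hsq h4
  · have e : (-1 : F) ^ (2 + 1) * (-1) = 1 := by norm_num
    rw [e, one_pow]

theorem bgl_nt_conv {F : Type*} [Field F] [Fintype F] (n r : ℕ) [Fact r.Prime] (hr1 : r ∣ Fintype.card F - 1) (hrn : r ∣ n) (hn : 0 < n)
    (c : F) (hc : ∀ b : F, b ^ r ≠ c) (hdet : ((-1 : F) ^ (r + 1) * c) ^ (n / r) = 1) :
    ¬ (padicValNat r n ≤ padicValNat r (Fintype.card F - 1) ∧ (r = 2 → Even n → Fintype.card F % 4 = 1)) := by
  rintro ⟨hval, h2⟩
  have hr : r.Prime := Fact.out
  obtain ⟨b, hb⟩ := bgl_nt_core n r hrn hn hval _ hdet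
  by_cases hr2 : r = 2
  · have hev : Even n := by
      rw [hr2] at hrn
      exact (even_iff_two_dvd).mpr hrn
    have hsq : IsSquare (-1 : F) := by
      rw [FiniteField.isSquare_neg_one_iff, h2 hr2 hev]
      norm_num
    obtain ⟨i, hi⟩ := hsq
    apply hc (i * b)
    have hi2 : i ^ 2 = -1 := by rw [sq, ← hi]
    rw [mul_pow, hb, hr2, hi2]
    ring
  · have hodd : Odd r := hr.eq_two_or_odd'.resolve_left hr2
    have heven : Even (r + 1) := hodd.add_one
    rw [heven.neg_one_pow, one_mul] at hb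
    exact hc b hb

end Cfsg.Agent.Helper76
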