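import Cfsg.Agent.Helper81.BlockKer
import Cfsg.Agent.Helper16.BK
import Cfsg.Agent.Helper16.BlockCore
import Cfsg.Agent.Helper47.Burn
import Cfsg.Agent.Helper77.BlockIdem

/-!
# Blocks of `G ⧸ D'` for a normal `p`-subgroup `D` (helper76)

* `mem_centralizer_of_mk_mem_centralizer`: a `p`-regular element whose image in `G ⧸ D'`
  centralizes `D ⧸ D'` centralizes `D` (Burnside).
* `sameBlock_of_comp_mk_commutator`: irreducible characters of `G ⧸ D'` whose inflations lie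
  in the same block of `G` lie in the same block of `G ⧸ D'`.
-/

set_option autoImplicit false
set_option linter.style.haveILetI false

namespace Cfsg.Agent.Helper76

universe u

section dominateComm

variable {G : Type u} [Group G] [Fintype G] {p : ℕ} [Fact p.Prime] {M : Ideal Cfsg.AlgInt}

omit [Fintype G] in
/-- A `p`-regular element whose image in `G ⧸ D'` centralizes `D ⧸ D'` centralizes the normal
`p`-subgroup `D`. -/
theorem mem_centralizer_of_mk_mem_centralizer [Finite G] (D : Subgroup G) [D.Normal]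
    (hD : IsPGroup p D) {g : G} (hg : ¬ p ∣ orderOf g)
    (h : (g : G ⧸ ⁅D, D⁆) ∈ Subgroup.centralizer
      ((D.map (QuotientGroup.mk' ⁅D, D⁆) : Subgroup (G ⧸ ⁅D, D⁆)) : Set (G ⧸ ⁅D, D⁆))) :
    g ∈ Subgroup.centralizer (D : Set G) := by
  have hp : p.Prime := Fact.out
  have hnorm : g ∈ Subgroup.normalizer (D : Set G) := by
    rw [Subgroup.normalizer_eq_top]
    trivial
  have hco : (orderOf g).Coprime p :=
    Nat.Coprime.symm ((Nat.Prime.coprime_iff_not_dvd hp).mpr hg)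
  have hcomm : ⁅D, Subgroup.zpowers g⁆ ≤ ⁅D, D⁆ := by
    rw [Subgroup.commutator_le]
    intro d hd y hy
    have hy' : (y : G ⧸ ⁅D, D⁆) ∈ Subgroup.centralizer
        ((D.map (QuotientGroup.mk' ⁅D, D⁆) : Subgroup (G ⧸ ⁅D, D⁆)) : Set (G ⧸ ⁅D, D⁆)) := by
      obtain ⟨k, rfl⟩ := Subgroup.mem_zpowers_iff.mp hy
      rw [QuotientGroup.mk_zpow]
      exact Subgroup.zpow_mem _ h k
    have hd' : (d : G ⧸ ⁅D, D⁆) ∈
        ((D.map (QuotientGroup.mk' ⁅D, D⁆) : Subgroup (G ⧸ ⁅D, D⁆)) : Set (G ⧸ ⁅D, D⁆)) :=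
      Subgroup.mem_map_of_mem _ hd
    have h1 := Subgroup.mem_centralizer_iff.mp hy' _ hd'
    rw [← QuotientGroup.eq_one_iff, commutatorElement_def, QuotientGroup.mk_mul,
      QuotientGroup.mk_mul, QuotientGroup.mk_mul, QuotientGroup.mk_inv, QuotientGroup.mk_inv, h1]
    group
  have hle := Helper47.le_centralizer_of_commutator_le_commutator hD hnorm hco hcomm
  rw [Subgroup.mem_centralizer_iff]
  intro d hd
  exact (Subgroup.mem_centralizer_iff.mp (hle hd) g (Subgroup.mem_zpowers g)).symm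

/-- If `D` is a normal `p`-subgroup, irreducible characters of `G ⧸ D'` whose inflations lie in
the same block of `G` lie in the same block of `G ⧸ D'`. -/
theorem sameBlock_of_comp_mk_commutator (hM : Cfsg.IsPModular p M) (D : Subgroup G) [D.Normal]
    (hD : IsPGroup p D) (χ ψ : Cfsg.IrrCharacter (G ⧸ ⁅D, D⁆))
    (h : Cfsg.SameBlock M (fun g : G => (χ : G ⧸ ⁅D, D⁆ → ℂ) (g : G ⧸ ⁅D, D⁆))
      (fun g : G => (ψ : G ⧸ ⁅D, D⁆ → ℂ) (g : G ⧸ ⁅D, D⁆))) :
    Cfsg.SameBlock M (χ : G ⧸ ⁅D, D⁆ → ℂ) (ψ : G ⧸ ⁅D, D⁆ → ℂ) := by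
  classical
  have := Fintype.ofFinite (G ⧸ ⁅D, D⁆)
  have hMm := hM.2.1
  have hK : IsPGroup p (⁅D, D⁆ : Subgroup G) := hD.to_le (Subgroup.commutator_le_left D D)
  have hDbar : IsPGroup p (D.map (QuotientGroup.mk' ⁅D, D⁆) : Subgroup (G ⧸ ⁅D, D⁆)) :=
    hD.map _
  haveI : (D.map (QuotientGroup.mk' ⁅D, D⁆)).Normal :=
    Subgroup.Normal.map inferInstance _ (QuotientGroup.mk'_surjective _)
  by_contra hcon
  have hB : Cfsg.IsPBlock M (Cfsg.blockOf M (χ : G ⧸ ⁅D, D⁆ → ℂ)) := ⟨χ, rfl⟩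
  have hmem : χ ∈ Cfsg.blockOf M (χ : G ⧸ ⁅D, D⁆ → ℂ) := Helper16.sameBlock_refl hMm _
  have h1 := Helper77.omega_blockCoeff_of_mem hmem
  have h2 := Helper77.omega_blockCoeff_of_not_mem
    (B := Cfsg.blockOf M (χ : G ⧸ ⁅D, D⁆ → ℂ)) (ψ := ψ) hcon
  rw [Helper77.omega_eq_sum_conjClasses χ (Helper77.blockCoeff_isClassFunction _)] at h1
  rw [Helper77.omega_eq_sum_conjClasses ψ (Helper77.blockCoeff_isClassFunction _)] at h2
  apply Helper77.not_memLocalIdeal_one hMm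
  have h3 : (1 : ℂ) = ∑ c : ConjClasses (G ⧸ ⁅D, D⁆),
      Cfsg.blockCoeff (Cfsg.blockOf M (χ : G ⧸ ⁅D, D⁆ → ℂ)) (Quotient.out c) *
        (Cfsg.centralChar (χ : G ⧸ ⁅D, D⁆ → ℂ) (Quotient.out c)
          - Cfsg.centralChar (ψ : G ⧸ ⁅D, D⁆ → ℂ) (Quotient.out c)) := by
    simp only [mul_sub, Finset.sum_sub_distrib]
    rw [h1, h2, sub_zero]
  rw [h3]
  refine Helper77.memLocalIdeal_sum hMm _ _ fun c _ => ?_
  by_cases hc : p ∣ orderOf (Quotient.out c)
  · rw [Helper77.blockCoeff_eq_zero_of_dvd_orderOf hM hB hc, zero_mul]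
    exact Helper77.memLocalIdeal_zero hMm
  · obtain ⟨g, hg, hgc⟩ := Helper81.exists_pRegular_lift ⁅D, D⁆ (Quotient.out c) hc
    refine Helper77.memLocalIdeal_mul hMm (Helper77.blockCoeff_memLocalRing hMm hB _) ?_
    by_cases hgD : g ∈ Subgroup.centralizer (D : Set G)
    · have hgK : g ∈ Subgroup.centralizer ((⁅D, D⁆ : Subgroup G) : Set G) :=
        Subgroup.centralizer_le (Subgroup.commutator_le_left D D) hgD
      have hidx := Helper81.index_centralizer_mk_eq ⁅D, D⁆ hK hg hgK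
      have h4 := h g
      have e : ∀ φ : G ⧸ ⁅D, D⁆ → ℂ,
          Cfsg.centralChar (fun g : G => φ (g : G ⧸ ⁅D, D⁆)) g
            = Cfsg.centralChar φ (g : G ⧸ ⁅D, D⁆) := by
        intro φ
        simp only [Cfsg.centralChar, hidx, QuotientGroup.mk_one]
      rw [e, e, hgc] at h4
      exact h4
    · have hout : Quotient.out c ∉ Subgroup.centralizer
          ((D.map (QuotientGroup.mk' ⁅D, D⁆) : Subgroup (G ⧸ ⁅D, D⁆)) :
            Set (G ⧸ ⁅D, D⁆)) := by
        intro hmem'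
        rw [← hgc] at hmem'
        exact hgD (mem_centralizer_of_mk_mem_centralizer D hD hg hmem')
      exact Helper77.memLocalIdeal_sub hMm
        (Helper16.centralChar_memLocalIdeal_of_not_mem_centralizer hM _ hDbar χ _ hout)
        (Helper16.centralChar_memLocalIdeal_of_not_mem_centralizer hM _ hDbar ψ _ hout)

end dominateComm

end Cfsg.Agent.Helper76
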