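import Cfsg.Agent.Helper76.Inflate
import Cfsg.Agent.Helper16.DefectGroup
import Cfsg.Agent.Helper77.Defect

/-!
# Defect groups of a block of a quotient lift (helper76)

* `centralChar_irrInfl`: the central character of an inflation is an integer multiple of the
  central character of the original.
* `exists_isDefectGroup_map_ge`: if the inflation of (some member of) a block `B̄` of `G ⧸ N`
  lies in the block `B` of `G`, then every defect group of `B̄` is contained in the image of a
  defect group of `B`.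
-/

set_option autoImplicit false
set_option linter.style.haveILetI false

namespace Cfsg.Agent.Helper76

universe u

section dominateDefect

variable {G : Type u} [Group G] [Fintype G]

omit [Fintype G] in
/-- The centralizer of `g` lies in the preimage of the centralizer of its coset. -/
theorem centralizer_le_comap_centralizer_mk (N : Subgroup G) [N.Normal] (g : G) :
    Subgroup.centralizer ({g} : Set G) ≤
      (Subgroup.centralizer ({(g : G ⧸ N)} : Set (G ⧸ N))).comap (QuotientGroup.mk' N) := by
  intro c hc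
  rw [Subgroup.mem_comap, Subgroup.mem_centralizer_iff]
  intro y hy
  rw [Set.mem_singleton_iff] at hy
  subst hy
  have h1 := Subgroup.mem_centralizer_iff.mp hc g rfl
  change ((g * c : G) : G ⧸ N) = ((c * g : G) : G ⧸ N)
  rw [h1]

/-- The central character of an inflated character. -/
theorem centralChar_irrInfl (N : Subgroup G) [N.Normal]
    (ψ : Cfsg.IrrCharacter (G ⧸ N)) (g : G) :
    Cfsg.centralChar (irrInfl N ψ : G → ℂ) g =
      (((Subgroup.centralizer ({g} : Set G)).relIndex
        ((Subgroup.centralizer ({(g : G ⧸ N)} : Set (G ⧸ N))).comap (QuotientGroup.mk' N)) : ℕ) : ℂ)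
        * Cfsg.centralChar (ψ : G ⧸ N → ℂ) (g : G ⧸ N) := by
  unfold Cfsg.centralChar
  have h1 := Subgroup.relIndex_mul_index (centralizer_le_comap_centralizer_mk N g)
  have h2 : ((Subgroup.centralizer ({(g : G ⧸ N)} : Set (G ⧸ N))).comap
      (QuotientGroup.mk' N)).index = (Subgroup.centralizer ({(g : G ⧸ N)} : Set (G ⧸ N))).index :=
    Subgroup.index_comap_of_surjective _ (QuotientGroup.mk'_surjective N)
  rw [h2] at h1
  rw [← h1, irrInfl_apply, irrInfl_apply]
  push_cast
  change _ * (ψ : G ⧸ N → ℂ) (g : G ⧸ N) / (ψ : G ⧸ N → ℂ) (1 : G ⧸ N) = _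
  ring

/-- The image of a Sylow `p`-subgroup of `C` under a surjection with kernel `N` is a Sylow
`p`-subgroup of `C̄` when `C` has `p'`-index in the preimage of `C̄`. -/
theorem exists_sylow_map_of_relIndex (p : ℕ) [Fact p.Prime] (N : Subgroup G) [N.Normal]
    (C : Subgroup G) (Cbar : Subgroup (G ⧸ N))
    (hCle : C ≤ Cbar.comap (QuotientGroup.mk' N))
    (hm : ¬ p ∣ C.relIndex (Cbar.comap (QuotientGroup.mk' N)))
    (PS : Sylow p C) :
    ∃ PT : Sylow p Cbar,
      (PT : Subgroup Cbar).map Cbar.subtype =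
        ((PS : Subgroup C).map C.subtype).map (QuotientGroup.mk' N) := by
  have hp : p.Prime := Fact.out
  have hDC : (PS : Subgroup C).map C.subtype ≤ C := Subgroup.map_subtype_le _
  have hDp : IsPGroup p ((PS : Subgroup C).map C.subtype) := PS.2.map _
  have hmapCs : (Cbar.comap (QuotientGroup.mk' N)).map (QuotientGroup.mk' N) = Cbar :=
    Subgroup.map_comap_eq_self_of_surjective (QuotientGroup.mk'_surjective N) _
  have hDle : ((PS : Subgroup C).map C.subtype).map (QuotientGroup.mk' N) ≤ Cbar := by
    rw [← hmapCs]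
    exact Subgroup.map_mono (hDC.trans hCle)
  -- index computation
  have h1 : (((PS : Subgroup C).map C.subtype).map (QuotientGroup.mk' N)).relIndex Cbar ∣
      ((PS : Subgroup C).map C.subtype).relIndex (Cbar.comap (QuotientGroup.mk' N)) := by
    have hker : (QuotientGroup.mk' N).ker = N := QuotientGroup.ker_mk' N
    have hNCs : N ≤ Cbar.comap (QuotientGroup.mk' N) := by
      intro n hn
      rw [Subgroup.mem_comap]
      have : (QuotientGroup.mk' N) n = 1 := by
        rw [← MonoidHom.mem_ker, hker]; exact hn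
      rw [this]
      exact Subgroup.one_mem _
    have e1 : (((PS : Subgroup C).map C.subtype).map (QuotientGroup.mk' N)).relIndex Cbar =
        (((PS : Subgroup C).map C.subtype) ⊔ N).relIndex (Cbar.comap (QuotientGroup.mk' N)) := by
      conv_lhs => rw [← hmapCs]
      rw [Subgroup.relIndex_map_map, hker, sup_eq_left.mpr hNCs]
    rw [e1]
    exact Subgroup.relIndex_dvd_of_le_left _ le_sup_left
  have h2 : ((PS : Subgroup C).map C.subtype).relIndex C *
      C.relIndex (Cbar.comap (QuotientGroup.mk' N)) =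
      ((PS : Subgroup C).map C.subtype).relIndex (Cbar.comap (QuotientGroup.mk' N)) :=
    Subgroup.relIndex_mul_relIndex _ C _ hDC hCle
  have h3 : ¬ p ∣ ((PS : Subgroup C).map C.subtype).relIndex C := by
    have h4 : ((PS : Subgroup C).map C.subtype).relIndex C = (PS : Subgroup C).index := by
      rw [Subgroup.relIndex, Subgroup.subgroupOf,
        Subgroup.comap_map_eq_self_of_injective C.subtype_injective]
    rw [h4]
    exact PS.not_dvd_index
  have h5 : ¬ p ∣ ((((PS : Subgroup C).map C.subtype).map (QuotientGroup.mk' N)).subgroupOf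
      Cbar).index := by
    intro h
    have := h.trans h1
    rw [← h2] at this
    rcases (Nat.Prime.dvd_mul hp).mp this with h | h
    · exact h3 h
    · exact hm h
  have hQp : IsPGroup p ((((PS : Subgroup C).map C.subtype).map (QuotientGroup.mk' N)).subgroupOf
      Cbar) :=
    (hDp.map _).comap_of_injective Cbar.subtype Cbar.subtype_injective
  refine ⟨hQp.toSylow h5, ?_⟩
  rw [IsPGroup.toSylow_coe]
  exact Subgroup.map_subgroupOf_eq_of_le hDle

/-- **Defect groups of dominated blocks.**  If the inflation of a member of the block `B̄` of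
`G ⧸ N` lies in the block `B` of `G`, then every defect group of `B̄` is contained in the image
of a defect group of `B`. -/
theorem exists_isDefectGroup_map_ge {p : ℕ} [Fact p.Prime] {M : Ideal Cfsg.AlgInt}
    (hM : Cfsg.IsPModular p M) (N : Subgroup G) [N.Normal] [Fintype (G ⧸ N)]
    {Bbar : Set (Cfsg.IrrCharacter (G ⧸ N))} (hBbar : Cfsg.IsPBlock M Bbar)
    {B : Set (Cfsg.IrrCharacter G)} (hB : Cfsg.IsPBlock M B)
    (ψ : Cfsg.IrrCharacter (G ⧸ N)) (hψ : ψ ∈ Bbar) (hχ : irrInfl N ψ ∈ B)
    {Dbar : Subgroup (G ⧸ N)} (hDbar : Cfsg.IsDefectGroup p M Bbar Dbar) :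
    ∃ P : Subgroup G, Cfsg.IsDefectGroup p M B P ∧ Dbar ≤ P.map (QuotientGroup.mk' N) := by
  have hMm := hM.2.1
  have hp : p.Prime := hM.1
  obtain ⟨g, hg⟩ := Helper77.exists_isDefectClass hMm hB
  have PS : Sylow p (Subgroup.centralizer ({g} : Set G)) := default
  have hDdef : Cfsg.IsDefectGroup p M B
      ((PS : Subgroup (Subgroup.centralizer ({g} : Set G))).map
        (Subgroup.centralizer ({g} : Set G)).subtype) := ⟨g, hg, PS, rfl⟩
  have hcc := centralChar_irrInfl N ψ g
  have hunit := hg.2.2 _ hχ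
  rw [hcc] at hunit
  have hloc : Cfsg.MemLocalRing M (Cfsg.centralChar (ψ : G ⧸ N → ℂ) (g : G ⧸ N)) :=
    Helper16.centralChar_memLocalRing hMm ψ _
  have hm : ¬ p ∣ (Subgroup.centralizer ({g} : Set G)).relIndex
      ((Subgroup.centralizer ({(g : G ⧸ N)} : Set (G ⧸ N))).comap (QuotientGroup.mk' N)) := by
    rintro ⟨k, hk⟩
    apply hunit
    rw [hk]
    push_cast
    rw [mul_assoc]
    refine Helper77.memLocalIdeal_mul' hMm (Helper77.memLocalIdeal_prime hM) ?_
    exact Helper77.memLocalRing_mul hMm
      (Helper77.memLocalRing_of_isIntegral hMm (isIntegral_natCast _ : IsIntegral ℤ ((k : ℕ) : ℂ)))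
      hloc
  have hunit' : ¬ Cfsg.MemLocalIdeal M (Cfsg.centralChar (ψ : G ⧸ N → ℂ) (g : G ⧸ N)) := by
    intro h
    apply hunit
    exact Helper77.memLocalIdeal_mul hMm
      (Helper77.memLocalRing_of_isIntegral hMm (isIntegral_natCast _)) h
  obtain ⟨PT, hPT⟩ := exists_sylow_map_of_relIndex p N _ _
    (centralizer_le_comap_centralizer_mk N g) hm PS
  obtain ⟨x, hx, hDle, -, hDp⟩ := Helper16.isDefectGroup_exists_data hDbar
  have hconj := Helper16.minmax_conjLE hM hBbar (g : G ⧸ N) ⟨ψ, hψ, hunit'⟩ PT x hx.2.1 Dbar hDp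
    hDle
  rw [hPT] at hconj
  obtain ⟨y, hy⟩ := hconj
  obtain ⟨y, rfl⟩ := QuotientGroup.mk_surjective y
  refine ⟨_, Helper16.isDefectGroup_conj hDdef y⁻¹, ?_⟩
  intro q hq
  obtain ⟨d, hd, hdq⟩ := hy q hq
  refine ⟨y⁻¹ * d * y, ⟨d, hd, by simp⟩, ?_⟩
  have h1 : (QuotientGroup.mk' N) (y⁻¹ * d * y) =
      (y : G ⧸ N)⁻¹ * (QuotientGroup.mk' N) d * (y : G ⧸ N) := by
    simp
  rw [h1, hdq]
  group

end dominateDefect

end Cfsg.Agent.Helper76
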