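import Cfsg.Agent.Helper76.BlichC
import Mathlib.GroupTheory.FiniteAbelian.Duality
import Mathlib.RingTheory.RootsOfUnity.AlgebraicallyClosed

/-!
# Ito's theorem on `p`-solvable linear groups of degree `< p`, part A (helper76)

* `ito_dual_sum`: for a finite commutative group `A` and `a ≠ 1`, the sum of `φ a` over all
  linear characters `φ` of `A` vanishes.
* `ito_twist_of_eq_on_ker`: two irreducible characters of `H` that agree on the kernel of a
  homomorphism `π : H →* A` to a finite abelian group differ by a linear character that is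
  trivial on `ker π`.
-/

set_option autoImplicit false

namespace Cfsg.Agent.Helper76

open Module
open scoped ComplexConjugate

theorem ito_finite_dual (A : Type*) [CommGroup A] [Finite A] : Finite (A →* ℂˣ) := by
  have : NeZero (Monoid.exponent A) := ⟨Monoid.exponent_ne_zero_of_finite⟩
  have : NeZero ((Monoid.exponent A : ℕ) : ℂ) := ⟨by exact_mod_cast Monoid.exponent_ne_zero_of_finite⟩
  have h := CommGroup.card_monoidHom_of_hasEnoughRootsOfUnity A ℂ
  apply Nat.finite_of_card_ne_zero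
  rw [h]
  exact Nat.card_pos.ne'

theorem ito_dual_sum (A : Type*) [CommGroup A] [Finite A] [Fintype (A →* ℂˣ)] (a : A)
    (ha : a ≠ 1) : ∑ φ : A →* ℂˣ, ((φ a : ℂˣ) : ℂ) = 0 := by
  have : NeZero (Monoid.exponent A) := ⟨Monoid.exponent_ne_zero_of_finite⟩
  have : NeZero ((Monoid.exponent A : ℕ) : ℂ) := ⟨by exact_mod_cast Monoid.exponent_ne_zero_of_finite⟩
  obtain ⟨φ₀, hφ₀⟩ := CommGroup.exists_apply_ne_one_of_hasEnoughRootsOfUnity A ℂ ha
  have h1 : ∑ φ : A →* ℂˣ, ((φ a : ℂˣ) : ℂ) = ∑ φ : A →* ℂˣ, (((φ₀ * φ) a : ℂˣ) : ℂ) :=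
    (Equiv.sum_comp (Equiv.mulLeft φ₀) (fun φ : A →* ℂˣ => ((φ a : ℂˣ) : ℂ))).symm
  have h2 : ∑ φ : A →* ℂˣ, (((φ₀ * φ) a : ℂˣ) : ℂ) =
      ((φ₀ a : ℂˣ) : ℂ) * ∑ φ : A →* ℂˣ, ((φ a : ℂˣ) : ℂ) := by
    rw [Finset.mul_sum]
    apply Finset.sum_congr rfl
    intro φ _
    rw [MonoidHom.mul_apply, Units.val_mul]
  have h3 : ((φ₀ a : ℂˣ) : ℂ) ≠ 1 := by
    intro h
    apply hφ₀
    exact Units.ext h
  have h4 : (1 - ((φ₀ a : ℂˣ) : ℂ)) * ∑ φ : A →* ℂˣ, ((φ a : ℂˣ) : ℂ) = 0 := by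
    rw [sub_mul, one_mul, ← h2, ← h1, sub_self]
  rcases mul_eq_zero.mp h4 with h | h
  · exact absurd (sub_eq_zero.mp h).symm h3
  · exact h

theorem ito_twist_of_eq_on_ker {H : Type*} [Group H] [Finite H] {A : Type*} [CommGroup A]
    [Finite A] (π : H →* A) (α β : Cfsg.IrrCharacter H)
    (h : ∀ x, π x = 1 → (α : H → ℂ) x = (β : H → ℂ) x) :
    ∃ μ : H →* ℂˣ, (∀ x, π x = 1 → μ x = 1) ∧ α = Helper79.irrTwist μ β := by
  classical
  let _ : Fintype H := Fintype.ofFinite H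
  have hfin : Finite (A →* ℂˣ) := ito_finite_dual A
  let _ : Fintype (A →* ℂˣ) := Fintype.ofFinite _
  by_contra hcon
  push Not at hcon
  have h1 : ∀ μ : A →* ℂˣ, ∑ x : H, (α : H → ℂ) x *
      conj ((Helper79.irrTwist (μ.comp π) β : H → ℂ) x) = 0 := by
    intro μ
    rw [blich_orth, if_neg]
    intro heq
    exact hcon (μ.comp π) (fun x hx => by simp [hx]) heq
  have h2 : ∑ μ : A →* ℂˣ, ∑ x : H, (α : H → ℂ) x *
      conj ((Helper79.irrTwist (μ.comp π) β : H → ℂ) x) = 0 :=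
    Finset.sum_eq_zero (fun μ _ => h1 μ)
  rw [Finset.sum_comm] at h2
  have h3 : ∀ x : H, ∑ μ : A →* ℂˣ, (α : H → ℂ) x *
      conj ((Helper79.irrTwist (μ.comp π) β : H → ℂ) x) =
      if π x = 1 then (((Fintype.card (A →* ℂˣ) : ℝ) * Complex.normSq ((α : H → ℂ) x) : ℝ) : ℂ)
        else ((0 : ℝ) : ℂ) := by
    intro x
    have hx1 : ∀ μ : A →* ℂˣ, (α : H → ℂ) x *
        conj ((Helper79.irrTwist (μ.comp π) β : H → ℂ) x) =
        (α : H → ℂ) x * conj ((β : H → ℂ) x) * conj ((μ (π x) : ℂˣ) : ℂ) := by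
      intro μ
      rw [Helper79.irrTwist_apply, map_mul, MonoidHom.comp_apply]
      ring
    simp_rw [hx1]
    rw [← Finset.mul_sum, ← map_sum]
    split_ifs with hx
    · rw [hx, ← h x hx, Complex.mul_conj]
      simp only [map_one, Units.val_one, Finset.sum_const, Finset.card_univ, nsmul_eq_mul, mul_one,
        map_natCast]
      push_cast
      ring
    · rw [ito_dual_sum A (π x) hx]
      simp
  simp_rw [h3] at h2
  have h4 : ∑ x : H, (if π x = 1 then (Fintype.card (A →* ℂˣ) : ℝ) *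
      Complex.normSq ((α : H → ℂ) x) else 0) = 0 := by
    apply Complex.ofReal_injective
    rw [Complex.ofReal_sum, Complex.ofReal_zero, ← h2]
    apply Finset.sum_congr rfl
    intro x _
    split_ifs <;> rfl
  have h5 := (Finset.sum_eq_zero_iff_of_nonneg (fun x _ => by
    split_ifs
    · exact mul_nonneg (Nat.cast_nonneg _) (Complex.normSq_nonneg _)
    · exact le_refl _)).mp h4 1 (Finset.mem_univ _)
  rw [if_pos (map_one π)] at h5
  rcases mul_eq_zero.mp h5 with h6 | h6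
  · have : (Fintype.card (A →* ℂˣ) : ℝ) ≠ 0 := by
      exact_mod_cast Fintype.card_ne_zero
    exact this h6
  · exact Helper80.irr_one_ne_zero α (Complex.normSq_eq_zero.mp h6)

end Cfsg.Agent.Helper76
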