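import Cfsg.Agent.Helper76.ItoA

/-!
# Ito's theorem on `p`-solvable linear groups of degree `< p`, part B (helper76)

`ito_core`: let `π : H →* A` be a homomorphism to a finite abelian group, with `ker π` a
`p'`-group and the image a `p`-group.  If `ψ` is an irreducible character of `H` of degree
`< p - 1` then every commutator `[x, g]` with `x` a `p`-element lies in the kernel of `ψ`.
-/

set_option autoImplicit false

namespace Cfsg.Agent.Helper76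

open Module
open scoped ComplexConjugate

theorem ito_step {H : Type*} [Group H] [Finite H] {A : Type*} [CommGroup A] [Finite A]
    (π : H →* A) (p : ℕ)
    (hL : ∀ l, π l = 1 → (orderOf l).Coprime p)
    (ψ : Cfsg.IrrCharacter H) (t : ℕ) (ht : Nat.Coprime t (Nat.card H))
    (ht1 : t ≡ 1 [MOD Nat.card H / p ^ ((Nat.card H).factorization p)]) :
    ∃ μ : H →* ℂˣ, (∀ x, π x = 1 → μ x = 1) ∧
      ∀ g, (ψ : H → ℂ) (g ^ t) = ((μ g : ℂˣ) : ℂ) * (ψ : H → ℂ) g := by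
  let ζ : Cfsg.IrrCharacter H :=
    ⟨fun g => (ψ : H → ℂ) (g ^ t), Helper75.isIrrCharacter_pow t ht ψ.2⟩
  have h1 : ∀ x, π x = 1 → (ζ : H → ℂ) x = (ψ : H → ℂ) x := by
    intro l hl
    show (ψ : H → ℂ) (l ^ t) = (ψ : H → ℂ) l
    have : l ^ t = l := by
      conv_rhs => rw [← pow_one l]
      rw [pow_eq_pow_iff_modEq]
      apply ht1.of_dvd
      have h2 : orderOf l ∣ p ^ ((Nat.card H).factorization p) *
          (Nat.card H / p ^ ((Nat.card H).factorization p)) := by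
        rw [Nat.ordProj_mul_ordCompl_eq_self]
        exact orderOf_dvd_natCard l
      exact (Nat.Coprime.pow_right _ (hL l hl)).dvd_of_dvd_mul_left h2
    rw [this]
  obtain ⟨μ, hμ1, hμ2⟩ := ito_twist_of_eq_on_ker π ζ ψ h1
  refine ⟨μ, hμ1, fun g => ?_⟩
  have := congrArg (fun f : Cfsg.IrrCharacter H => (f : H → ℂ) g) hμ2
  exact this

theorem ito_mu_pow {H : Type*} [Group H] [Finite H] {A : Type*} [CommGroup A] [Finite A]
    (π : H →* A) (p : ℕ) (hp : p.Prime) (hA : ∀ g, ∃ j, π g ^ (p ^ j) = 1)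
    (μ : H →* ℂˣ) (hμ : ∀ x, π x = 1 → μ x = 1) (g : H) :
    μ g ^ (p ^ ((Nat.card H).factorization p)) = 1 := by
  rw [← map_pow]
  apply hμ
  rw [map_pow]
  obtain ⟨j, hj⟩ := hA g
  have hN0 : Nat.card H ≠ 0 := Nat.card_pos.ne'
  have h2 : orderOf (π g) ∣ p ^ j := orderOf_dvd_of_pow_eq_one hj
  obtain ⟨i, hi, hi2⟩ := (Nat.dvd_prime_pow hp).mp h2
  apply orderOf_dvd_iff_pow_eq_one.mp
  rw [hi2]
  apply pow_dvd_pow
  have h3 : p ^ i ∣ Nat.card H := by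
    rw [← hi2]
    exact (orderOf_map_dvd π g).trans (orderOf_dvd_natCard g)
  exact (hp.pow_dvd_iff_le_factorization hN0).mp h3

theorem ito_core {H : Type*} [Group H] [Finite H] {A : Type*} [CommGroup A] [Finite A]
    (π : H →* A) (p : ℕ) (hp : p.Prime)
    (hL : ∀ l, π l = 1 → (orderOf l).Coprime p)
    (hA : ∀ g, ∃ j, π g ^ (p ^ j) = 1)
    (ψ : Cfsg.IrrCharacter H) (hdeg : Cfsg.charDegree (ψ : H → ℂ) + 1 < p)
    (x : H) (hx : ∃ j, x ^ (p ^ j) = 1) (g : H) :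
    (ψ : H → ℂ) (x * g * x⁻¹ * g⁻¹) = (ψ : H → ℂ) 1 := by
  have hN0 : Nat.card H ≠ 0 := Nat.card_pos.ne'
  have hcop : Nat.Coprime (p ^ (Nat.card H).factorization p)
      (Nat.card H / p ^ (Nat.card H).factorization p) :=
    (Nat.coprime_ordCompl hp hN0).pow_left _
  have hmul : p ^ (Nat.card H).factorization p * (Nat.card H / p ^ (Nat.card H).factorization p)
      = Nat.card H := Nat.ordProj_mul_ordCompl_eq_self _ p
  have hdpos := Helper80.irr_degree_pos ψ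
  have hp2 : Nat.Coprime 2 p := (Nat.coprime_primes Nat.prime_two hp).mpr (by omega)
  obtain ⟨t₀, ht₀1, ht₀2⟩ := Nat.chineseRemainder hcop 2 1
  have ht₀c : Nat.Coprime t₀ (Nat.card H) := by
    rw [← hmul]
    apply Nat.Coprime.mul_right
    · unfold Nat.Coprime
      rw [ht₀1.gcd_eq]
      exact hp2.pow_right _
    · unfold Nat.Coprime
      rw [ht₀2.gcd_eq]
      exact Nat.gcd_one_left _
  obtain ⟨μ₀, hμ₀1, hμ₀2⟩ := ito_step π p hL ψ t₀ ht₀c ht₀2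
  obtain ⟨ψ', hψ'⟩ : ∃ ψ' : Cfsg.IrrCharacter H, ψ' = Helper79.irrTwist μ₀⁻¹ ψ := ⟨_, rfl⟩
  have hψ'app : ∀ g, (ψ' : H → ℂ) g = (((μ₀ g)⁻¹ : ℂˣ) : ℂ) * (ψ : H → ℂ) g := fun g => by
    rw [hψ', Helper79.irrTwist_apply]
    rfl
  have hpow2 : ∀ (μ : H →* ℂˣ), (∀ x, π x = 1 → μ x = 1) → ∀ g, μ g ^ t₀ = μ g ^ 2 := by
    intro μ hμ g
    rw [pow_eq_pow_iff_modEq]
    exact ht₀1.of_dvd (orderOf_dvd_of_pow_eq_one (ito_mu_pow π p hp hA μ hμ g))
  have hinv0 : ∀ g, (ψ' : H → ℂ) (g ^ t₀) = (ψ' : H → ℂ) g := by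
    intro g
    rw [hψ'app, hψ'app, hμ₀2, map_pow, hpow2 μ₀ hμ₀1 g, ← mul_assoc, ← Units.val_mul]
    congr 2
    rw [pow_two, mul_inv, mul_assoc, inv_mul_cancel, mul_one]
  have hdeg' : Cfsg.charDegree (ψ' : H → ℂ) + 1 < p := by
    rw [hψ', Helper79.charDegree_irrTwist]
    exact hdeg
  have hinv : ∀ t, Nat.Coprime t (Nat.card H) →
      t ≡ 1 [MOD Nat.card H / p ^ (Nat.card H).factorization p] →
      (fun g => (ψ' : H → ℂ) (g ^ t)) = (ψ' : H → ℂ) := by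
    intro t ht ht1
    obtain ⟨ν, hν1, hν2⟩ := ito_step π p hL ψ' t ht ht1
    funext g
    have e1 : (ψ' : H → ℂ) ((g ^ t) ^ t₀) = ((ν g : ℂˣ) : ℂ) * (ψ' : H → ℂ) g := by
      rw [hinv0, hν2]
    have e2 : (ψ' : H → ℂ) ((g ^ t₀) ^ t) = (((ν g : ℂˣ) : ℂ) ^ 2) * (ψ' : H → ℂ) g := by
      rw [hν2, hinv0, map_pow, hpow2 ν hν1 g, Units.val_pow_eq_pow_val]
    have e3 : (g ^ t) ^ t₀ = (g ^ t₀) ^ t := by rw [← pow_mul, ← pow_mul, mul_comm]
    rw [e3, e2] at e1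
    show (ψ' : H → ℂ) (g ^ t) = (ψ' : H → ℂ) g
    rw [hν2]
    have hne : ((ν g : ℂˣ) : ℂ) ≠ 0 := Units.ne_zero _
    exact mul_left_cancel₀ hne (by rw [← mul_assoc, ← pow_two]; exact e1)
  have hψ'c : Cfsg.IsCharacter H (ψ' : H → ℂ) := Helper80.isCharacter_of_irr ψ'.2
  have hx1 : (ψ' : H → ℂ) x = (ψ' : H → ℂ) 1 := by
    by_contra hne
    obtain ⟨t, ht1, ht2, ht3⟩ := blich_exists_twist p hp (ψ' : H → ℂ) hψ'c hdeg' x hx hne
    exact ht3 (hinv t ht1 ht2)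
  have hc' : (ψ' : H → ℂ) (x * g * x⁻¹ * g⁻¹) = (ψ' : H → ℂ) 1 := by
    obtain ⟨n, ρ, hρ⟩ := hψ'c
    have hρx : ρ x = 1 := Helper79.rep_eq_one_of_char_eq ρ x (by rw [hρ]; exact hx1)
    have hρc : ρ (x * g * x⁻¹ * g⁻¹) = 1 := blich_comm_ker ρ x g (Or.inl hρx)
    rw [← hρ]
    simp only [Representation.character, hρc, map_one]
  have hμc : μ₀ (x * g * x⁻¹ * g⁻¹) = 1 := by
    rw [map_mul, map_mul, map_mul, map_inv, map_inv, mul_comm (μ₀ x) (μ₀ g)]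
    simp
  rw [hψ'app, hψ'app, hμc, map_one] at hc'
  simpa using hc'

end Cfsg.Agent.Helper76
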