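import Cfsg.Agent.Helper76.ItoB

/-!
# Ito's theorem on `p`-solvable linear groups of degree `< p`, part C (helper76)

* `ito_semidirect`: `H = L ⟨x⟩` with `L` a normal `p'`-subgroup and `x` a `p`-element; then
  `|H| = |L| p ^ b` and irreducible characters of degree `< p - 1` kill all `[x, g]`.
* `ito_exists_constituent`: a character with `χ c ≠ χ 1` has an irreducible constituent with the
  same property.
* `ito_exists_degree`: if the `p`-element `x` normalizes the `p'`-subgroup `L` and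
  `Φ [x, l] ≠ Φ 1` for some `l ∈ L`, then there is a degree `d ≤ Φ 1` with `p - 1 ≤ d` and
  `d ∣ |L| p ^ b`.
-/

set_option autoImplicit false

namespace Cfsg.Agent.Helper76

open Module
open scoped ComplexConjugate

theorem ito_semidirect {H : Type*} [Group H] [Finite H] (p : ℕ) (hp : p.Prime)
    (L : Subgroup H) [L.Normal] (hL : ∀ l ∈ L, (orderOf l).Coprime p)
    (x : H) (hx : ∃ j, x ^ (p ^ j) = 1)
    (hgen : ∀ h : H, ∃ l ∈ L, ∃ k : ℤ, h = l * x ^ k) :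
    (∃ b, Nat.card H = Nat.card L * p ^ b) ∧
    ∀ (ψ : Cfsg.IrrCharacter H), Cfsg.charDegree (ψ : H → ℂ) + 1 < p → ∀ g : H,
      (ψ : H → ℂ) (x * g * x⁻¹ * g⁻¹) = (ψ : H → ℂ) 1 := by
  classical
  have e : ∀ (l : H) (_ : l ∈ L) (k : ℤ),
      ((l * x ^ k : H) : H ⧸ L) = ((x : H) : H ⧸ L) ^ k := by
    intro l hl k
    rw [QuotientGroup.mk_mul, (QuotientGroup.eq_one_iff l).mpr hl, one_mul, QuotientGroup.mk_zpow]
  have hcomm : ∀ a b : H ⧸ L, a * b = b * a := by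
    intro a b
    obtain ⟨a, rfl⟩ := QuotientGroup.mk_surjective a
    obtain ⟨b, rfl⟩ := QuotientGroup.mk_surjective b
    obtain ⟨l, hl, k, rfl⟩ := hgen a
    obtain ⟨l', hl', k', rfl⟩ := hgen b
    rw [e l hl k, e l' hl' k', ← zpow_add, ← zpow_add, add_comm]
  have hpow : ∀ a : H ⧸ L, ∃ j, a ^ (p ^ j) = 1 := by
    intro a
    obtain ⟨a, rfl⟩ := QuotientGroup.mk_surjective a
    obtain ⟨l, hl, k, rfl⟩ := hgen a
    obtain ⟨j, hj⟩ := hx
    refine ⟨j, ?_⟩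
    rw [e l hl k, ← zpow_natCast, ← zpow_mul, mul_comm, zpow_mul, zpow_natCast,
      ← QuotientGroup.mk_pow, hj, QuotientGroup.mk_one, one_zpow]
  constructor
  · have hPG : IsPGroup p (H ⧸ L) := hpow
    have : Fact p.Prime := ⟨hp⟩
    obtain ⟨b, hb⟩ := IsPGroup.iff_card.mp hPG
    refine ⟨b, ?_⟩
    rw [Subgroup.card_eq_card_quotient_mul_card_subgroup L, hb, mul_comm]
  · intro ψ hdeg g
    let _ : CommGroup (H ⧸ L) := { (inferInstance : Group (H ⧸ L)) with mul_comm := hcomm }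
    exact ito_core (QuotientGroup.mk' L) p hp
      (fun l hl => hL l ((QuotientGroup.eq_one_iff l).mp hl)) (fun g => hpow _) ψ hdeg x hx g

theorem ito_exists_constituent {G : Type*} [Group G] [Fintype G] {χ : G → ℂ}
    (hχ : Cfsg.IsCharacter G χ) (c : G) (hc : χ c ≠ χ 1) :
    ∃ ψ : Cfsg.IrrCharacter G, (ψ : G → ℂ) c ≠ (ψ : G → ℂ) 1 ∧
      Cfsg.classInner χ (ψ : G → ℂ) ≠ 0 := by
  classical
  let _ : Fintype (Cfsg.IrrCharacter G) := Fintype.ofFinite _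
  by_contra hcon
  push Not at hcon
  apply hc
  have hsum := Helper75.character_eq_sum_irr hχ
  have h1 : ∀ g, χ g = ∑ ψ : Cfsg.IrrCharacter G,
      Cfsg.classInner χ (ψ : G → ℂ) * (ψ : G → ℂ) g := by
    intro g
    conv_lhs => rw [hsum]
    simp [Finset.sum_apply]
  rw [h1 c, h1 1]
  apply Finset.sum_congr rfl
  intro ψ _
  by_cases h0 : Cfsg.classInner χ (ψ : G → ℂ) = 0
  · rw [h0, zero_mul, zero_mul]
  · by_contra hne
    have hne' : (ψ : G → ℂ) c ≠ (ψ : G → ℂ) 1 := by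
      intro h; apply hne; rw [h]
    exact h0 (hcon ψ hne')

theorem ito_exists_degree {G : Type*} [Group G] [Finite G] (p : ℕ) (hp : p.Prime)
    (L : Subgroup G) (hL : ∀ l ∈ L, (orderOf l).Coprime p)
    (x : G) (hx : ∃ j, x ^ (p ^ j) = 1) (hxL : x ∈ Subgroup.normalizer (L : Set G))
    (Φ : G → ℂ) (hΦ : Cfsg.IsCharacter G Φ)
    (l : G) (hl : l ∈ L) (hne : Φ (x * l * x⁻¹ * l⁻¹) ≠ Φ 1) :
    ∃ d, d ≤ Cfsg.charDegree Φ ∧ p ≤ d + 1 ∧ ∃ b, d ∣ Nat.card L * p ^ b := by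
  classical
  obtain ⟨H, hH⟩ : ∃ H : Subgroup G, H = L ⊔ Subgroup.zpowers x := ⟨_, rfl⟩
  have hle : Subgroup.zpowers x ≤ Subgroup.normalizer (L : Set G) := (Subgroup.zpowers_le).mpr hxL
  have hLH : L ≤ H := hH ▸ le_sup_left
  have hxH : x ∈ H := hH ▸ le_sup_right (a := L) (Subgroup.mem_zpowers x)
  have hnorm : (L.subgroupOf H).Normal :=
    (Subgroup.normal_subgroupOf_iff_le_normalizer hLH).mpr
      (hH ▸ sup_le Subgroup.le_normalizer hle)
  have hcoe := Subgroup.coe_mul_of_right_le_normalizer_left L (Subgroup.zpowers x) hle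
  let x' : H := ⟨x, hxH⟩
  have hgen : ∀ h : H, ∃ l ∈ L.subgroupOf H, ∃ k : ℤ, h = l * x' ^ k := by
    intro h
    have h1 : (h : G) ∈ ((L ⊔ Subgroup.zpowers x : Subgroup G) : Set G) := hH ▸ h.2
    rw [hcoe] at h1
    obtain ⟨l, hl, z, hz, hlz⟩ := Set.mem_mul.mp h1
    obtain ⟨k, rfl⟩ := Subgroup.mem_zpowers_iff.mp hz
    refine ⟨⟨l, hLH hl⟩, Subgroup.mem_subgroupOf.mpr hl, k, ?_⟩
    apply Subtype.ext
    rw [Subgroup.coe_mul, Subgroup.coe_zpow]
    exact hlz.symm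
  have hL' : ∀ l ∈ L.subgroupOf H, (orderOf l).Coprime p := by
    intro l hl
    rw [← Subgroup.orderOf_coe]
    exact hL _ (Subgroup.mem_subgroupOf.mp hl)
  have hx' : ∃ j, x' ^ (p ^ j) = 1 := by
    obtain ⟨j, hj⟩ := hx
    exact ⟨j, Subtype.ext (by rw [Subgroup.coe_pow]; exact hj)⟩
  obtain ⟨⟨b, hb⟩, hirr⟩ := ito_semidirect p hp (L.subgroupOf H) hL' x' hx' hgen
  have hΦH := Helper79.isCharacter_restrict hΦ H
  let l' : H := ⟨l, hLH hl⟩
  have hneH : (fun h : H => Φ h) (x' * l' * x'⁻¹ * l'⁻¹) ≠ (fun h : H => Φ h) 1 := hne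
  obtain ⟨ψ, hψ1, hψ2⟩ := blich_exists_constituent hΦH _ hneH
  refine ⟨Cfsg.charDegree (ψ : H → ℂ), hψ2, ?_, b, ?_⟩
  · by_contra hlt
    push Not at hlt
    exact hψ1 (hirr ψ (by omega) l')
  · have h1 := Helper79.irr_charDegree_dvd_card ψ
    rw [hb, Nat.card_congr (Subgroup.subgroupOfEquivOfLe hLH).toEquiv] at h1
    exact h1

end Cfsg.Agent.Helper76
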