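import Cfsg.Agent.Helper76.ItoC
import Cfsg.Agent.Helper76.PSolvable

/-!
# Ito's theorem on `p`-solvable linear groups of degree `< p`, part D (helper76)

Coprime action on Sylow subgroups: a `p`-element acting non-trivially on a normal `p'`-subgroup
`K` normalizes, and does not centralize, some Sylow subgroup of `K`.
-/

set_option autoImplicit false

namespace Cfsg.Agent.Helper76

open scoped Pointwise

theorem ito_aut_fixed_sylow {K : Type*} [Group K] [Finite K] (p : ℕ) (hp : p.Prime)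
    (φ : MulAut K) (hφ : ∃ j, φ ^ (p ^ j) = 1) (hK : (Nat.card K).Coprime p)
    (r : ℕ) [Fact r.Prime] : ∃ S : Sylow r K, ∀ s, s ∈ S ↔ φ s ∈ S := by
  have : Fact p.Prime := ⟨hp⟩
  have hZ : IsPGroup p (Subgroup.zpowers φ) := blich_isPGroup_zpowers p φ hφ
  have hcard : ¬ p ∣ Nat.card (Sylow r K) := by
    intro h
    obtain ⟨S⟩ : Nonempty (Sylow r K) := inferInstance
    have h1 := S.card_dvd_index
    have h2 : (S : Subgroup K).index ∣ Nat.card K := Subgroup.index_dvd_card _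
    exact (Nat.Prime.coprime_iff_not_dvd hp).mp hK.symm ((h.trans h1).trans h2)
  obtain ⟨S, hS⟩ := IsPGroup.nonempty_fixed_point_of_prime_not_dvd_card hZ (Sylow r K) hcard
  refine ⟨S, fun s => ?_⟩
  have h1 : (⟨φ, Subgroup.mem_zpowers φ⟩ : Subgroup.zpowers φ) • S = S := hS _
  have h2 : φ • (S : Subgroup K) = S := congrArg (fun T : Sylow r K => (T : Subgroup K)) h1
  constructor
  · intro hs
    have h3 : φ • s ∈ φ • (S : Subgroup K) := Subgroup.smul_mem_pointwise_smul s φ _ hs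
    rw [h2] at h3
    exact h3
  · intro hs
    have h3 : φ • s ∈ φ • (S : Subgroup K) := by
      rw [h2]
      exact hs
    exact (Subgroup.smul_mem_pointwise_smul_iff).mp h3

theorem ito_aut_sylow {K : Type*} [Group K] [Finite K] (p : ℕ) (hp : p.Prime)
    (φ : MulAut K) (hφ : ∃ j, φ ^ (p ^ j) = 1) (hK : (Nat.card K).Coprime p)
    (hne : ∃ k, φ k ≠ k) :
    ∃ (r : ℕ) (_ : Fact r.Prime) (S : Sylow r K),
      (∀ s, s ∈ S ↔ φ s ∈ S) ∧ ∃ s ∈ S, φ s ≠ s := by
  by_contra hcon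
  push Not at hcon
  let D : Subgroup K := MonoidHom.eqLocus φ.toMonoidHom (MonoidHom.id K)
  have hD : ∀ k, k ∈ D ↔ φ k = k := fun k => Iff.rfl
  have hcard : Nat.card K ∣ Nat.card D := by
    rw [Nat.dvd_iff_prime_pow_dvd_dvd]
    intro r k hr hrk
    have : Fact r.Prime := ⟨hr⟩
    obtain ⟨S, hS⟩ := ito_aut_fixed_sylow p hp φ hφ hK r
    have hSD : (S : Subgroup K) ≤ D := fun s hs => (hD s).mpr (hcon r ⟨hr⟩ S hS s hs)
    have h1 : Nat.card S ∣ Nat.card D := Subgroup.card_dvd_of_le hSD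
    rw [Sylow.card_eq_multiplicity] at h1
    have h2 : k ≤ (Nat.card K).factorization r :=
      (hr.pow_dvd_iff_le_factorization Nat.card_pos.ne').mp hrk
    exact (pow_dvd_pow r h2).trans h1
  have hDtop : D = ⊤ := Subgroup.eq_top_of_le_card _ (Nat.le_of_dvd Nat.card_pos hcard)
  obtain ⟨k, hk⟩ := hne
  exact hk ((hD k).mp (hDtop ▸ Subgroup.mem_top k))

theorem ito_exists_rsubgroup {G : Type*} [Group G] [Finite G] (p : ℕ) (hp : p.Prime)
    (K : Subgroup G) [hKn : K.Normal] (hK : ∀ l ∈ K, (orderOf l).Coprime p)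
    (x : G) (hx : ∃ j, x ^ (p ^ j) = 1) (l : G) (hl : l ∈ K) (hxl : x * l ≠ l * x) :
    ∃ (r : ℕ) (S : Subgroup G), r.Prime ∧ IsPGroup r S ∧ S ≤ K ∧
      x ∈ Subgroup.normalizer (S : Set G) ∧ ∃ s ∈ S, x * s ≠ s * x := by
  have : Fact p.Prime := ⟨hp⟩
  let φ : MulAut K := MulAut.conjNormal x
  have hφ : ∃ j, φ ^ (p ^ j) = 1 := by
    obtain ⟨j, hj⟩ := hx
    exact ⟨j, by rw [← map_pow, hj, map_one]⟩
  have hKc : (Nat.card K).Coprime p := card_coprime_iff_forall_orderOf.mpr hK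
  have hne : ∃ k, φ k ≠ k := ⟨⟨l, hl⟩, fun h => hxl (by
    have h1 : x * l * x⁻¹ = l := congrArg Subtype.val h
    conv_rhs => rw [← h1]
    group)⟩
  obtain ⟨r, hr, S, hS1, s, hs, hs2⟩ := ito_aut_sylow p hp φ hφ hKc hne
  refine ⟨r, (S : Subgroup K).map K.subtype, hr.out, S.isPGroup'.map _, ?_, ?_, s,
    Subgroup.mem_map_of_mem _ hs, ?_⟩
  · rintro _ ⟨k, _, rfl⟩
    exact k.2
  · rw [Subgroup.mem_normalizer_iff]
    intro h
    constructor
    · rintro ⟨k, hk, rfl⟩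
      exact ⟨φ k, (hS1 k).mp hk, rfl⟩
    · rintro ⟨k, hk, hk2⟩
      have hk3 : (k : G) = x * h * x⁻¹ := hk2
      have hhK : h ∈ K := by
        have e : h = x⁻¹ * (k : G) * x⁻¹⁻¹ := by rw [hk3]; group
        rw [e]
        exact hKn.conj_mem _ k.2 _
      refine ⟨⟨h, hhK⟩, (hS1 _).mpr ?_, rfl⟩
      have e2 : φ ⟨h, hhK⟩ = k := Subtype.ext hk3.symm
      rw [e2]
      exact hk
  · intro h
    apply hs2
    apply Subtype.ext
    show x * (s : G) * x⁻¹ = s
    rw [h, mul_inv_cancel_right]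

end Cfsg.Agent.Helper76
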