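import Mathlib
import Cfsg.Prelude.Def_Blocks
import Cfsg.Agent.Helper76.BlichC
import Cfsg.Agent.Helper3.MGroup

/-!
# Abelian subgroups of small index in nilpotent linear groups (helper76)

A finite nilpotent group with a faithful character of degree `n` has an abelian (normal)
subgroup of index dividing `n!`.
-/

set_option autoImplicit false

namespace Cfsg.Agent.Helper76

universe u

open scoped Nat

theorem jordan_normalCore_index_dvd {P : Type*} [Group P] [Finite P] (H : Subgroup P) :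
    H.normalCore.index ∣ (H.index)! := by
  rw [Subgroup.normalCore_eq_ker, Subgroup.index_ker]
  have h1 := Subgroup.card_subgroup_dvd_card (MulAction.toPermHom P (P ⧸ H)).range
  rw [Nat.card_perm] at h1
  rwa [Subgroup.index_eq_card]

theorem jordan_index_inf_dvd {P : Type*} [Group P] (N M : Subgroup P) [N.Normal] :
    (N ⊓ M).index ∣ N.index * M.index := by
  rw [← Subgroup.relIndex_mul_index (inf_le_right : N ⊓ M ≤ M), Subgroup.inf_relIndex_right]
  exact Nat.mul_dvd_mul_right (Subgroup.relIndex_dvd_index_of_normal N M) _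

theorem jordan_index_iInf_dvd {P : Type*} [Group P] {ι : Type*} (s : Finset ι)
    (N : ι → Subgroup P) (hN : ∀ i, (N i).Normal) :
    (⨅ i ∈ s, N i).index ∣ ∏ i ∈ s, (N i).index := by
  classical
  induction s using Finset.induction_on with
  | empty => simp
  | insert a s ha ih =>
    rw [Finset.iInf_insert, Finset.prod_insert ha]
    have := hN a
    exact dvd_trans (jordan_index_inf_dvd _ _) (Nat.mul_dvd_mul_left _ ih)

theorem jordan_hom_comm {H : Type*} [Group H] {M : Type*} [CommGroup M] (f : H →* M) (a b : H) :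
    f (a * b * a⁻¹ * b⁻¹) = 1 := by
  rw [map_mul, map_mul, map_mul, map_inv, map_inv, mul_comm (f a) (f b)]
  simp

/-- A finite nilpotent group with a faithful character of degree `n` has an abelian normal
subgroup of index dividing `n!`. -/
theorem jordan_nilpotent {P : Type u} [Group P] [Finite P] [Group.IsNilpotent P] (χ : P → ℂ)
    (hχ : Cfsg.IsCharacter P χ) (hfaith : ∀ g, χ g = χ 1 → g = 1) (n : ℕ)
    (hn : Cfsg.charDegree χ = n) :
    ∃ B : Subgroup P, (∀ x ∈ B, ∀ y ∈ B, x * y = y * x) ∧ B.index ∣ n ! := by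
  classical
  let _ : Fintype P := Fintype.ofFinite P
  let _ : Fintype (Cfsg.IrrCharacter P) := Fintype.ofFinite _
  have hM : ∀ ψ : Cfsg.IrrCharacter P, ∃ (H : Subgroup P) (lam : H →* ℂˣ),
      (ψ : P → ℂ) = Cfsg.indFun H (fun h => ((lam h : ℂˣ) : ℂ)) :=
    fun ψ => Helper3.nilpotent_mgroup (ψ : P → ℂ) ψ.2
  choose H lam hψ using hM
  obtain ⟨m, hm⟩ := Helper75.exists_nat_mult hχ
  have hsum := Helper75.character_eq_sum_irr hχ
  have h1 : ∀ g, χ g = ∑ ψ : Cfsg.IrrCharacter P, (m ψ : ℂ) * (ψ : P → ℂ) g := by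
    intro g
    conv_lhs => rw [hsum]
    simp [Finset.sum_apply, hm]
  have hdeg1 : ∀ ψ : Cfsg.IrrCharacter P, (ψ : P → ℂ) 1 = ((H ψ).index : ℂ) := by
    intro ψ
    rw [hψ ψ, Helper75.indFun_one]
    have hc := Subgroup.card_mul_index (H ψ)
    have hH0 : (Nat.card (H ψ) : ℂ) ≠ 0 := by exact_mod_cast Nat.card_pos.ne'
    rw [map_one, Units.val_one, mul_one, ← hc]
    push_cast
    field_simp
  let S : Finset (Cfsg.IrrCharacter P) := Finset.univ.filter (fun ψ => m ψ ≠ 0)
  refine ⟨⨅ ψ ∈ S, (H ψ).normalCore, ?_, ?_⟩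
  · intro x hx y hy
    by_contra hxy
    have hc1 : x * y * x⁻¹ * y⁻¹ ≠ 1 := by
      intro h
      apply hxy
      have := congrArg (fun z => z * y * x) h
      simpa [mul_assoc] using this
    apply hc1
    apply hfaith
    rw [h1, h1]
    apply Finset.sum_congr rfl
    intro ψ _
    by_cases h0 : m ψ = 0
    · simp [h0]
    · congr 1
      have hψS : ψ ∈ S := Finset.mem_filter.mpr ⟨Finset.mem_univ _, h0⟩
      have hmem : ∀ z, z ∈ (⨅ ψ ∈ S, (H ψ).normalCore) → ∀ g : P, g⁻¹ * z * g ∈ H ψ := by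
        intro z hz g
        have hz' : z ∈ (H ψ).normalCore := by
          have := (Subgroup.mem_iInf.mp hz) ψ
          exact (Subgroup.mem_iInf.mp this) hψS
        have := hz' g⁻¹
        simpa using this
      rw [hψ ψ]
      unfold Cfsg.indFun
      congr 1
      apply Finset.sum_congr rfl
      intro g _
      have hxg := hmem x hx g
      have hyg := hmem y hy g
      have e1 : g⁻¹ * (x * y * x⁻¹ * y⁻¹) * g =
          (g⁻¹ * x * g) * (g⁻¹ * y * g) * (g⁻¹ * x * g)⁻¹ * (g⁻¹ * y * g)⁻¹ := by group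
      have hcg : g⁻¹ * (x * y * x⁻¹ * y⁻¹) * g ∈ H ψ := by
        rw [e1]
        exact Subgroup.mul_mem _ (Subgroup.mul_mem _ (Subgroup.mul_mem _ hxg hyg)
          (Subgroup.inv_mem _ hxg)) (Subgroup.inv_mem _ hyg)
      have h1g : g⁻¹ * 1 * g ∈ H ψ := by simp
      rw [Helper3.extendByZero_of_mem _ _ hcg, Helper3.extendByZero_of_mem _ _ h1g]
      have e2 : (⟨g⁻¹ * (x * y * x⁻¹ * y⁻¹) * g, hcg⟩ : H ψ) =
          (⟨_, hxg⟩ : H ψ) * ⟨_, hyg⟩ * (⟨_, hxg⟩ : H ψ)⁻¹ * (⟨_, hyg⟩ : H ψ)⁻¹ :=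
        Subtype.ext e1
      have e3 : (⟨g⁻¹ * 1 * g, h1g⟩ : H ψ) = 1 := Subtype.ext (by simp)
      rw [e2, e3, jordan_hom_comm, map_one]
  · have h2 : (⨅ ψ ∈ S, (H ψ).normalCore).index ∣ ∏ ψ ∈ S, ((H ψ).normalCore).index :=
      jordan_index_iInf_dvd S _ (fun ψ => Subgroup.normalCore_normal _)
    have h3 : ∏ ψ ∈ S, (H ψ).normalCore.index ∣ ∏ ψ ∈ S, ((H ψ).index)! :=
      Finset.prod_dvd_prod_of_dvd _ _ (fun ψ _ => jordan_normalCore_index_dvd _)
    have h4 := Nat.prod_factorial_dvd_factorial_sum S (fun ψ => (H ψ).index)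
    have hdeg : (n : ℂ) = ∑ ψ : Cfsg.IrrCharacter P, (m ψ : ℂ) * ((H ψ).index : ℂ) := by
      rw [← hn, ← Helper79.isCharacter_one_eq_charDegree hχ, h1 1]
      apply Finset.sum_congr rfl
      intro ψ _
      rw [hdeg1]
    have hdegN : n = ∑ ψ : Cfsg.IrrCharacter P, m ψ * (H ψ).index := by exact_mod_cast hdeg
    have h5 : ∑ ψ ∈ S, (H ψ).index ≤ n := by
      calc ∑ ψ ∈ S, (H ψ).index ≤ ∑ ψ ∈ S, m ψ * (H ψ).index :=
            Finset.sum_le_sum (fun ψ hψ => Nat.le_mul_of_pos_left _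
              (Nat.pos_of_ne_zero (Finset.mem_filter.mp hψ).2))
        _ ≤ ∑ ψ : Cfsg.IrrCharacter P, m ψ * (H ψ).index :=
            Finset.sum_le_sum_of_subset (Finset.filter_subset _ _)
        _ = n := hdegN.symm
    exact dvd_trans h2 (dvd_trans h3 (dvd_trans h4 (Nat.factorial_dvd_factorial h5)))

end Cfsg.Agent.Helper76
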