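import Mathlib
import Cfsg.Prelude.Def_Blocks
import Cfsg.Agent.Helper76.JordanA

/-!
# The explicit Jordan bound from the abelian-subgroup form (helper76)

If `G` has a faithful character of degree `n` and `A ≤ G` satisfies `[H : H ⊓ A] ≤ 12 ^ n` for
every abelian `H ≤ G`, then `[G : A] ≤ n! * 12 ^ (n * (π (n + 1) + 1))`.
-/

set_option autoImplicit false

namespace Cfsg.Agent.Helper76

universe u

open scoped Nat

theorem jordan_prod_dvd {ι : Type*} (T : Finset ι) (f : ι → ℕ) (z : ℕ)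
    (hcop : ∀ i ∈ T, ∀ j ∈ T, i ≠ j → Nat.Coprime (f i) (f j)) (hdvd : ∀ i ∈ T, f i ∣ z) :
    ∏ i ∈ T, f i ∣ z := by
  classical
  induction T using Finset.induction_on with
  | empty => simp
  | insert a s ha ih =>
    rw [Finset.prod_insert ha]
    apply Nat.Coprime.mul_dvd_of_dvd_of_dvd
    · apply Nat.Coprime.prod_right
      intro i hi
      exact hcop a (Finset.mem_insert_self a s) i (Finset.mem_insert_of_mem hi)
        (fun h => ha (h ▸ hi))
    · exact hdvd a (Finset.mem_insert_self a s)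
    · exact ih (fun i hi j hj hij => hcop i (Finset.mem_insert_of_mem hi) j
        (Finset.mem_insert_of_mem hj) hij) (fun i hi => hdvd i (Finset.mem_insert_of_mem hi))

theorem jordan_count {G : Type*} [Group G] [Finite G] (A H₀ : Subgroup G) (T : Finset ℕ)
    (S : ℕ → Subgroup G)
    (h1 : Nat.card G ∣ Nat.card H₀ * ∏ p ∈ T, Nat.card (S p))
    (h2 : ∀ p ∈ T, Nat.Coprime (Nat.card H₀) (Nat.card (S p)))
    (h3 : ∀ p ∈ T, ∀ q ∈ T, p ≠ q → Nat.Coprime (Nat.card (S p)) (Nat.card (S q))) :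
    A.index ≤ A.relIndex H₀ * ∏ p ∈ T, A.relIndex (S p) := by
  have hcK : ∀ K : Subgroup G, Nat.card (A.subgroupOf K) * A.relIndex K = Nat.card K :=
    fun K => Subgroup.card_mul_index (A.subgroupOf K)
  have hcdK : ∀ K : Subgroup G, Nat.card (A.subgroupOf K) ∣ Nat.card K :=
    fun K => Subgroup.card_subgroup_dvd_card _
  have hcA : ∀ K : Subgroup G, Nat.card (A.subgroupOf K) ∣ Nat.card A := by
    intro K
    have e1 : Nat.card (A.subgroupOf K) = Nat.card ((A.subgroupOf K).map K.subtype) :=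
      (Subgroup.card_map_of_injective K.subtype_injective).symm
    rw [e1, Subgroup.subgroupOf_map_subtype]
    exact Subgroup.card_dvd_of_le inf_le_left
  have hprod_dvd : Nat.card (A.subgroupOf H₀) * ∏ p ∈ T, Nat.card (A.subgroupOf (S p)) ∣
      Nat.card A := by
    apply Nat.Coprime.mul_dvd_of_dvd_of_dvd
    · apply Nat.Coprime.prod_right
      intro p hp
      exact Nat.Coprime.coprime_dvd_left (hcdK H₀)
        (Nat.Coprime.coprime_dvd_right (hcdK (S p)) (h2 p hp))
    · exact hcA H₀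
    · apply jordan_prod_dvd
      · intro p hp q hq hpq
        exact Nat.Coprime.coprime_dvd_left (hcdK (S p))
          (Nat.Coprime.coprime_dvd_right (hcdK (S q)) (h3 p hp q hq hpq))
      · intro p _
        exact hcA (S p)
  have hpos : 0 < Nat.card A := Nat.card_pos
  have e : A.index * Nat.card A = Nat.card G := by
    rw [mul_comm]; exact Subgroup.card_mul_index A
  have hRpos : 0 < Nat.card H₀ * ∏ p ∈ T, Nat.card (S p) :=
    Nat.mul_pos Nat.card_pos (Finset.prod_pos (fun p _ => Nat.card_pos))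
  have hle : Nat.card G ≤ Nat.card H₀ * ∏ p ∈ T, Nat.card (S p) := Nat.le_of_dvd hRpos h1
  have e2 : Nat.card H₀ * ∏ p ∈ T, Nat.card (S p) =
      (A.relIndex H₀ * ∏ p ∈ T, A.relIndex (S p)) *
        (Nat.card (A.subgroupOf H₀) * ∏ p ∈ T, Nat.card (A.subgroupOf (S p))) := by
    have e3 : ∏ p ∈ T, Nat.card (S p) =
        ∏ p ∈ T, (Nat.card (A.subgroupOf (S p)) * A.relIndex (S p)) :=
      Finset.prod_congr rfl (fun p _ => (hcK (S p)).symm)
    rw [e3, Finset.prod_mul_distrib, ← hcK H₀]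
    ring
  have hle2 : Nat.card (A.subgroupOf H₀) * ∏ p ∈ T, Nat.card (A.subgroupOf (S p)) ≤
      Nat.card A := Nat.le_of_dvd hpos hprod_dvd
  apply Nat.le_of_mul_le_mul_right _ hpos
  calc A.index * Nat.card A = Nat.card G := e
    _ ≤ Nat.card H₀ * ∏ p ∈ T, Nat.card (S p) := hle
    _ = (A.relIndex H₀ * ∏ p ∈ T, A.relIndex (S p)) *
        (Nat.card (A.subgroupOf H₀) * ∏ p ∈ T, Nat.card (A.subgroupOf (S p))) := e2
    _ ≤ (A.relIndex H₀ * ∏ p ∈ T, A.relIndex (S p)) * Nat.card A :=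
        Nat.mul_le_mul_left _ hle2

/-- The explicit Jordan bound, assuming an abelian-subgroup bound for `A`. -/
theorem jordan_bound {G : Type u} [Group G] [Finite G] (χ : G → ℂ) (hχ : Cfsg.IsCharacter G χ)
    (hfaith : ∀ g, χ g = χ 1 → g = 1) (n : ℕ) (hn : Cfsg.charDegree χ = n) (A : Subgroup G)
    (hA : ∀ H : Subgroup G, (∀ x ∈ H, ∀ y ∈ H, x * y = y * x) →
      (A.subgroupOf H).index ≤ 12 ^ n) :
    A.index ≤ n ! * 12 ^ (n * (Nat.primeCounting (n + 1) + 1)) := by
  classical
  obtain ⟨H₀, hH₀ab, hH₀card, hH₀idx⟩ := blich_hall χ hχ hfaith n hn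
  have hN0 : Nat.card G ≠ 0 := Nat.card_pos.ne'
  have key : ∀ p : ℕ, ∃ P B : Subgroup G, p.Prime →
      (Nat.card P = p ^ (Nat.card G).factorization p ∧ B ≤ P ∧
        (∀ x ∈ B, ∀ y ∈ B, x * y = y * x) ∧ B.relIndex P ∣ n !) := by
    intro p
    by_cases hp : p.Prime
    · have := Fact.mk hp
      let P : Sylow p G := default
      have hnil : Group.IsNilpotent (P : Subgroup G) := P.isPGroup'.isNilpotent
      obtain ⟨B', hB'ab, hB'idx⟩ := jordan_nilpotent (P := (P : Subgroup G)) (fun x => χ x)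
        (Helper79.isCharacter_restrict hχ P)
        (fun g hg => Subtype.ext (hfaith g (by simpa using hg))) n
        (by rw [← hn]; simp [Cfsg.charDegree])
      refine ⟨P, B'.map (P : Subgroup G).subtype, fun _ =>
        ⟨P.card_eq_multiplicity, Subgroup.map_subtype_le _, ?_, ?_⟩⟩
      · rintro _ ⟨x, hx, rfl⟩ _ ⟨y, hy, rfl⟩
        exact congrArg Subtype.val (hB'ab x hx y hy)
      · rw [blich_relIndex_map_subtype]; exact hB'idx
    · exact ⟨⊥, ⊥, fun h => absurd h hp⟩
  choose P B hPB using key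
  let T : Finset ℕ := (Finset.range (n + 2)).filter Nat.Prime
  have hT : ∀ p ∈ T, p.Prime ∧ p ≤ n + 1 := by
    intro p hp
    have := Finset.mem_filter.mp hp
    exact ⟨this.2, by have := Finset.mem_range.mp this.1; omega⟩
  have hcount : A.index ≤ A.relIndex H₀ * ∏ p ∈ T, A.relIndex (P p) := by
    apply jordan_count A H₀ T P
    · rw [Nat.dvd_iff_prime_pow_dvd_dvd]
      intro r k hr hrk
      by_cases hrn : r ≤ n + 1
      · have hrT : r ∈ T := Finset.mem_filter.mpr ⟨Finset.mem_range.mpr (by omega), hr⟩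
        apply dvd_mul_of_dvd_right
        apply dvd_trans _ (Finset.dvd_prod_of_mem _ hrT)
        rw [(hPB r hr).1]
        exact pow_dvd_pow _ ((hr.pow_dvd_iff_le_factorization hN0).mp hrk)
      · apply dvd_mul_of_dvd_left
        have hnd : ¬ r ∣ H₀.index := fun h => hrn (hH₀idx r hr h)
        have hcop : Nat.Coprime (r ^ k) H₀.index :=
          ((Nat.Prime.coprime_iff_not_dvd hr).mpr hnd).pow_left k
        apply hcop.dvd_of_dvd_mul_right
        rw [Subgroup.card_mul_index]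
        exact hrk
    · intro p hp
      obtain ⟨hpp, hpn⟩ := hT p hp
      rw [(hPB p hpp).1]
      apply Nat.Coprime.pow_right
      apply Nat.Coprime.symm
      apply (Nat.Prime.coprime_iff_not_dvd hpp).mpr
      intro h
      have := hH₀card p hpp h
      omega
    · intro p hp q hq hpq
      obtain ⟨hpp, -⟩ := hT p hp
      obtain ⟨hqp, -⟩ := hT q hq
      rw [(hPB p hpp).1, (hPB q hqp).1]
      exact Nat.Coprime.pow _ _ ((Nat.coprime_primes hpp hqp).mpr hpq)
  have hb0 : A.relIndex H₀ ≤ 12 ^ n := hA H₀ hH₀ab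
  have hbp : ∀ p ∈ T, A.relIndex (P p) ≤ (B p).relIndex (P p) * 12 ^ n := by
    intro p hp
    obtain ⟨hcard, hBP, hBab, hBidx⟩ := hPB p (hT p hp).1
    have e := Subgroup.relIndex_inf_mul_relIndex A (B p) (P p)
    rw [inf_eq_left.mpr hBP] at e
    have hd : A.relIndex (P p) ∣ (A ⊓ B p).relIndex (P p) :=
      Subgroup.relIndex_dvd_of_le_left (P p) inf_le_left
    have hne : (A ⊓ B p).relIndex (P p) ≠ 0 := by
      unfold Subgroup.relIndex
      exact Subgroup.index_ne_zero_of_finite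
    calc A.relIndex (P p) ≤ (A ⊓ B p).relIndex (P p) :=
          Nat.le_of_dvd (Nat.pos_of_ne_zero hne) hd
      _ = A.relIndex (B p) * (B p).relIndex (P p) := e.symm
      _ ≤ 12 ^ n * (B p).relIndex (P p) := Nat.mul_le_mul_right _ (hA (B p) hBab)
      _ = (B p).relIndex (P p) * 12 ^ n := mul_comm _ _
  have hprodB : ∏ p ∈ T, (B p).relIndex (P p) ≤ n ! := by
    apply Nat.le_of_dvd (Nat.factorial_pos n)
    apply jordan_prod_dvd
    · intro p hp q hq hpq
      obtain ⟨hpp, -⟩ := hT p hp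
      obtain ⟨hqp, -⟩ := hT q hq
      have h1 : (B p).relIndex (P p) ∣ Nat.card (P p) := Subgroup.relIndex_dvd_card _ _
      have h2 : (B q).relIndex (P q) ∣ Nat.card (P q) := Subgroup.relIndex_dvd_card _ _
      rw [(hPB p hpp).1] at h1
      rw [(hPB q hqp).1] at h2
      exact Nat.Coprime.coprime_dvd_left h1 (Nat.Coprime.coprime_dvd_right h2
        (Nat.Coprime.pow _ _ ((Nat.coprime_primes hpp hqp).mpr hpq)))
    · intro p hp
      exact (hPB p (hT p hp).1).2.2.2
  have hTcard : T.card = Nat.primeCounting (n + 1) := by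
    simp [T, Nat.primeCounting, Nat.primeCounting', Nat.count_eq_card_filter_range]
  calc A.index ≤ A.relIndex H₀ * ∏ p ∈ T, A.relIndex (P p) := hcount
    _ ≤ 12 ^ n * ∏ p ∈ T, ((B p).relIndex (P p) * 12 ^ n) :=
        Nat.mul_le_mul hb0 (Finset.prod_le_prod (fun _ _ => Nat.zero_le _) hbp)
    _ = 12 ^ n * ((∏ p ∈ T, (B p).relIndex (P p)) * (12 ^ n) ^ T.card) := by
        rw [Finset.prod_mul_distrib, Finset.prod_const]
    _ ≤ 12 ^ n * (n ! * (12 ^ n) ^ T.card) :=
        Nat.mul_le_mul_left _ (Nat.mul_le_mul_right _ hprodB)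
    _ = n ! * 12 ^ (n * (Nat.primeCounting (n + 1) + 1)) := by
        rw [hTcard]; ring

end Cfsg.Agent.Helper76
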