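import Cfsg.Agent.Helper76.Inflate
import Cfsg.Agent.Helper75.BlockTwist
import Cfsg.Agent.Helper75.Rational
import Cfsg.Agent.Helper75.RationalChar
import Cfsg.Agent.Helper75.Galois
import Cfsg.Agent.Helper81.BlockKer
import Cfsg.Agent.Helper81.BlockDefect

/-!
# Sums of `|χ(x)|²` over the principal block (helper76)

* `irrInfl_injective`: inflation of irreducible characters is injective.
* `bijOn_irrInfl_principalBlock`: for a normal `p'`-subgroup `N`, inflation is a bijection from
  the principal block of `G ⧸ N` onto the principal block of `G`.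
* `exists_int_sum_principalBlock`: `∑_{χ ∈ B₀} χ(x) conj χ(x)` is a rational integer.
-/

set_option autoImplicit false
set_option linter.style.haveILetI false

namespace Cfsg.Agent.Helper76

open scoped ComplexConjugate

universe u

section lambdaSum

variable {G : Type u} [Group G] [Fintype G]

theorem irrInfl_injective (N : Subgroup G) [N.Normal] : Function.Injective (irrInfl N) := by
  intro ψ ψ' h
  apply Subtype.ext
  funext x
  obtain ⟨g, rfl⟩ := QuotientGroup.mk_surjective x
  have h1 := congrArg (fun χ : Cfsg.IrrCharacter G => (χ : G → ℂ) g) h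
  exact h1

/-- For a normal `p'`-subgroup `N`, inflation is a bijection from the principal block of
`G ⧸ N` onto the principal block of `G`. -/
theorem bijOn_irrInfl_principalBlock {p : ℕ} [Fact p.Prime] {M : Ideal Cfsg.AlgInt}
    (hM : Cfsg.IsPModular p M) (N : Subgroup G) [N.Normal] (hN : ¬ p ∣ Nat.card N) :
    Set.BijOn (irrInfl N) (Cfsg.principalBlock M (G ⧸ N)) (Cfsg.principalBlock M G) := by
  refine ⟨?_, (irrInfl_injective N).injOn, ?_⟩
  · intro ψ hψ
    exact Helper81.sameBlock_comp_mk hM N hψ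
  · intro χ hχ
    obtain ⟨ψ', h1, h2⟩ :=
      exists_deflation_of_sameBlock hM N hN (Helper79.trivIrr (G ⧸ N)) χ hχ
    exact ⟨ψ', h2, h1⟩

omit [Fintype G] in
/-- `∑_{χ ∈ B₀} χ(x) conj χ(x)` is a rational integer. -/
theorem exists_int_sum_principalBlock [Finite G] [Fintype (Cfsg.IrrCharacter G)]
    (M : Ideal Cfsg.AlgInt)
    [DecidablePred (fun χ : Cfsg.IrrCharacter G => χ ∈ Cfsg.principalBlock M G)] (x : G) :
    ∃ m : ℤ, ∑ χ ∈ Finset.univ.filter
        (fun χ : Cfsg.IrrCharacter G => χ ∈ Cfsg.principalBlock M G),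
      (χ : G → ℂ) x * conj ((χ : G → ℂ) x) = (m : ℂ) := by
  classical
  cases nonempty_fintype G
  have hn : Nat.card G ≠ 0 := Nat.card_pos.ne'
  have hconj : ∀ χ : Cfsg.IrrCharacter G, conj ((χ : G → ℂ) x) = (χ : G → ℂ) x⁻¹ :=
    fun χ => (Helper77.irr_inv χ x).symm
  simp only [hconj]
  apply Helper75.int_of_fixed (Nat.card G) hn
  · refine sum_mem fun χ _ => mul_mem ?_ ?_
    · obtain ⟨n, ρ, hρ, hχ⟩ := χ.2
      rw [← hχ]
      exact Helper75.character_mem_cycField ρ x
    · obtain ⟨n, ρ, hρ, hχ⟩ := χ.2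
      rw [← hχ]
      exact Helper75.character_mem_cycField ρ x⁻¹
  · exact IsIntegral.sum _ fun χ _ =>
      IsIntegral.mul (Helper81.irr_isIntegral χ x) (Helper81.irr_isIntegral χ x⁻¹)
  · intro σ
    obtain ⟨k, hk, hσ⟩ := Helper75.exists_pow_of_ringEquiv σ (Nat.card G) hn
    have hval : ∀ (χ : Cfsg.IrrCharacter G) (g : G),
        σ ((χ : G → ℂ) g) = (Helper75.powTwist k hk χ : G → ℂ) g := by
      intro χ g
      obtain ⟨n, ρ, hρ, hχ⟩ := χ.2
      rw [Helper75.powTwist_apply, ← hχ]
      exact (Helper75.character_pow_eq ρ σ k hσ g).symm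
    rw [map_sum]
    simp only [map_mul, hval]
    have hinj : Function.Injective
        (Helper75.powTwist k hk : Cfsg.IrrCharacter G → Cfsg.IrrCharacter G) := by
      intro χ χ' h
      apply Subtype.ext
      funext g
      obtain ⟨h', rfl⟩ : ∃ h' : G, h' ^ k = g := (powCoprime hk.symm).surjective g
      have h1 := congrArg (fun ψ : Cfsg.IrrCharacter G => (ψ : G → ℂ) h') h
      exact h1
    have himg : (Finset.univ.filter
        (fun χ : Cfsg.IrrCharacter G => χ ∈ Cfsg.principalBlock M G)).image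
          (Helper75.powTwist k hk)
        = Finset.univ.filter (fun χ : Cfsg.IrrCharacter G => χ ∈ Cfsg.principalBlock M G) := by
      apply Finset.eq_of_subset_of_card_le
      · intro χ hχ
        obtain ⟨χ₀, hχ₀, rfl⟩ := Finset.mem_image.mp hχ
        rw [Finset.mem_filter] at hχ₀ ⊢
        exact ⟨Finset.mem_univ _, Helper75.powTwist_mem_principalBlock M k hk χ₀ hχ₀.2⟩
      · rw [Finset.card_image_of_injective _ hinj]
    conv_rhs => rw [← himg]
    rw [Finset.sum_image (fun a _ b _ h => hinj h)]

end lambdaSum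

end Cfsg.Agent.Helper76
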