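import Mathlib
import Cfsg.Prelude.Def_Characters
import Cfsg.Prelude.Def_Blocks
import Cfsg.Agent.Helper79.Basic
import Cfsg.Agent.Helper15.CharInner
import Cfsg.Agent.Helper80.CharIrr

/-!
# Schur's proof of the Minkowski bound for `p`-groups with a `p`-rational character (helper76)

* `mink_sum_char`: the sum of a character over the group is `|G|` times a natural number.
* `mink_value`: a `p`-rational character of a `p`-group takes integer values in
  `[-n/(p-1), n]`.
* `mink_schur`: the index of the kernel divides `(n + n/(p-1))!`.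
-/

set_option autoImplicit false

namespace Cfsg.Agent.Helper76

open Cfsg

/-- The sum of a character over a finite group is `|G|` times a natural number at most the degree. -/
theorem mink_sum_char {P : Type*} [Group P] [Fintype P] {ψ : P → ℂ} (hψ : IsCharacter P ψ) :
    ∃ m : ℕ, ∑ x : P, ψ x = (Nat.card P : ℂ) * m ∧ m ≤ charDegree ψ := by
  obtain ⟨m, hm⟩ := Cfsg.Agent.Helper15.inner_nat hψ
    (Cfsg.Agent.Helper79.isCharacter_one (G := P))
  have hc : (Nat.card P : ℂ) ≠ 0 := by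
    exact_mod_cast (Nat.card_pos (α := P)).ne'
  have hsum : ∑ x : P, ψ x = (Nat.card P : ℂ) * m := by
    unfold classInner at hm
    simp only [map_one, mul_one] at hm
    rw [← hm, ← mul_assoc, mul_inv_cancel₀ hc, one_mul]
  refine ⟨m, hsum, ?_⟩
  have h1 : ‖∑ x : P, ψ x‖ ≤ ∑ x : P, ‖ψ x‖ := norm_sum_le _ _
  have h2 : ∑ x : P, ‖ψ x‖ ≤ ∑ _x : P, (charDegree ψ : ℝ) :=
    Finset.sum_le_sum fun x _ => Cfsg.Agent.Helper80.isCharacter_norm_le hψ x
  rw [hsum, Finset.sum_const, Finset.card_univ, nsmul_eq_mul, norm_mul, Complex.norm_natCast,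
    Complex.norm_natCast, Nat.card_eq_fintype_card] at *
  have h3 : (Fintype.card P : ℝ) * m ≤ (Fintype.card P : ℝ) * charDegree ψ := h1.trans h2
  have h4 : (0 : ℝ) < Fintype.card P := by exact_mod_cast Fintype.card_pos
  have h5 := le_of_mul_le_mul_left h3 h4
  exact_mod_cast h5

/-- The sum of a character over the powers of an element. -/
theorem mink_sum_range {P : Type*} [Group P] [Finite P] {ψ : P → ℂ} (hψ : IsCharacter P ψ)
    (x : P) : ∃ m : ℕ, ∑ j ∈ Finset.range (orderOf x), ψ (x ^ j) = (orderOf x : ℂ) * m ∧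
      m ≤ charDegree ψ := by
  classical
  have hres := Cfsg.Agent.Helper79.isCharacter_restrict hψ (Subgroup.zpowers x)
  let _ : Fintype (Subgroup.zpowers x) := Fintype.ofFinite _
  obtain ⟨m, hm, hle⟩ := mink_sum_char hres
  refine ⟨m, ?_, hle⟩
  rw [Nat.card_zpowers] at hm
  rw [← hm]
  have hx : IsOfFinOrder x := isOfFinOrder_of_finite x
  rw [← Fin.sum_univ_eq_sum_range (fun j => ψ (x ^ j)) (orderOf x)]
  exact Fintype.sum_equiv (finEquivZPowers hx) _ _ (fun i => rfl)

/-- A rational algebraic integer is an integer. -/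
theorem mink_int_of_mul_eq (d : ℕ) (hd : d ≠ 0) (k : ℤ) (w : ℂ) (hw : IsIntegral ℤ w)
    (h : (d : ℂ) * w = k) : ∃ v : ℤ, w = v := by
  have hd0 : (d : ℂ) ≠ 0 := by exact_mod_cast hd
  have hd0' : (d : ℚ) ≠ 0 := by exact_mod_cast hd
  have hw' : w = algebraMap ℚ ℂ ((k : ℚ) / (d : ℚ)) := by
    have h1 : w = (k : ℂ) / (d : ℂ) := by
      rw [← h]
      field_simp
    rw [h1]
    simp
  rw [hw'] at hw
  have hint2 : IsIntegral ℤ ((k : ℚ) / (d : ℚ)) :=
    (isIntegral_algebraMap_iff (algebraMap ℚ ℂ).injective).1 hw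
  obtain ⟨v, hv⟩ := IsIntegrallyClosed.isIntegral_iff.1 hint2
  refine ⟨v, ?_⟩
  rw [hw', ← hv]
  simp

/-- Splitting a sum over `range (p * r)` into multiples of `p` and non-multiples. -/
theorem mink_sum_split (p r : ℕ) (hp : 0 < p) (f : ℕ → ℂ) :
    ∑ j ∈ Finset.range (p * r), f j =
      ∑ u ∈ Finset.range r, f (p * u) +
        ∑ j ∈ (Finset.range (p * r)).filter (fun j => ¬ p ∣ j), f j := by
  classical
  rw [← Finset.sum_filter_add_sum_filter_not (Finset.range (p * r)) (fun j => p ∣ j)]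
  congr 1
  have him : (Finset.range (p * r)).filter (fun j => p ∣ j) =
      (Finset.range r).image (fun u => p * u) := by
    ext j
    simp only [Finset.mem_filter, Finset.mem_range, Finset.mem_image]
    constructor
    · rintro ⟨hj, c, rfl⟩
      exact ⟨c, lt_of_mul_lt_mul_left hj (Nat.zero_le p), rfl⟩
    · rintro ⟨u, hu, rfl⟩
      exact ⟨Nat.mul_lt_mul_of_pos_left hu hp, dvd_mul_right p u⟩
  rw [him, Finset.sum_image]
  intro a _ b _ hab
  exact Nat.eq_of_mul_eq_mul_left hp hab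

theorem mink_card_filter (p r : ℕ) (hp : 0 < p) :
    ((Finset.range (p * r)).filter (fun j => ¬ p ∣ j)).card + r = p * r := by
  classical
  have h := Finset.card_filter_add_card_filter_not (s := Finset.range (p * r)) (fun j => p ∣ j)
  have him : (Finset.range (p * r)).filter (fun j => p ∣ j) =
      (Finset.range r).image (fun u => p * u) := by
    ext j
    simp only [Finset.mem_filter, Finset.mem_range, Finset.mem_image]
    constructor
    · rintro ⟨hj, c, rfl⟩
      exact ⟨c, lt_of_mul_lt_mul_left hj (Nat.zero_le p), rfl⟩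
    · rintro ⟨u, hu, rfl⟩
      exact ⟨Nat.mul_lt_mul_of_pos_left hu hp, dvd_mul_right p u⟩
  rw [him, Finset.card_image_of_injective _ (fun a b hab => Nat.eq_of_mul_eq_mul_left hp hab),
    Finset.card_range, Finset.card_range] at h
  omega

/-- Values of a `p`-rational character of a `p`-group. -/
theorem mink_value {P : Type*} [Group P] [Finite P] (p : ℕ) [hp : Fact p.Prime]
    (hP : IsPGroup p P) {Ξ : P → ℂ} (hΞ : IsCharacter P Ξ)
    (hgal : ∀ (x : P) (t : ℕ), Nat.Coprime t p → Ξ (x ^ t) = Ξ x) (x : P) :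
    ∃ v : ℤ, Ξ x = (v : ℂ) ∧ -((charDegree Ξ / (p - 1) : ℕ) : ℤ) ≤ v ∧
      v ≤ (charDegree Ξ : ℤ) := by
  classical
  have hp2 : 2 ≤ p := hp.out.two_le
  have hpp : 0 < p := hp.out.pos
  have hd : p - 1 ≠ 0 := by omega
  -- integrality
  have hint : IsIntegral ℤ (Ξ x) := Cfsg.Agent.Helper80.isCharacter_isIntegral hΞ x
  have hnorm : ‖Ξ x‖ ≤ (charDegree Ξ : ℝ) := Cfsg.Agent.Helper80.isCharacter_norm_le hΞ x
  -- the key identity
  have key : ∃ m₁ m₂ : ℕ, m₂ ≤ charDegree Ξ ∧
      ((p - 1 : ℕ) : ℂ) * Ξ x = ((p * m₁ - m₂ : ℤ) : ℂ) := by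
    obtain ⟨k, hk⟩ := hP x
    obtain ⟨a, -, ha⟩ := (Nat.dvd_prime_pow hp.out).1 (orderOf_dvd_of_pow_eq_one hk)
    rcases a with _ | a
    · -- x = 1
      rw [pow_zero, orderOf_eq_one_iff] at ha
      refine ⟨charDegree Ξ, charDegree Ξ, le_refl _, ?_⟩
      rw [ha, Cfsg.Agent.Helper79.isCharacter_one_eq_charDegree hΞ]
      have : ((p - 1 : ℕ) : ℂ) = (p : ℂ) - 1 := by
        rw [Nat.cast_sub (by omega)]; simp
      rw [this]
      push_cast
      ring
    · obtain ⟨m₁, h₁, -⟩ := mink_sum_range hΞ x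
      have hdvd : p ∣ orderOf x := by rw [ha]; exact dvd_pow_self p (Nat.succ_ne_zero a)
      have hord : orderOf (x ^ p) = p ^ a := by
        rw [orderOf_pow_of_dvd hp.out.ne_zero hdvd, ha, pow_succ,
          Nat.mul_div_cancel _ hpp]
      obtain ⟨m₂, h₂, hle₂⟩ := mink_sum_range hΞ (x ^ p)
      rw [hord] at h₂
      rw [ha, pow_succ, mul_comm (p ^ a) p] at h₁
      rw [mink_sum_split p (p ^ a) hpp] at h₁
      have hfirst : ∑ u ∈ Finset.range (p ^ a), Ξ (x ^ (p * u)) =
          ∑ u ∈ Finset.range (p ^ a), Ξ ((x ^ p) ^ u) :=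
        Finset.sum_congr rfl fun u _ => by rw [pow_mul]
      rw [hfirst, h₂] at h₁
      have hsecond : ∑ j ∈ (Finset.range (p * p ^ a)).filter (fun j => ¬ p ∣ j), Ξ (x ^ j) =
          (((Finset.range (p * p ^ a)).filter (fun j => ¬ p ∣ j)).card : ℂ) * Ξ x := by
        rw [Finset.sum_congr rfl (g := fun _ => Ξ x), Finset.sum_const, nsmul_eq_mul]
        intro j hj
        rw [Finset.mem_filter] at hj
        exact hgal x j ((Nat.Prime.coprime_iff_not_dvd hp.out).2 hj.2).symm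
      rw [hsecond] at h₁
      have hcard := mink_card_filter p (p ^ a) hpp
      have hcard' : (((Finset.range (p * p ^ a)).filter (fun j => ¬ p ∣ j)).card : ℂ) =
          (p : ℂ) * (p : ℂ) ^ a - (p : ℂ) ^ a := by
        have : ((((Finset.range (p * p ^ a)).filter (fun j => ¬ p ∣ j)).card + p ^ a : ℕ) : ℂ) =
            ((p * p ^ a : ℕ) : ℂ) := by rw [hcard]
        push_cast at this
        linear_combination this
      rw [hcard'] at h₁
      refine ⟨m₁, m₂, hle₂, ?_⟩
      have hpa : ((p : ℂ) ^ a) ≠ 0 := pow_ne_zero _ (by exact_mod_cast hp.out.ne_zero)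
      have : ((p - 1 : ℕ) : ℂ) = (p : ℂ) - 1 := by
        rw [Nat.cast_sub (by omega)]; simp
      rw [this]
      push_cast at h₁ ⊢
      have h3 : (p : ℂ) ^ a * (((p : ℂ) - 1) * Ξ x) = (p : ℂ) ^ a * ((p : ℂ) * m₁ - m₂) := by
        linear_combination h₁
      exact mul_left_cancel₀ hpa h3
  obtain ⟨m₁, m₂, hm₂, hkey⟩ := key
  obtain ⟨v, hv⟩ := mink_int_of_mul_eq (p - 1) hd _ _ hint hkey
  refine ⟨v, hv, ?_, ?_⟩
  · -- lower bound
    rw [hv] at hkey
    have hkey' : ((p - 1 : ℕ) : ℤ) * v = p * m₁ - m₂ := by exact_mod_cast hkey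
    have h1 : -v * ((p - 1 : ℕ) : ℤ) ≤ (charDegree Ξ : ℤ) := by
      have : (0 : ℤ) ≤ p * m₁ := by positivity
      have hm₂' : (m₂ : ℤ) ≤ charDegree Ξ := by exact_mod_cast hm₂
      nlinarith
    have hpos : (0 : ℤ) < ((p - 1 : ℕ) : ℤ) := by
      have : 0 < p - 1 := by omega
      exact_mod_cast this
    have h2 := Int.le_ediv_of_mul_le hpos h1
    have h3 : ((charDegree Ξ / (p - 1) : ℕ) : ℤ) = (charDegree Ξ : ℤ) / ((p - 1 : ℕ) : ℤ) := by
      norm_cast
    rw [h3]
    linarith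
  · rw [hv, Complex.norm_intCast] at hnorm
    have h1 : (v : ℝ) ≤ |(v : ℝ)| := le_abs_self _
    have h2 : (v : ℝ) ≤ (charDegree Ξ : ℝ) := h1.trans hnorm
    exact_mod_cast h2

/-- Integrality of polynomial averages of a character. -/
theorem mink_poly_sum {P : Type*} [Group P] [Fintype P] {Ξ : P → ℂ} (hΞ : IsCharacter P Ξ)
    (Q : Polynomial ℤ) : ∃ z : ℤ, ∑ x : P, Polynomial.aeval (Ξ x) Q = (Nat.card P : ℂ) * z := by
  have hpow : ∀ k : ℕ, IsCharacter P (fun x => Ξ x ^ k) := by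
    intro k
    induction k with
    | zero => simpa using Cfsg.Agent.Helper79.isCharacter_one (G := P)
    | succ k ih =>
      have := Cfsg.Agent.Helper79.isCharacter_mul ih hΞ
      convert this using 1
      funext x
      simp [pow_succ]
  choose m hm using fun k => mink_sum_char (hpow k)
  refine ⟨∑ i ∈ Finset.range (Q.natDegree + 1), Q.coeff i * (m i : ℤ), ?_⟩
  simp_rw [Polynomial.aeval_eq_sum_range]
  rw [Finset.sum_comm]
  push_cast
  rw [Finset.mul_sum]
  apply Finset.sum_congr rfl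
  intro i _
  rw [← Finset.smul_sum, (hm i).1, zsmul_eq_mul]
  ring

/-- **Schur's argument**: for a `p`-rational character `Ξ` of degree `n` of a finite `p`-group,
the index of any subgroup containing the kernel divides `(n + n/(p-1))!`. -/
theorem mink_schur {P : Type*} [Group P] [Finite P] (p : ℕ) [hp : Fact p.Prime]
    (hP : IsPGroup p P) {Ξ : P → ℂ} (hΞ : IsCharacter P Ξ)
    (hgal : ∀ (x : P) (t : ℕ), Nat.Coprime t p → Ξ (x ^ t) = Ξ x)
    (A : Subgroup P) (hA : ∀ x : P, Ξ x = Ξ 1 → x ∈ A) :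
    A.index ∣ (charDegree Ξ + charDegree Ξ / (p - 1)).factorial := by
  classical
  let _ : Fintype P := Fintype.ofFinite P
  obtain ⟨n, hn⟩ : ∃ n, n = charDegree Ξ := ⟨_, rfl⟩
  obtain ⟨T, hT⟩ : ∃ T, T = n / (p - 1) := ⟨_, rfl⟩
  obtain ⟨N, hN⟩ : ∃ N, N = n + T := ⟨_, rfl⟩
  rw [← hn, ← hT, ← hN]
  obtain ⟨Q, hQ⟩ : ∃ Q : Polynomial ℤ, Q =
      ∏ j ∈ Finset.range N, (Polynomial.C (((j : ℤ) + 1) - n) + Polynomial.X) := ⟨_, rfl⟩
  have haeval : ∀ y : ℂ, Polynomial.aeval y Q =
      ∏ j ∈ Finset.range N, ((((j : ℤ) + 1 - n : ℤ) : ℂ) + y) := by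
    intro y
    rw [hQ, map_prod]
    apply Finset.prod_congr rfl
    intro j _
    simp
  obtain ⟨z, hz⟩ := mink_poly_sum hΞ Q
  obtain ⟨d, ρ, hρ⟩ := id hΞ
  obtain ⟨K₀, hK₀def⟩ : ∃ K₀ : Subgroup P, K₀ = MonoidHom.ker ρ := ⟨_, rfl⟩
  have hK₀ : ∀ x : P, x ∈ K₀ ↔ Ξ x = Ξ 1 := by
    intro x
    rw [hK₀def, MonoidHom.mem_ker, ← hρ]
    exact (Cfsg.Agent.Helper80.rep_char_eq_one_iff ρ x).symm
  have h1n : Ξ 1 = (n : ℂ) := by
    rw [hn]; exact Cfsg.Agent.Helper79.isCharacter_one_eq_charDegree hΞ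
  have hval : ∀ x : P, Polynomial.aeval (Ξ x) Q = if x ∈ K₀ then (N.factorial : ℂ) else 0 := by
    intro x
    obtain ⟨v, hv, hlo, hhi⟩ := mink_value p hP hΞ hgal x
    rw [← hn, ← hT] at hlo
    rw [← hn] at hhi
    rw [haeval]
    split_ifs with hx
    · rw [(hK₀ x).1 hx, h1n]
      have h2 : ∀ j ∈ Finset.range N, ((((j : ℤ) + 1 - n : ℤ) : ℂ) + (n : ℂ)) =
          ((j + 1 : ℕ) : ℂ) := by
        intro j _
        push_cast
        ring
      rw [Finset.prod_congr rfl h2, ← Nat.cast_prod, Finset.prod_range_add_one_eq_factorial]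
    · have hvn : v ≠ n := by
        intro h
        apply hx
        rw [hK₀, hv, h1n, h]
        simp
      have hlt : v < n := lt_of_le_of_ne hhi hvn
      have h3 : ((n - v - 1).toNat : ℤ) = n - v - 1 := Int.toNat_of_nonneg (by omega)
      apply Finset.prod_eq_zero (i := (n - v - 1).toNat)
      · rw [Finset.mem_range]
        have : ((n - v - 1).toNat : ℤ) < (N : ℤ) := by
          rw [h3, hN]
          push_cast
          omega
        exact_mod_cast this
      · rw [hv]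
        have : ((((n - v - 1).toNat : ℤ) + 1 - n : ℤ) : ℂ) = ((-v : ℤ) : ℂ) := by
          rw [h3]
          congr 1
          ring
        rw [this]
        push_cast
        ring
  have hsum : ∑ x : P, Polynomial.aeval (Ξ x) Q = (Nat.card K₀ : ℂ) * N.factorial := by
    simp_rw [hval]
    rw [Finset.sum_ite, Finset.sum_const_zero, add_zero, Finset.sum_const, nsmul_eq_mul]
    congr 2
    rw [Nat.card_eq_fintype_card, Fintype.card_subtype]
  have h1 : (Nat.card P : ℤ) * z = (Nat.card K₀ : ℤ) * N.factorial := by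
    have := hz.symm.trans hsum
    exact_mod_cast this
  have h2 : Nat.card P ∣ Nat.card K₀ * N.factorial := by
    have : (Nat.card P : ℤ) ∣ ((Nat.card K₀ * N.factorial : ℕ) : ℤ) := ⟨z, by push_cast; rw [h1]⟩
    exact Int.natCast_dvd_natCast.mp this
  have hle : K₀ ≤ A := fun x hx => hA x ((hK₀ x).1 hx)
  have h3 := A.card_mul_index
  obtain ⟨c, hc⟩ := Subgroup.card_dvd_of_le hle
  rw [← h3, hc] at h2
  have hpos : 0 < Nat.card K₀ := Nat.card_pos
  have h5 : c * A.index ∣ N.factorial := by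
    rw [mul_assoc] at h2
    exact Nat.dvd_of_mul_dvd_mul_left hpos h2
  exact Dvd.dvd.trans (Dvd.intro_left c rfl) h5

end Cfsg.Agent.Helper76
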