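import Mathlib
import Cfsg.Prelude.Def_Characters
import Cfsg.Prelude.Def_Blocks
import Cfsg.Prelude.Def_CharExt
import Cfsg.Agent.Helper79.Basic
import Cfsg.Agent.Helper15.CharInner
import Cfsg.Agent.Helper15.DetChar
import Cfsg.Agent.Helper80.CharIrr
import Cfsg.Agent.Helper75.Galois
import Cfsg.Agent.Helper75.InnerLin
import Cfsg.Agent.Helper3.Induced
import Cfsg.Agent.Helper3.IndFun

/-!
# Tools for the `p`-solvable linear group bound (helper76)

* arithmetic of `n + n/(p-1)` and Legendre's formula (`mink_factorization`);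
* determinantal characters of Galois conjugates (`mink_detChar_pow`, `mink_detOrder_pow_dvd`);
* the kernel of an induced character (`mink_ind_ker`);
* removing an irreducible constituent (`mink_sub_irr`);
* the centralizer of `K` modulo the kernel of a character as a subgroup (`mink_exists_cmod`).
-/

set_option autoImplicit false

namespace Cfsg.Agent.Helper76

open Cfsg

theorem mink_N_add (p a b : ℕ) :
    (a + a / (p - 1)) + (b + b / (p - 1)) ≤ (a + b) + (a + b) / (p - 1) := by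
  have : a / (p - 1) + b / (p - 1) ≤ (a + b) / (p - 1) := Nat.div_add_div_le_add_div
  omega

theorem mink_N_mono (p : ℕ) {a b : ℕ} (h : a ≤ b) : a + a / (p - 1) ≤ b + b / (p - 1) := by
  have := Nat.div_le_div_right (c := p - 1) h
  omega

/-- Legendre's formula for `(n + n/(p-1))!`. -/
theorem mink_factorization (p : ℕ) (hp : p.Prime) (n : ℕ) :
    ((n + n / (p - 1)).factorial).factorization p =
      ∑ i ∈ Finset.range (n + 1), n / ((p - 1) * p ^ i) := by
  obtain ⟨d, rfl⟩ : ∃ d, p = d + 1 := ⟨p - 1, by have := hp.two_le; omega⟩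
  have hd : 1 ≤ d := by have := hp.two_le; omega
  simp only [Nat.add_sub_cancel]
  have hlog : Nat.log (d + 1) (n + n / d) < n + 2 := by
    rcases Nat.eq_zero_or_pos (n + n / d) with h0 | hpos
    · rw [h0]; simp
    · apply Nat.log_lt_of_lt_pow hpos.ne'
      have h1 : n + n / d ≤ 2 * n := by have := Nat.div_le_self n d; omega
      have h2 : n < 2 ^ n := Nat.lt_two_pow_self
      calc n + n / d ≤ 2 * n := h1
        _ < 2 * 2 ^ n := by omega
        _ = 2 ^ (n + 1) := by ring
        _ ≤ (d + 1) ^ (n + 1) := Nat.pow_le_pow_left (by omega) _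
        _ ≤ (d + 1) ^ (n + 2) := Nat.pow_le_pow_right (by omega) (by omega)
  rw [Nat.factorization_factorial hp hlog, Finset.sum_Ico_eq_sum_range]
  have hr : n + 2 - 1 = n + 1 := by omega
  rw [hr]
  apply Finset.sum_congr rfl
  intro i _
  have hNp : (n + n / d) / (d + 1) = n / d := by
    apply Nat.div_eq_of_lt_le
    · have := Nat.div_mul_le_self n d
      nlinarith
    · have := Nat.lt_mul_div_succ n (show 0 < d by omega)
      nlinarith
  rw [pow_add, pow_one, ← Nat.div_div_eq_div_mul, hNp, Nat.div_div_eq_div_mul]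

/-- The determinantal character of a Galois conjugate. -/
theorem mink_detChar_pow {G : Type*} [Group G] [Finite G] (t : ℕ)
    (ht : Nat.Coprime t (Nat.card G)) {χ : G → ℂ} (hχ : IsCharacter G χ) (g : G) :
    detChar (fun x => χ (x ^ t)) g = (detChar χ g) ^ t := by
  obtain ⟨σ, hσ⟩ := Cfsg.Agent.Helper75.exists_ringEquiv_pow (Nat.card G) Nat.card_pos.ne' t ht
  obtain ⟨n, ρ, rfl⟩ := hχ
  have h1 : (Cfsg.Agent.Helper75.twist σ ρ).character = fun x => ρ.character (x ^ t) :=
    funext fun x => by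
      rw [Cfsg.Agent.Helper75.twist_character, Cfsg.Agent.Helper75.character_pow_eq ρ σ t hσ]
  rw [Cfsg.Agent.Helper15.detChar_of_rep (Cfsg.Agent.Helper75.twist σ ρ) _ ⟨n, _, h1⟩ h1,
    Cfsg.Agent.Helper15.detChar_of_rep ρ _ ⟨n, ρ, rfl⟩ rfl]
  show LinearMap.det (Cfsg.Agent.Helper75.twist σ ρ g) = LinearMap.det (ρ g) ^ t
  rw [Cfsg.Agent.Helper75.twist_apply, LinearMap.det_toLin']
  have h2 : ((LinearMap.toMatrix' (ρ g)).map σ).det = σ ((LinearMap.toMatrix' (ρ g)).det) :=
    (RingEquiv.map_det σ (LinearMap.toMatrix' (ρ g))).symm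
  rw [h2, LinearMap.det_toMatrix']
  apply hσ
  rw [← map_pow, ← map_pow, pow_card_eq_one', map_one, map_one]

theorem mink_detOrder_pow_dvd {G : Type*} [Group G] [Finite G] (t : ℕ)
    (ht : Nat.Coprime t (Nat.card G)) {χ : G → ℂ} (hχ : IsCharacter G χ) :
    detOrder (fun x => χ (x ^ t)) ∣ detOrder χ := by
  unfold detOrder
  apply orderOf_dvd_of_pow_eq_one
  funext g
  rw [Pi.pow_apply, mink_detChar_pow t ht hχ g, ← pow_mul, mul_comm, pow_mul]
  have := congrFun (pow_orderOf_eq_one (detChar χ)) g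
  rw [Pi.pow_apply, Pi.one_apply] at this
  rw [this, one_pow]
  rfl

theorem mink_detOrder_dvd_card {G : Type*} [Group G] [Finite G] {χ : G → ℂ}
    (hχ : IsCharacter G χ) : detOrder χ ∣ Nat.card G := by
  obtain ⟨f, hf⟩ := Cfsg.Agent.Helper15.detChar_exists_hom χ hχ
  unfold detOrder
  apply orderOf_dvd_of_pow_eq_one
  funext g
  rw [Pi.pow_apply, hf, ← Units.val_pow_eq_pow_val, ← map_pow, pow_card_eq_one', map_one]
  rfl

theorem mink_eq_of_re_eq_norm_le {z : ℂ} {d : ℕ} (h1 : z.re = (d : ℝ)) (h2 : ‖z‖ ≤ (d : ℝ)) :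
    z = (d : ℂ) := by
  have h3 : ‖z‖ ^ 2 = z.re * z.re + z.im * z.im := by
    rw [Complex.sq_norm, Complex.normSq_apply]
  have h4 : 0 ≤ ‖z‖ := norm_nonneg z
  have h5 : z.im = 0 := by
    have : z.im * z.im ≤ 0 := by nlinarith
    nlinarith [mul_self_nonneg z.im]
  apply Complex.ext <;> simp [h1, h5]

/-- The kernel of an induced character: if `Ind φ (x) = Ind φ (1)` then every conjugate of `x`
lies in the subgroup and in the kernel of `φ`. -/
theorem mink_ind_ker {H : Type*} [Group H] [Fintype H] (T : Subgroup H) {φ : T → ℂ}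
    (hφ : IsCharacter T φ) (h1 : φ 1 ≠ 0) (x : H)
    (hx : indFun T φ x = indFun T φ 1) (g : H) :
    ∃ hmem : g⁻¹ * x * g ∈ T, φ ⟨g⁻¹ * x * g, hmem⟩ = φ 1 := by
  classical
  obtain ⟨d, hd⟩ : ∃ d, d = charDegree φ := ⟨_, rfl⟩
  have hφ1 : φ 1 = (d : ℂ) := by
    rw [hd]; exact Cfsg.Agent.Helper79.isCharacter_one_eq_charDegree hφ
  have hdpos : (0 : ℝ) < d := by
    have : d ≠ 0 := by
      rintro h0
      rw [h0] at hφ1
      exact h1 (by simpa using hφ1)
    exact_mod_cast Nat.pos_of_ne_zero this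
  have hcard : (Nat.card T : ℂ) ≠ 0 := by exact_mod_cast (Nat.card_pos (α := T)).ne'
  have hsum : ∑ y : H, extendByZero T φ (y⁻¹ * x * y) = ∑ _y : H, (d : ℂ) := by
    unfold indFun at hx
    have h2 := mul_left_cancel₀ (inv_ne_zero hcard) hx
    rw [h2]
    apply Finset.sum_congr rfl
    intro y _
    have hmem : y⁻¹ * 1 * y ∈ T := by simp
    rw [Cfsg.Agent.Helper3.extendByZero_of_mem T φ hmem, ← hφ1]
    congr 1
    apply Subtype.ext
    simp
  have hre : ∑ y : H, (extendByZero T φ (y⁻¹ * x * y)).re = ∑ _y : H, (d : ℝ) := by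
    have := congrArg Complex.re hsum
    rw [Complex.re_sum, Complex.re_sum] at this
    simpa using this
  have hle : ∀ y ∈ (Finset.univ : Finset H),
      (extendByZero T φ (y⁻¹ * x * y)).re ≤ (d : ℝ) := by
    intro y _
    by_cases hy : y⁻¹ * x * y ∈ T
    · rw [Cfsg.Agent.Helper3.extendByZero_of_mem T φ hy, hd]
      exact (Complex.re_le_norm _).trans (Cfsg.Agent.Helper80.isCharacter_norm_le hφ _)
    · rw [Cfsg.Agent.Helper3.extendByZero_of_not_mem T φ hy]
      simp only [Complex.zero_re]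
      exact hdpos.le
  have heq := (Finset.sum_eq_sum_iff_of_le hle).1 hre g (Finset.mem_univ g)
  have hmem : g⁻¹ * x * g ∈ T := by
    by_contra hy
    rw [Cfsg.Agent.Helper3.extendByZero_of_not_mem T φ hy] at heq
    simp only [Complex.zero_re] at heq
    linarith
  refine ⟨hmem, ?_⟩
  rw [Cfsg.Agent.Helper3.extendByZero_of_mem T φ hmem] at heq
  have hn := Cfsg.Agent.Helper80.isCharacter_norm_le hφ ⟨g⁻¹ * x * g, hmem⟩
  rw [← hd] at hn
  rw [hφ1]
  exact mink_eq_of_re_eq_norm_le heq hn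

/-- Removing an irreducible constituent from a character leaves a character. -/
theorem mink_sub_irr {G : Type*} [Group G] [Fintype G] {χ ψ : G → ℂ}
    (hχ : IsCharacter G χ) (hψ : IsIrrCharacter G ψ)
    (h : classInner χ ψ ≠ 0) : IsCharacter G (χ - ψ) := by
  classical
  apply Cfsg.Agent.Helper3.isCharacter_of_classInner_nat
  · intro g k
    have h1 := Cfsg.Agent.Helper79.isCharacter_isClassFunction hχ g k
    have h2 := Cfsg.Agent.Helper79.isCharacter_isClassFunction
      (Cfsg.Agent.Helper79.isCharacter_of_irr hψ) g k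
    simp only [Pi.sub_apply, h1, h2]
  · intro χ'
    rw [Cfsg.Agent.Helper75.classInner_sub_left]
    obtain ⟨n, hn⟩ := Cfsg.Agent.Helper15.inner_nat hχ (Cfsg.Agent.Helper15.isChar_of_irr χ'.2)
    by_cases he : ψ = χ'.1
    · have h1 := Cfsg.Agent.Helper15.irr_inner_self hψ
      rw [← he] at hn ⊢
      rw [hn] at h ⊢
      rw [h1]
      have hn0 : n ≠ 0 := by
        rintro rfl
        simp at h
      refine ⟨n - 1, ?_⟩
      rw [Nat.cast_sub (by omega)]
      simp
    · rw [Cfsg.Agent.Helper15.irr_inner_ne hψ χ'.2 he, sub_zero]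
      exact ⟨n, hn⟩

/-- The centralizer of `K` modulo the kernel of a character, as a subgroup. -/
theorem mink_exists_cmod {H : Type*} [Group H] [Finite H] {ψ : H → ℂ} (hψ : IsCharacter H ψ)
    (K : Subgroup H) :
    ∃ D : Subgroup H, ∀ x : H, x ∈ D ↔ ∀ k ∈ K, ψ (x * k * x⁻¹ * k⁻¹) = ψ 1 := by
  obtain ⟨d, ρ, rfl⟩ := hψ
  have hker : ∀ y : H, ρ.character y = ρ.character 1 ↔ y ∈ MonoidHom.ker ρ := by
    intro y
    rw [MonoidHom.mem_ker]
    exact Cfsg.Agent.Helper80.rep_char_eq_one_iff ρ y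
  have hN : (MonoidHom.ker ρ).Normal := MonoidHom.normal_ker ρ
  refine ⟨{ carrier := {x | ∀ k ∈ K, x * k * x⁻¹ * k⁻¹ ∈ MonoidHom.ker ρ}
            mul_mem' := ?_
            one_mem' := ?_
            inv_mem' := ?_ }, ?_⟩
  · intro a b ha hb k hk
    have h1 := ha k hk
    have h2 := hb k hk
    have h3 : a * b * k * (a * b)⁻¹ * k⁻¹ = a * (b * k * b⁻¹ * k⁻¹) * a⁻¹ * (a * k * a⁻¹ * k⁻¹) := by
      group
    rw [h3]
    exact (MonoidHom.ker ρ).mul_mem (hN.conj_mem _ h2 a) h1
  · intro k _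
    have : (1 : H) * k * 1⁻¹ * k⁻¹ = 1 := by group
    rw [this]
    exact (MonoidHom.ker ρ).one_mem
  · intro a ha k hk
    have h1 := ha k hk
    have h3 : a⁻¹ * k * a⁻¹⁻¹ * k⁻¹ = a⁻¹ * (a * k * a⁻¹ * k⁻¹)⁻¹ * a⁻¹⁻¹ := by group
    rw [h3]
    exact hN.conj_mem _ ((MonoidHom.ker ρ).inv_mem h1) a⁻¹
  · intro x
    constructor
    · intro hx k hk
      exact (hker _).2 (hx k hk)
    · intro hx k hk
      exact (hker _).1 (hx k hk)

end Cfsg.Agent.Helper76
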