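import Mathlib
import Cfsg.Prelude.Def_Characters
import Cfsg.Prelude.Def_Blocks
import Cfsg.Prelude.Def_CharExt
import Cfsg.Agent.Helper76.MinkA
import Cfsg.Agent.Helper76.MinkB
import Cfsg.Agent.Helper75.CliffordCorr
import Cfsg.Agent.Helper75.ConjFun
import Cfsg.Agent.Helper75.Ito
import Cfsg.Agent.Helper79.Quotient
import Cfsg.Agent.Helper79.Codegree
import Cfsg.Agent.Helper3.CharBasic
import Cfsg.Agent.S0867

/-!
# A `p`-group acting on a `p'`-group with a character (helper76)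

* `mink_clifford_sum`: Clifford's theorem as a sum over the cosets of the inertia group.
* `mink_irr`: for an irreducible character `ψ` of `H`, `K ⊴ H` a `p'`-group of `p`-power index,
  a `p`-rational character of degree at most `ψ 1` whose kernel centralizes `K` modulo `ker ψ`.
* `mink_cmod_bound`: the index in a `p`-subgroup `P` of the centralizer of `K` modulo `ker ψ`
  divides `(n + n/(p-1))!`.
-/

set_option autoImplicit false

namespace Cfsg.Agent.Helper76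

open Cfsg

universe u

/-- Clifford's theorem, as a sum over the cosets of the inertia group. -/
theorem mink_clifford_sum {H : Type*} [Group H] [Fintype H] (K : Subgroup H) [hK : K.Normal]
    [Fintype K] {ψ : H → ℂ} (hψ : IsIrrCharacter H ψ) {θ : K → ℂ} (hθ : IsIrrCharacter K θ)
    (hne : classInner (fun k : K => ψ k) θ ≠ 0)
    [Fintype (H ⧸ Cfsg.Agent.Helper75.inertia K θ)] :
    ∃ (e : ℕ) (F : H ⧸ Cfsg.Agent.Helper75.inertia K θ → (K → ℂ)), e ≠ 0 ∧
      (∀ q, ∃ g : H, F q = Cfsg.Agent.Helper75.conjFun K g θ) ∧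
      ∀ c : K, ψ c = (e : ℂ) * ∑ q, F q c := by
  classical
  have hψc := Cfsg.Agent.Helper15.isChar_of_irr hψ
  have hres : IsCharacter K (fun k : K => ψ k) := Cfsg.Agent.Helper79.isCharacter_restrict hψc K
  obtain ⟨e, he⟩ := Cfsg.Agent.Helper15.inner_nat hres (Cfsg.Agent.Helper15.isChar_of_irr hθ)
  have he0 : e ≠ 0 := by
    rintro rfl
    exact hne (by rw [he]; simp)
  obtain ⟨T, hT⟩ : ∃ T, T = Cfsg.Agent.Helper75.inertia K θ := ⟨_, rfl⟩
  have hwd : ∀ a b : H, a⁻¹ * b ∈ Cfsg.Agent.Helper75.inertia K θ →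
      Cfsg.Agent.Helper75.conjFun K a⁻¹ θ = Cfsg.Agent.Helper75.conjFun K b⁻¹ θ := by
    intro a b hab
    have h1 : b⁻¹ = (a⁻¹ * b)⁻¹ * a⁻¹ := by group
    have h2 : Cfsg.Agent.Helper75.conjFun K (a⁻¹ * b)⁻¹ θ = θ :=
      (Cfsg.Agent.Helper75.inertia K θ).inv_mem hab
    rw [h1, Cfsg.Agent.Helper75.conjFun_mul, h2]
  obtain ⟨F, hF⟩ : ∃ F : H ⧸ Cfsg.Agent.Helper75.inertia K θ → (K → ℂ),
      ∀ g : H, F (QuotientGroup.mk g) = Cfsg.Agent.Helper75.conjFun K g⁻¹ θ :=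
    ⟨fun q => Quotient.liftOn' q (fun g => Cfsg.Agent.Helper75.conjFun K g⁻¹ θ)
      (fun a b hab => hwd a b (QuotientGroup.leftRel_apply.mp hab)), fun g => rfl⟩
  have hinj : Function.Injective F := by
    intro q₁ q₂ h
    induction q₁ using QuotientGroup.induction_on with
    | H a =>
      induction q₂ using QuotientGroup.induction_on with
      | H b =>
        rw [hF, hF] at h
        have h1 := congrArg (Cfsg.Agent.Helper75.conjFun K a) h
        rw [Cfsg.Agent.Helper75.conjFun_inv_conjFun, ← Cfsg.Agent.Helper75.conjFun_mul] at h1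
        have h2 : b⁻¹ * a ∈ Cfsg.Agent.Helper75.inertia K θ := h1.symm
        exact (QuotientGroup.eq.2 h2).symm
  have hrange : {θ' : K → ℂ | ∃ g : H, θ' = Cfsg.Agent.Helper75.conjFun K g θ} = Set.range F := by
    ext θ'
    constructor
    · rintro ⟨g, rfl⟩
      refine ⟨QuotientGroup.mk g⁻¹, ?_⟩
      rw [hF, inv_inv]
    · rintro ⟨q, rfl⟩
      induction q using QuotientGroup.induction_on with
      | H a => exact ⟨a⁻¹, hF a⟩
  have hcl := Cfsg.Agent.Helper75.clifford_restrict K hψ hθ hne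
  rw [hrange, finsum_mem_range hinj, finsum_eq_sum_of_fintype, he] at hcl
  refine ⟨e, F, he0, ?_, ?_⟩
  · intro q
    induction q using QuotientGroup.induction_on with
    | H a => exact ⟨a⁻¹, hF a⟩
  · intro c
    have := congrFun hcl c
    rw [Pi.smul_apply, Finset.sum_apply, smul_eq_mul] at this
    exact this

/-- The key construction: a `p`-rational character controlling the action on `K`. -/
theorem mink_irr {H : Type u} [Group H] [Finite H] (p : ℕ) [hp : Fact p.Prime]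
    (K : Subgroup H) [hKn : K.Normal] (hK : (Nat.card K).Coprime p)
    (hidx : ∃ b, K.index = p ^ b) {ψ : H → ℂ} (hψ : IsIrrCharacter H ψ) :
    ∃ Ξ : H → ℂ, IsCharacter H Ξ ∧ charDegree Ξ ≤ charDegree ψ ∧
      (∀ (h : H) (t : ℕ), Nat.Coprime t (Nat.card H) → t ≡ 1 [MOD Nat.card K] →
        Ξ (h ^ t) = Ξ h) ∧
      (∀ x : H, Ξ x = Ξ 1 → ∀ k ∈ K, ψ (x * k * x⁻¹ * k⁻¹) = ψ 1) := by
  classical
  let _ : Fintype H := Fintype.ofFinite H
  let _ : Fintype K := Fintype.ofFinite K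
  have hψc := Cfsg.Agent.Helper15.isChar_of_irr hψ
  have hres : IsCharacter K (fun k : K => ψ k) := Cfsg.Agent.Helper79.isCharacter_restrict hψc K
  have hres1 : (fun k : K => ψ k) 1 ≠ 0 := Cfsg.Agent.Helper3.irr_apply_one_ne_zero hψ
  obtain ⟨θ, hθ, hne⟩ := Cfsg.Agent.Helper75.exists_irr_constituent hres hres1
  have hθc := Cfsg.Agent.Helper15.isChar_of_irr hθ
  obtain ⟨T, hT⟩ : ∃ T, T = Cfsg.Agent.Helper75.inertia K θ := ⟨_, rfl⟩
  have hKT : K ≤ T := by
    rw [hT]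
    exact Cfsg.Agent.Helper75.le_inertia K θ (Cfsg.Agent.Helper79.isCharacter_isClassFunction hθc)
  have hTmem : ∀ g ∈ T, Cfsg.Agent.Helper75.conjFun K g θ = θ := by
    intro g hg
    rw [hT] at hg
    exact hg
  obtain ⟨e, he⟩ : ∃ e : ↥(K.subgroupOf T) ≃* ↥K, e = Subgroup.subgroupOfEquivOfLe hKT :=
    ⟨_, rfl⟩
  have hecoe : ∀ y : ↥(K.subgroupOf T), ((e y : K) : H) = ((y : ↥T) : H) := by
    intro y
    rw [he]
    rfl
  obtain ⟨ϑ', hϑ'⟩ : ∃ ϑ' : ↥(K.subgroupOf T) → ℂ, ϑ' = fun y => θ (e y) := ⟨_, rfl⟩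
  have hϑ'irr : IsIrrCharacter ↥(K.subgroupOf T) ϑ' := by
    rw [hϑ']
    exact (Cfsg.Agent.Helper79.isIrrCharacter_mulEquiv e).2 hθ
  have hNn : (K.subgroupOf T).Normal := inferInstance
  obtain ⟨d, hd⟩ : ∃ d, d = charDegree θ := ⟨_, rfl⟩
  have hθ1 : θ 1 = d := by
    rw [hd]; exact Cfsg.Agent.Helper79.isCharacter_one_eq_charDegree hθc
  have hd1 : ϑ' 1 = d := by
    rw [hϑ']
    show θ (e 1) = d
    rw [map_one]
    exact hθ1
  have hinv : ∀ (g : ↥T) (y : ↥(K.subgroupOf T)),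
      ϑ' ⟨g * y * g⁻¹, hNn.conj_mem (y : ↥T) y.2 g⟩ = ϑ' y := by
    intro g y
    have hg : Cfsg.Agent.Helper75.conjFun K (g : H) θ = θ := hTmem _ g.2
    have h1 := congrFun hg (e y)
    rw [Cfsg.Agent.Helper75.conjFun_apply] at h1
    rw [hϑ']
    show θ (e ⟨g * y * g⁻¹, _⟩) = θ (e y)
    rw [← h1]
    congr 1
    apply Subtype.ext
    show ((e ⟨g * y * g⁻¹, hNn.conj_mem (y : ↥T) y.2 g⟩ : K) : H) =
      (g : H) * ((e y : K) : H) * (g : H)⁻¹
    rw [hecoe, hecoe]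
    rfl
  obtain ⟨b, hb⟩ := hidx
  obtain ⟨c, hc⟩ : ∃ c, (K.subgroupOf T).index = p ^ c := by
    have h1 : (K.subgroupOf T).index ∣ K.index := Subgroup.relIndex_dvd_index_of_normal K T
    rw [hb] at h1
    obtain ⟨c, -, hc⟩ := (Nat.dvd_prime_pow hp.out).1 h1
    exact ⟨c, hc⟩
  have hcardN : Nat.card ↥(K.subgroupOf T) = Nat.card K := Nat.card_congr e.toEquiv
  have hdet : detOrder ϑ' ∣ Nat.card K := by
    rw [← hcardN]
    exact mink_detOrder_dvd_card (Cfsg.Agent.Helper15.isChar_of_irr hϑ'irr)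
  have hdK : d ∣ Nat.card K := by
    rw [hd]; exact Cfsg.Agent.Helper79.isIrrCharacter_charDegree_dvd_card hθ
  have hcop : Nat.Coprime (K.subgroupOf T).index (detOrder ϑ' * d) := by
    rw [hc]
    apply Nat.Coprime.pow_left
    apply Nat.Coprime.mul_right
    · exact (Nat.Coprime.coprime_dvd_left hdet hK).symm
    · exact (Nat.Coprime.coprime_dvd_left hdK hK).symm
  obtain ⟨χh, ⟨hχh, hext, hdetχ⟩, huniq⟩ :=
    Cfsg.Agent.S0867.result (K.subgroupOf T) ϑ' hϑ'irr hinv d hd1 hcop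
  have hχhc := Cfsg.Agent.Helper15.isChar_of_irr hχh
  have hχh1 : χh 1 = d := by
    have := hext 1
    rw [hd1] at this
    exact this
  have hd0 : d ≠ 0 := by
    rintro rfl
    exact Cfsg.Agent.Helper3.irr_apply_one_ne_zero hθ (by rw [hθ1]; simp)
  -- Galois stability on T
  have hgalT : ∀ t : ℕ, Nat.Coprime t (Nat.card T) → t ≡ 1 [MOD Nat.card K] →
      ∀ y : ↥T, χh (y ^ t) = χh y := by
    intro t ht ht1 y
    have hirr' := Cfsg.Agent.Helper75.isIrrCharacter_pow t ht hχh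
    have hext' : ∀ n : ↥(K.subgroupOf T), (fun y : ↥T => χh (y ^ t)) n = ϑ' n := by
      intro n
      show χh ((n : ↥T) ^ t) = ϑ' n
      have h1 : (n ^ t : ↥(K.subgroupOf T)) = n := by
        have h2 : t ≡ 1 [MOD orderOf n] :=
          ht1.of_dvd (by rw [← hcardN]; exact orderOf_dvd_natCard n)
        have h3 := (pow_eq_pow_iff_modEq (x := n)).2 h2
        rwa [pow_one] at h3
      have h4 : (n : ↥T) ^ t = n := by
        have := congrArg Subtype.val h1
        simpa using this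
      rw [h4, hext]
    have hcop' : Nat.Coprime (K.subgroupOf T).index (detOrder (fun y : ↥T => χh (y ^ t))) := by
      apply Nat.Coprime.coprime_dvd_right (mink_detOrder_pow_dvd t ht hχhc)
      rw [hdetχ]
      exact Nat.Coprime.coprime_mul_right_right hcop
    have := huniq _ hirr' hext' hcop'
    exact congrFun this y
  let _ : Fintype (H ⧸ Cfsg.Agent.Helper75.inertia K θ) := Fintype.ofFinite _
  obtain ⟨e', F, he', hF, hsum⟩ := mink_clifford_sum K hψ hθ hne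
  have hF1 : ∀ q, F q 1 = d := by
    intro q
    obtain ⟨g, hg⟩ := hF q
    rw [hg, Cfsg.Agent.Helper75.conjFun_apply, ← hθ1]
    congr 1
    apply Subtype.ext
    simp
  refine ⟨indFun T χh, Cfsg.Agent.Helper3.isCharacter_indFun T χh hχhc, ?_, ?_, ?_⟩
  · -- degree
    have hΞ1 : indFun T χh 1 = ((T.index * d : ℕ) : ℂ) := by
      rw [Cfsg.Agent.Helper75.indFun_one, hχh1]
      have h1 := T.card_mul_index
      have h2 : (Nat.card T : ℂ) ≠ 0 := by exact_mod_cast (Nat.card_pos (α := T)).ne'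
      rw [← h1]
      push_cast
      field_simp
    have hdegΞ : charDegree (indFun T χh) = T.index * d := by
      have := Cfsg.Agent.Helper79.isCharacter_one_eq_charDegree
        (Cfsg.Agent.Helper3.isCharacter_indFun T χh hχhc)
      rw [hΞ1] at this
      exact_mod_cast this.symm
    have hψ1 : ψ 1 = ((e' * (T.index * d) : ℕ) : ℂ) := by
      have h1 := hsum 1
      rw [Finset.sum_congr rfl (fun q _ => hF1 q), Finset.sum_const, Finset.card_univ,
        nsmul_eq_mul] at h1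
      have h2 : Fintype.card (H ⧸ Cfsg.Agent.Helper75.inertia K θ) = T.index := by
        rw [hT, Subgroup.index, Nat.card_eq_fintype_card]
      rw [h2] at h1
      have h3 : ψ ((1 : K) : H) = ψ 1 := rfl
      rw [h3] at h1
      rw [h1]
      push_cast
      ring
    have hdegψ : charDegree ψ = e' * (T.index * d) := by
      have := Cfsg.Agent.Helper79.isCharacter_one_eq_charDegree hψc
      rw [hψ1] at this
      exact_mod_cast this.symm
    rw [hdegΞ, hdegψ]
    exact Nat.le_mul_of_pos_left _ (Nat.pos_of_ne_zero he')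
  · -- Galois stability
    intro h t ht ht1
    have hextpow : ∀ y : H, extendByZero T χh (y ^ t) = extendByZero T χh y := by
      intro y
      by_cases hy : y ∈ T
      · rw [Cfsg.Agent.Helper3.extendByZero_of_mem T χh (T.pow_mem hy t),
          Cfsg.Agent.Helper3.extendByZero_of_mem T χh hy]
        exact hgalT t (ht.coprime_dvd_right (Subgroup.card_subgroup_dvd_card T)) ht1 ⟨y, hy⟩
      · have hy' : y ^ t ∉ T := by
          intro h'
          obtain ⟨m, hm⟩ := exists_pow_eq_self_of_coprime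
            (ht.coprime_dvd_right (orderOf_dvd_natCard y))
          exact hy (hm ▸ T.pow_mem h' m)
        rw [Cfsg.Agent.Helper3.extendByZero_of_not_mem T χh hy',
          Cfsg.Agent.Helper3.extendByZero_of_not_mem T χh hy]
    unfold indFun
    congr 1
    apply Finset.sum_congr rfl
    intro g _
    have hconj : g⁻¹ * h ^ t * g = (g⁻¹ * h * g) ^ t := by
      have := conj_pow (a := g⁻¹) (b := h) (i := t)
      simp only [inv_inv] at this
      exact this.symm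
    rw [hconj]
    exact hextpow _
  · -- kernel
    intro x hx k hk
    have hcK : x * k * x⁻¹ * k⁻¹ ∈ K := K.mul_mem (hKn.conj_mem k hk x) (K.inv_mem hk)
    have h1 := hsum ⟨x * k * x⁻¹ * k⁻¹, hcK⟩
    have h2 := hsum 1
    have h3 : ψ ((1 : K) : H) = ψ 1 := rfl
    rw [h3] at h2
    show ψ (x * k * x⁻¹ * k⁻¹) = ψ 1
    have h4 : ψ (((⟨x * k * x⁻¹ * k⁻¹, hcK⟩ : K) : H)) = ψ (x * k * x⁻¹ * k⁻¹) := rfl
    rw [← h4, h1, h2]
    congr 1
    apply Finset.sum_congr rfl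
    intro q _
    rw [hF1 q]
    obtain ⟨g, hg⟩ := hF q
    rw [hg, Cfsg.Agent.Helper75.conjFun_apply]
    -- the conjugate of x by g
    have hχh1' : χh 1 ≠ 0 := by rw [hχh1]; exact_mod_cast hd0
    obtain ⟨hmem, hval⟩ := mink_ind_ker T hχhc hχh1' x hx g⁻¹
    simp only [inv_inv] at hmem hval
    obtain ⟨n', ρ', hρ'⟩ := id hχhc
    have hker : (⟨g * x * g⁻¹, hmem⟩ : ↥T) ∈ MonoidHom.ker ρ' := by
      rw [MonoidHom.mem_ker]
      apply (Cfsg.Agent.Helper80.rep_char_eq_one_iff ρ' _).1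
      rw [hρ']
      exact hval
    have hk'K : g * k * g⁻¹ ∈ K := hKn.conj_mem k hk g
    have hkerN : (MonoidHom.ker ρ').Normal := MonoidHom.normal_ker ρ'
    have hw : (⟨g * x * g⁻¹, hmem⟩ : ↥T) * ⟨g * k * g⁻¹, hKT hk'K⟩ *
        (⟨g * x * g⁻¹, hmem⟩ : ↥T)⁻¹ * (⟨g * k * g⁻¹, hKT hk'K⟩ : ↥T)⁻¹ ∈ MonoidHom.ker ρ' := by
      have h5 := hkerN.conj_mem _ ((MonoidHom.ker ρ').inv_mem hker) ⟨g * k * g⁻¹, hKT hk'K⟩
      have h6 := (MonoidHom.ker ρ').mul_mem hker h5
      have h7 : (⟨g * x * g⁻¹, hmem⟩ : ↥T) * ⟨g * k * g⁻¹, hKT hk'K⟩ *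
          (⟨g * x * g⁻¹, hmem⟩ : ↥T)⁻¹ * (⟨g * k * g⁻¹, hKT hk'K⟩ : ↥T)⁻¹ =
          (⟨g * x * g⁻¹, hmem⟩ : ↥T) * ((⟨g * k * g⁻¹, hKT hk'K⟩ : ↥T) *
            (⟨g * x * g⁻¹, hmem⟩ : ↥T)⁻¹ * (⟨g * k * g⁻¹, hKT hk'K⟩ : ↥T)⁻¹) := by
        group
      rw [h7]
      exact h6
    obtain ⟨w, hwdef⟩ : ∃ w : ↥T, w = (⟨g * x * g⁻¹, hmem⟩ : ↥T) * ⟨g * k * g⁻¹, hKT hk'K⟩ *
        (⟨g * x * g⁻¹, hmem⟩ : ↥T)⁻¹ * (⟨g * k * g⁻¹, hKT hk'K⟩ : ↥T)⁻¹ := ⟨_, rfl⟩
    rw [← hwdef] at hw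
    have hwval : (w : H) = g * (x * k * x⁻¹ * k⁻¹) * g⁻¹ := by
      rw [hwdef]
      simp only [Subgroup.coe_mul, Subgroup.coe_inv]
      group
    have hχw : χh w = χh 1 := by
      rw [← hρ']
      exact (Cfsg.Agent.Helper80.rep_char_eq_one_iff ρ' w).2 (MonoidHom.mem_ker.1 hw)
    have hwK : w ∈ K.subgroupOf T := by
      rw [Subgroup.mem_subgroupOf, hwval]
      exact hKn.conj_mem _ hcK g
    have h8 := hext ⟨w, hwK⟩
    rw [hϑ'] at h8
    have h9 : χh ((⟨w, hwK⟩ : ↥(K.subgroupOf T)) : ↥T) = χh w := rfl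
    rw [h9, hχw, hχh1] at h8
    rw [h8]
    congr 1
    apply Subtype.ext
    show g * (x * k * x⁻¹ * k⁻¹) * g⁻¹ = ((e ⟨w, hwK⟩ : K) : H)
    rw [hecoe]
    exact hwval.symm

end Cfsg.Agent.Helper76
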