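import Mathlib
import Cfsg.Prelude.Def_Characters
import Cfsg.Prelude.Def_Blocks
import Cfsg.Agent.Helper76.MinkA
import Cfsg.Agent.Helper76.MinkB
import Cfsg.Agent.Helper76.MinkC

/-!
# The bound for a `p`-group acting on a `p'`-group with a character (helper76)

`mink_cmod_bound`: `K ⊴ H` a `p'`-group of `p`-power index, `P ≤ H` a `p`-subgroup, `ψ` a
character of `H` of degree `n`, `D` the centralizer of `K` modulo `ker ψ`.  Then
`|P : P ∩ D| = p ^ c` divides `(n + n/(p-1))!`.
-/

set_option autoImplicit false

namespace Cfsg.Agent.Helper76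

open Cfsg

universe u

theorem mink_zero_of_degree_zero {H : Type*} [Group H] [Finite H] {ψ : H → ℂ}
    (hψ : IsCharacter H ψ) (h0 : charDegree ψ = 0) (x : H) : ψ x = 0 := by
  have := Cfsg.Agent.Helper80.isCharacter_norm_le hψ x
  rw [h0] at this
  simpa using this

theorem mink_cmod_bound (p : ℕ) [hp : Fact p.Prime] (n : ℕ) :
    ∀ (H : Type u) [Group H] [Finite H] (K : Subgroup H) [K.Normal],
      (Nat.card K).Coprime p → (∃ b, K.index = p ^ b) → ∀ (P : Subgroup H), IsPGroup p P →
      ∀ (ψ : H → ℂ), IsCharacter H ψ → charDegree ψ = n → ∀ D : Subgroup H,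
      (∀ x : H, x ∈ D ↔ ∀ k ∈ K, ψ (x * k * x⁻¹ * k⁻¹) = ψ 1) →
      ∃ c, D.relIndex P = p ^ c ∧ p ^ c ∣ (n + n / (p - 1)).factorial := by
  induction n using Nat.strong_induction_on with
  | _ n ih =>
    intro H _ _ K _ hK hidx P hP ψ hψ hdeg D hD
    classical
    let _ : Fintype H := Fintype.ofFinite H
    obtain ⟨c, hc⟩ : ∃ c, D.relIndex P = p ^ c := IsPGroup.index hP (D.subgroupOf P)
    refine ⟨c, hc, ?_⟩
    have hψ1 : ψ 1 = (n : ℂ) := by
      rw [← hdeg]; exact Cfsg.Agent.Helper79.isCharacter_one_eq_charDegree hψ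
    by_cases h0 : n = 0
    · have hall : ∀ x : H, ψ x = 0 := mink_zero_of_degree_zero hψ (hdeg.trans h0)
      have hDtop : D = ⊤ := by
        ext x
        simp [hD, hall]
      rw [hDtop, Subgroup.relIndex_top_left] at hc
      have hc0 : c = 0 := by
        by_contra hne
        have := Nat.one_lt_pow hne hp.out.one_lt
        omega
      rw [hc0]
      simp
    · have hψ10 : ψ 1 ≠ 0 := by
        rw [hψ1]
        exact_mod_cast h0
      obtain ⟨θ, hθ, hne⟩ := Cfsg.Agent.Helper75.exists_irr_constituent hψ hψ10
      have hθc := Cfsg.Agent.Helper15.isChar_of_irr hθ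
      have hψ' : IsCharacter H (ψ - θ) := mink_sub_irr hψ hθ hne
      obtain ⟨a, ha⟩ : ∃ a, a = charDegree θ := ⟨_, rfl⟩
      obtain ⟨b, hb⟩ : ∃ b, b = charDegree (ψ - θ) := ⟨_, rfl⟩
      have hθ1 : θ 1 = (a : ℂ) := by
        rw [ha]; exact Cfsg.Agent.Helper79.isCharacter_one_eq_charDegree hθc
      have hψ'1 : (ψ - θ) 1 = (b : ℂ) := by
        rw [hb]; exact Cfsg.Agent.Helper79.isCharacter_one_eq_charDegree hψ'
      have hab : a + b = n := by
        have : ((a + b : ℕ) : ℂ) = (n : ℂ) := by
          push_cast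
          rw [← hθ1, ← hψ'1, ← hψ1]
          simp
        exact_mod_cast this
      have ha0 : a ≠ 0 := by
        rintro rfl
        exact Cfsg.Agent.Helper3.irr_apply_one_ne_zero hθ (by rw [hθ1]; simp)
      by_cases hb0 : b = 0
      · -- ψ = θ is irreducible
        have hzero : ∀ x, (ψ - θ) x = 0 := mink_zero_of_degree_zero hψ' (hb.symm.trans hb0)
        have hψθ : ψ = θ := by
          funext x
          have := hzero x
          rw [Pi.sub_apply, sub_eq_zero] at this
          exact this
        have hψirr : IsIrrCharacter H ψ := hψθ ▸ hθ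
        obtain ⟨Ξ, hΞ, hΞdeg, hΞgal, hΞker⟩ := mink_irr p K hK hidx hψirr
        have hΞP : IsCharacter P (fun x : P => Ξ x) :=
          Cfsg.Agent.Helper79.isCharacter_restrict hΞ P
        obtain ⟨b', hb'⟩ := hidx
        have hcardH : Nat.card H = Nat.card K * p ^ b' := by
          rw [← hb']; exact K.card_mul_index.symm
        have hgalP : ∀ (x : P) (t : ℕ), Nat.Coprime t p →
            (fun x : P => Ξ x) (x ^ t) = (fun x : P => Ξ x) x := by
          intro x t ht
          show Ξ ((x ^ t : P) : H) = Ξ x
          rw [Subgroup.coe_pow]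
          have hcop : Nat.Coprime (p ^ b') (Nat.card K) := Nat.Coprime.pow_left _ hK.symm
          obtain ⟨t', ht'1, ht'2⟩ := Nat.chineseRemainder hcop t 1
          have hord : orderOf (x : H) ∣ p ^ b' := by
            obtain ⟨j, hj⟩ := hP x
            have hj' : (x : H) ^ p ^ j = 1 := by
              have := congrArg Subtype.val hj
              simpa using this
            obtain ⟨i, -, hi⟩ := (Nat.dvd_prime_pow hp.out).1 (orderOf_dvd_of_pow_eq_one hj')
            have h1 : orderOf (x : H) ∣ Nat.card K * p ^ b' := by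
              rw [← hcardH]; exact orderOf_dvd_natCard _
            have h2 : Nat.Coprime (orderOf (x : H)) (Nat.card K) := by
              rw [hi]; exact Nat.Coprime.pow_left _ hK.symm
            exact h2.dvd_of_dvd_mul_left h1
          have hpow : (x : H) ^ t = (x : H) ^ t' :=
            pow_eq_pow_iff_modEq.2 ((ht'1.of_dvd hord).symm)
          rw [hpow]
          apply hΞgal
          · rw [hcardH]
            apply Nat.Coprime.mul_right
            · have := ht'2.gcd_eq
              rw [Nat.gcd_one_left] at this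
              exact this
            · have h3 := ht'1.gcd_eq
              have h4 : Nat.Coprime t (p ^ b') := Nat.Coprime.pow_right _ ht
              rw [Nat.Coprime, ← h3] at h4
              exact h4
          · exact ht'2
        have hA := mink_schur p hP hΞP hgalP (D.subgroupOf P) (by
          intro x hx
          rw [Subgroup.mem_subgroupOf, hD]
          exact hΞker x hx)
        have hdegP : charDegree (fun x : P => Ξ x) = charDegree Ξ := rfl
        rw [hdegP] at hA
        have h5 : D.relIndex P ∣ (n + n / (p - 1)).factorial :=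
          hA.trans (Nat.factorial_dvd_factorial (mink_N_mono p (hΞdeg.trans_eq hdeg)))
        rw [hc] at h5
        exact h5
      · obtain ⟨D₁, hD₁⟩ := mink_exists_cmod hθc K
        obtain ⟨D₂, hD₂⟩ := mink_exists_cmod hψ' K
        obtain ⟨c₁, hc₁, hdvd₁⟩ := ih a (by omega) H K hK hidx P hP θ hθc ha.symm D₁ hD₁
        obtain ⟨c₂, hc₂, hdvd₂⟩ := ih b (by omega) H K hK hidx P hP (ψ - θ) hψ' hb.symm D₂ hD₂
        have hle : D₁ ⊓ D₂ ≤ D := by
          intro x hx
          rw [hD]
          intro k hk
          have e1 := (hD₁ x).1 hx.1 k hk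
          have e2 := (hD₂ x).1 hx.2 k hk
          rw [Pi.sub_apply, Pi.sub_apply] at e2
          rw [e1] at e2
          linear_combination e2
        have h3 : D.relIndex P ∣ (D₁ ⊓ D₂).relIndex P := Subgroup.relIndex_dvd_of_le_left P hle
        have h4 : (D₁ ⊓ D₂).relIndex P ≤ D₁.relIndex P * D₂.relIndex P :=
          Subgroup.relIndex_inf_le
        have hpos : 0 < (D₁ ⊓ D₂).relIndex P :=
          Nat.pos_of_ne_zero Subgroup.index_ne_zero_of_finite
        have h5 : p ^ c ≤ p ^ (c₁ + c₂) := by
          rw [pow_add, ← hc, ← hc₁, ← hc₂]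
          exact (Nat.le_of_dvd hpos h3).trans h4
        have h6 : c ≤ c₁ + c₂ := (Nat.pow_le_pow_iff_right hp.out.one_lt).1 h5
        have h7 : p ^ (c₁ + c₂) ∣
            (a + a / (p - 1)).factorial * (b + b / (p - 1)).factorial := by
          rw [pow_add]; exact Nat.mul_dvd_mul hdvd₁ hdvd₂
        have h8 := Nat.factorial_mul_factorial_dvd_factorial_add
          (a + a / (p - 1)) (b + b / (p - 1))
        have h9 : ((a + a / (p - 1)) + (b + b / (p - 1))).factorial ∣
            (n + n / (p - 1)).factorial :=
          Nat.factorial_dvd_factorial (by rw [← hab]; exact mink_N_add p a b)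
        exact (pow_dvd_pow p h6).trans (h7.trans (h8.trans h9))

end Cfsg.Agent.Helper76
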