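import Mathlib
import Cfsg.Prelude.Def_Characters
import Cfsg.Prelude.Def_Blocks
import Cfsg.Prelude.Def_Local
import Cfsg.Prelude.Def_Solvable
import Cfsg.Agent.Helper76.MinkA
import Cfsg.Agent.Helper76.MinkB
import Cfsg.Agent.Helper76.MinkC
import Cfsg.Agent.Helper76.MinkD
import Cfsg.Agent.Helper76.PSolvable
import Cfsg.Agent.Helper76.PQMin
import Cfsg.Agent.Helper32.PSolvable
import Cfsg.Agent.Helper32.PPrime
import Cfsg.Agent.Helper32.PConstrained
import Cfsg.Agent.Helper32.HallHigman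
import Cfsg.Agent.Helper35.SZ
import Cfsg.Agent.Helper63.HHPSol

/-!
# `p`-solvable linear groups: `|G : O_p(G)|_p` is bounded by the Minkowski number (helper76)

* `mink_struct`: in a `p`-solvable group there are a `p'`-subgroup `K` and a `p`-subgroup `P₁`
  normalizing `K` with `C_{P₁}(K) ≤ O_p(G)` and `|P₁ : P₁ ∩ O_p(G)| = |G : O_p(G)|_p`
  (Schur–Zassenhaus, Frattini argument, dual Hall–Higman).
* `mink_main`: the bound.
-/

set_option autoImplicit false

namespace Cfsg.Agent.Helper76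

open Cfsg
open scoped Pointwise

universe u

theorem mink_struct_aux {G : Type u} [Group G] [Finite G] (p : ℕ) [hp : Fact p.Prime]
    (U : Subgroup G) [hUn : U.Normal] (hUp : IsPGroup p U)
    (hQsolv : IsPSolvable p (G ⧸ U)) (hQ : pCore p (G ⧸ U) = ⊥) :
    ∃ (K P₁ : Subgroup G), (Nat.card K).Coprime p ∧ IsPGroup p P₁ ∧
      P₁ ≤ Subgroup.normalizer (K : Set G) ∧
      (∀ x ∈ P₁, (∀ k ∈ K, x * k = k * x) → x ∈ U) ∧
      ∃ m, U.index = U.relIndex P₁ * m ∧ ¬ p ∣ m := by
  classical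
  have hLcent0 := Cfsg.Agent.Helper63.HHP.centralizer_pPrimeCore_le hQsolv hQ
  have hLcop0 := Cfsg.Agent.Helper32.card_pPrimeCore_coprime' p (G ⧸ U)
  have hLn0 : (pPrimeCore p (G ⧸ U)).Normal := pPrimeCore_normal
  obtain ⟨L, hL⟩ : ∃ L, L = pPrimeCore p (G ⧸ U) := ⟨_, rfl⟩
  rw [← hL] at hLcent0 hLcop0 hLn0
  obtain ⟨M, hM⟩ : ∃ M, M = L.comap (QuotientGroup.mk' U) := ⟨_, rfl⟩
  have hMn : M.Normal := by
    rw [hM]
    infer_instance
  have hMmem : ∀ x, x ∈ M ↔ QuotientGroup.mk' U x ∈ L := by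
    intro x
    rw [hM, Subgroup.mem_comap]
  have hUM : U ≤ M := by
    intro x hx
    rw [hMmem]
    have : QuotientGroup.mk' U x = 1 := (QuotientGroup.eq_one_iff x).2 hx
    rw [this]
    exact L.one_mem
  have hcardM : Nat.card M = Nat.card U * Nat.card L := by
    rw [hM]
    exact Cfsg.Agent.Helper32.card_comap_mk' U L
  have hcardU' : Nat.card (U.subgroupOf M) = Nat.card U :=
    Cfsg.Agent.Helper35.card_subgroupOf_of_le hUM
  have hidxU' : (U.subgroupOf M).index = Nat.card L := by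
    have h1 := (U.subgroupOf M).card_mul_index
    rw [hcardU', hcardM] at h1
    exact Nat.eq_of_mul_eq_mul_left Nat.card_pos h1
  obtain ⟨a, ha⟩ := (IsPGroup.iff_card).1 hUp
  have hcop' : Nat.Coprime (Nat.card (U.subgroupOf M)) (U.subgroupOf M).index := by
    rw [hcardU', hidxU', ha]
    exact Nat.Coprime.pow_left a hLcop0.symm
  obtain ⟨K', hK'⟩ := Subgroup.exists_right_complement'_of_coprime hcop'
  obtain ⟨K, hKdef⟩ : ∃ K : Subgroup G, K = K'.map M.subtype := ⟨_, rfl⟩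
  have hKM : K ≤ M := by
    rw [hKdef]
    exact Subgroup.map_subtype_le K'
  have hKcard : Nat.card K = Nat.card L := by
    rw [hKdef, Subgroup.card_map_of_injective M.subtype_injective, ← hidxU']
    exact (Cfsg.Agent.Helper35.index_eq_card_of_isComplement' hK').symm
  have hKcop : (Nat.card K).Coprime p := by
    rw [hKcard]
    exact hLcop0
  have hUK : U ⊓ K = ⊥ := by
    rw [eq_bot_iff]
    rintro x ⟨hxU, hxK⟩
    rw [hKdef] at hxK
    obtain ⟨y, hy, rfl⟩ := hxK
    have h1 : y ∈ U.subgroupOf M ⊓ K' := ⟨hxU, hy⟩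
    rw [Cfsg.Agent.Helper35.inf_eq_bot_of_isComplement' hK', Subgroup.mem_bot] at h1
    rw [h1]
    simp
  have hMdecomp : ∀ l ∈ M, ∃ u ∈ U, ∃ k ∈ K, l = u * k := by
    intro l hl
    obtain ⟨n, hn, x, hx, hnx⟩ := Cfsg.Agent.Helper35.exists_mul_of_isComplement' hK' ⟨l, hl⟩
    refine ⟨(n : G), hn, (x : G), ?_, ?_⟩
    · rw [hKdef]
      exact Subgroup.mem_map_of_mem M.subtype hx
    · have := congrArg Subtype.val hnx
      simpa using this
  have hMnorm : M ≤ Subgroup.normalizer (U : Set G) := by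
    rw [Subgroup.normalizer_eq_top_iff.mpr hUn]
    exact le_top
  have hcompl : ∀ g : G, ((U.subgroupOf M).IsComplement' ((MulAut.conj g • K).subgroupOf M)) ∧
      MulAut.conj g • K ≤ M := by
    intro g
    have hle : MulAut.conj g • K ≤ M := by
      intro x hx
      rw [Cfsg.Agent.Helper35.mem_conj_smul] at hx
      have h1 := hMn.conj_mem _ (hKM hx) g
      have h2 : g * (g⁻¹ * x * g) * g⁻¹ = x := by group
      rw [h2] at h1
      exact h1
    refine ⟨Cfsg.Agent.Helper35.isComplement'_subgroupOf hUM hMnorm hle ?_ ?_, hle⟩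
    · rw [eq_bot_iff]
      rintro x ⟨hxU0, hxK0⟩
      have hxU : x ∈ U := hxU0
      have hxK : x ∈ MulAut.conj g • K := hxK0
      rw [Cfsg.Agent.Helper35.mem_conj_smul] at hxK
      have h1 : g⁻¹ * x * g ∈ U := by
        have := hUn.conj_mem x hxU g⁻¹
        simpa using this
      have h3 : g⁻¹ * x * g ∈ U ⊓ K := ⟨h1, hxK⟩
      rw [hUK, Subgroup.mem_bot] at h3
      rw [Subgroup.mem_bot]
      have h2 : x = g * (g⁻¹ * x * g) * g⁻¹ := by group
      rw [h2, h3]
      group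
    · intro l hl
      have hl' : g⁻¹ * l * g ∈ M := by
        have := hMn.conj_mem l hl g⁻¹
        simpa using this
      obtain ⟨u, hu, k, hk, hlk⟩ := hMdecomp _ hl'
      refine ⟨g * u * g⁻¹, hUn.conj_mem u hu g, g * k * g⁻¹,
        Cfsg.Agent.Helper35.conj_mem_conj_smul hk, ?_⟩
      have h2 : l = g * (g⁻¹ * l * g) * g⁻¹ := by group
      rw [h2, hlk]
      group
  have hsolvU' : Group.IsSolvable ↥(U.subgroupOf M) := by
    have hp' : IsPGroup p ↥(U.subgroupOf M) := hUp.comap_subtype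
    have := hp'.isNilpotent
    infer_instance
  have hfrat : ∀ g : G, ∃ u ∈ U, u⁻¹ * g ∈ Subgroup.normalizer (K : Set G) := by
    intro g
    have h1 := (hcompl 1).1
    have hone : MulAut.conj (1 : G) • K = K := by simp
    rw [hone] at h1
    obtain ⟨hg1, hg2⟩ := hcompl g
    obtain ⟨n, hn, hconj⟩ := Cfsg.Agent.Helper35.sz_conj (U.subgroupOf M) hcop'
      (Or.inl hsolvU') _ _ h1 hg1
    have h2 := Cfsg.Agent.Helper35.conj_smul_eq_of_subgroupOf hKM hg2 n hconj
    refine ⟨(n : G), hn, ?_⟩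
    rw [Cfsg.Agent.Helper35.mem_normalizer_iff_conj_smul_eq,
      ← Cfsg.Agent.Helper35.conj_smul_conj_smul, ← h2,
      Cfsg.Agent.Helper35.conj_smul_conj_smul, inv_mul_cancel]
    simp
  obtain ⟨N, hN⟩ : ∃ N, N = Subgroup.normalizer (K : Set G) := ⟨_, rfl⟩
  have hUN : N ⊔ U = ⊤ := by
    rw [eq_top_iff]
    intro g _
    obtain ⟨u, hu, hg⟩ := hfrat g
    have h1 : g = u * (u⁻¹ * g) := by group
    rw [h1]
    exact Subgroup.mul_mem _ (Subgroup.mem_sup_right hu) (Subgroup.mem_sup_left (hN ▸ hg))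
  obtain ⟨PN⟩ : Nonempty (Sylow p ↥N) := inferInstance
  obtain ⟨P₁, hP₁⟩ : ∃ P₁ : Subgroup G, P₁ = (PN : Subgroup ↥N).map N.subtype := ⟨_, rfl⟩
  have hP₁N : P₁ ≤ N := by
    rw [hP₁]
    exact Subgroup.map_subtype_le _
  have hP₁p : IsPGroup p P₁ := by
    rw [hP₁]
    exact PN.isPGroup'.map N.subtype
  have hUNP : U ⊓ N ≤ P₁ := by
    rintro x ⟨hxU, hxN⟩
    have hnp : IsPGroup p ↥(U.subgroupOf N) := hUp.comap_subtype
    have hmem : (⟨x, hxN⟩ : ↥N) ∈ U.subgroupOf N := hxU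
    have := normal_le_sylow hnp PN hmem
    rw [hP₁]
    exact ⟨⟨x, hxN⟩, this, rfl⟩
  refine ⟨K, P₁, hKcop, hP₁p, hN ▸ hP₁N, ?_, ?_⟩
  · intro x hx hcent
    have hπx : QuotientGroup.mk' U x ∈ Subgroup.centralizer (L : Set (G ⧸ U)) := by
      rw [Subgroup.mem_centralizer_iff]
      intro l hl
      obtain ⟨m, rfl⟩ := QuotientGroup.mk'_surjective U l
      have hmM : m ∈ M := (hMmem m).2 hl
      obtain ⟨u, hu, k, hk, rfl⟩ := hMdecomp m hmM
      have hu1 : QuotientGroup.mk' U u = 1 := (QuotientGroup.eq_one_iff u).2 hu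
      rw [map_mul, hu1, one_mul, ← map_mul, ← map_mul, hcent k hk]
    have hπL := hLcent0 hπx
    obtain ⟨j, hj⟩ := hP₁p ⟨x, hx⟩
    have hj' : x ^ p ^ j = 1 := by
      have := congrArg Subtype.val hj
      simpa using this
    have h1 : (QuotientGroup.mk' U x) ^ p ^ j = 1 := by rw [← map_pow, hj', map_one]
    have h2 : (QuotientGroup.mk' U x) ^ Nat.card L = 1 := by
      have : (⟨_, hπL⟩ : L) ^ Nat.card L = 1 := pow_card_eq_one'
      exact congrArg Subtype.val this
    have h3 := Cfsg.Agent.Helper32.eq_one_of_pow_coprime h1 h2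
      (Nat.Coprime.pow_left j hLcop0.symm)
    exact (QuotientGroup.eq_one_iff x).1 h3
  · refine ⟨P₁.relIndex N, ?_, ?_⟩
    · have h1 : U.index = U.relIndex N := by
        have := Subgroup.relIndex_sup_right (H := N) (K := U)
        rw [hUN, Subgroup.relIndex_top_right] at this
        exact this
      have h2 : (U ⊓ N).relIndex P₁ * P₁.relIndex N = (U ⊓ N).relIndex N :=
        Subgroup.relIndex_mul_relIndex _ _ _ hUNP hP₁N
      have h3 : (U ⊓ N).relIndex N = U.relIndex N := Subgroup.inf_relIndex_right U N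
      have h4 : (U ⊓ N).relIndex P₁ = U.relIndex P₁ := by
        rw [← Subgroup.inf_relIndex_right (U ⊓ N) P₁, ← Subgroup.inf_relIndex_right U P₁,
          inf_assoc, inf_eq_right.2 hP₁N]
      rw [h1, ← h3, ← h2, h4]
    · have h5 : P₁.subgroupOf N = (PN : Subgroup ↥N) := by
        rw [hP₁]
        exact Subgroup.comap_map_eq_self_of_injective N.subtype_injective _
      have h6 : P₁.relIndex N = (PN : Subgroup ↥N).index := by
        rw [Subgroup.relIndex, h5]
      rw [h6]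
      exact PN.not_dvd_index

theorem mink_struct {G : Type u} [Group G] [Finite G] (p : ℕ) [hp : Fact p.Prime]
    (hsolv : IsPSolvable p G) :
    ∃ (K P₁ : Subgroup G), (Nat.card K).Coprime p ∧ IsPGroup p P₁ ∧
      P₁ ≤ Subgroup.normalizer (K : Set G) ∧
      (∀ x ∈ P₁, (∀ k ∈ K, x * k = k * x) → x ∈ pCore p G) ∧
      ∃ m, (pCore p G).index = (pCore p G).relIndex P₁ * m ∧ ¬ p ∣ m := by
  have hUn : (pCore p G).Normal := pCore_normal
  exact mink_struct_aux p (pCore p G) pCore_isPGroup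
    (Cfsg.Agent.Helper32.isPSolvable_quotient hp.out hsolv (pCore p G))
    (Cfsg.Agent.Helper63.HHP.pCore_quotient_pCore_eq_bot p)

/-- **`p`-solvable linear groups**: for a `p`-solvable group with a faithful character of degree
`n`, the exponent of `p` in `|G : O_p(G)|` is at most `∑ i, ⌊n / ((p-1) p^i)⌋`. -/
theorem mink_main {G : Type u} [Group G] [Finite G] (χ : G → ℂ) (hχ : IsCharacter G χ)
    (hfaith : ∀ g : G, χ g = χ 1 → g = 1) (n : ℕ) (hn : charDegree χ = n) (p : ℕ)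
    (hp : p.Prime) (hsolv : IsPSolvable p G) :
    ((pCore p G).index).factorization p ≤
      ∑ i ∈ Finset.range (n + 1), n / ((p - 1) * p ^ i) := by
  have _ : Fact p.Prime := ⟨hp⟩
  obtain ⟨K, P₁, hKcop, hP₁p, hP₁K, hcent, m, hm, hpm⟩ := mink_struct p hsolv
  obtain ⟨H, hH⟩ : ∃ H : Subgroup G, H = K ⊔ P₁ := ⟨_, rfl⟩
  have hKH : K ≤ H := hH ▸ le_sup_left
  have hPH : P₁ ≤ H := hH ▸ le_sup_right
  have hHnorm : H ≤ Subgroup.normalizer (K : Set G) := by
    rw [hH]
    exact sup_le Subgroup.le_normalizer hP₁K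
  have hK'n : (K.subgroupOf H).Normal :=
    (Subgroup.normal_subgroupOf_iff_le_normalizer hKH).2 hHnorm
  have hK'cop : (Nat.card (K.subgroupOf H)).Coprime p := by
    rw [Cfsg.Agent.Helper35.card_subgroupOf_of_le hKH]
    exact hKcop
  have hP'p : IsPGroup p (P₁.subgroupOf H) := hP₁p.comap_subtype
  have hsup : P₁.subgroupOf H ⊔ K.subgroupOf H = ⊤ := by
    rw [← Subgroup.subgroupOf_sup hPH hKH, sup_comm, ← hH, Subgroup.subgroupOf_self]
  have hidx : ∃ b, (K.subgroupOf H).index = p ^ b := by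
    have h1 := Subgroup.relIndex_sup_right (H := P₁.subgroupOf H) (K := K.subgroupOf H)
    rw [hsup, Subgroup.relIndex_top_right] at h1
    rw [h1]
    exact IsPGroup.index hP'p ((K.subgroupOf H).subgroupOf (P₁.subgroupOf H))
  have hψ : IsCharacter ↥H (fun x : H => χ x) := Cfsg.Agent.Helper79.isCharacter_restrict hχ H
  obtain ⟨D, hD⟩ := mink_exists_cmod hψ (K.subgroupOf H)
  obtain ⟨c, hc, hdvd⟩ := mink_cmod_bound p n ↥H (K.subgroupOf H) hK'cop hidx
    (P₁.subgroupOf H) hP'p _ hψ hn D hD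
  have hDle : D ⊓ P₁.subgroupOf H ≤ (pCore p G).subgroupOf H := by
    rintro x ⟨hxD, hxP⟩
    rw [Subgroup.mem_subgroupOf]
    apply hcent (x : G) hxP
    intro k hk
    have hk' : (⟨k, hKH hk⟩ : H) ∈ K.subgroupOf H := hk
    have h1 := (hD x).1 hxD ⟨k, hKH hk⟩ hk'
    have h2 := hfaith _ h1
    have h3 : (x : G) * k * (x : G)⁻¹ * k⁻¹ = 1 := by simpa using h2
    calc (x : G) * k = ((x : G) * k * (x : G)⁻¹ * k⁻¹) * (k * x) := by group
      _ = k * x := by rw [h3, one_mul]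
  have h6 : ((pCore p G).subgroupOf H).relIndex (P₁.subgroupOf H) ∣ p ^ c := by
    rw [← hc, ← Subgroup.inf_relIndex_right D (P₁.subgroupOf H)]
    exact Subgroup.relIndex_dvd_of_le_left _ hDle
  rw [Subgroup.relIndex_subgroupOf hPH] at h6
  obtain ⟨c', hc'le, hc'⟩ := (Nat.dvd_prime_pow hp).1 h6
  have hm0 : m ≠ 0 := by
    rintro rfl
    rw [mul_zero] at hm
    exact Subgroup.index_ne_zero_of_finite hm
  have hfac : ((pCore p G).index).factorization p = c' := by
    rw [hm, hc', Nat.factorization_mul (pow_ne_zero _ hp.ne_zero) hm0,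
      Nat.Prime.factorization_pow hp]
    simp [Nat.factorization_eq_zero_of_not_dvd hpm]
  rw [hfac, ← mink_factorization p hp n]
  exact hc'le.trans ((hp.pow_dvd_iff_le_factorization (Nat.factorial_ne_zero _)).1 hdvd)

end Cfsg.Agent.Helper76
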