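-- helper76: piece C6 of CALL S5874 (helper95): a class-two normal subgroup of isometries with
-- scalar squares forces plus type.
import Mathlib
import Cfsg.Prelude.Def_GeometricClasses
import Cfsg.Agent.Helper14.O12T1

set_option autoImplicit false
set_option linter.unusedSectionVars false
set_option linter.unusedVariables false
open Cfsg Cfsg.Geo Matrix

namespace Cfsg.Agent.Helper76

variable {F : Type*} [Field F]

theorem o12_q1 {R : Type*} [Ring R] (z x : R) (h : z * x = x * z) (hz : z * z = -1)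
    (hx : x * x = -1) : (z * x) * (z * x) = 1 := by
  calc (z * x) * (z * x) = z * ((x * z) * x) := by simp only [mul_assoc]
    _ = z * ((z * x) * x) := by rw [h]
    _ = (z * z) * (x * x) := by simp only [mul_assoc]
    _ = 1 := by rw [hz, hx, neg_mul_neg, one_mul]

theorem o12_q3 {R : Type*} [Ring R] (x y : R) (hxy : x * y = -(y * x)) (hx : x * x = -1)
    (hy : y * y = -1) : (x * y) * (x * y) = -1 := by
  have hyx : y * x = -(x * y) := by rw [hxy, neg_neg]
  calc (x * y) * (x * y) = x * ((y * x) * y) := by simp only [mul_assoc]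
    _ = -((x * x) * (y * y)) := by rw [hyx]; simp only [mul_assoc, neg_mul, mul_neg]
    _ = -1 := by rw [hx, hy]; simp

theorem o12_q2 {R : Type*} [Ring R] (z x y : R) (hzx : z * x = -(x * z)) (hzy : z * y = -(y * z))
    (hxy : x * y = -(y * x)) (hz : z * z = -1) (hx : x * x = -1) (hy : y * y = -1) :
    (z * (x * y)) * (z * (x * y)) = 1 := by
  have hyz : y * z = -(z * y) := by rw [hzy, neg_neg]
  have hxz : x * z = -(z * x) := by rw [hzx, neg_neg]
  have hyx : y * x = -(x * y) := by rw [hxy, neg_neg]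
  calc (z * (x * y)) * (z * (x * y)) = z * (x * ((y * z) * (x * y))) := by simp only [mul_assoc]
    _ = -(z * ((x * z) * ((y * x) * y))) := by
        rw [hyz]; simp only [mul_assoc, neg_mul, mul_neg]
    _ = -((z * z) * ((x * x) * (y * y))) := by
        rw [hxz, hyx]; simp only [mul_assoc, neg_mul, mul_neg, neg_neg]
    _ = 1 := by rw [hz, hx, hy]; simp

theorem o12_irr_contra {n : ℕ} (S : Set (Matrix (Fin n) (Fin n) F)) (hirr : ActsIrreducibly S)
    (W : Submodule F (Fin n → F)) (hinv : ∀ s ∈ S, ∀ v ∈ W, s *ᵥ v ∈ W) (v : Fin n → F)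
    (hv : v ∈ W) (hv0 : v ≠ 0) (hdim : Module.finrank F W < n) : False := by
  rcases hirr W (fun s hs => by
      rintro _ ⟨u, hu, rfl⟩
      rw [Matrix.toLin'_apply]
      exact hinv s hs u hu) with h | h
  · rw [h] at hv
    exact hv0 ((Submodule.mem_bot F).mp hv)
  · rw [h, finrank_top, Module.finrank_fintype_fun_eq_card, Fintype.card_fin] at hdim
    exact lt_irrefl _ hdim

/-- Step 2: a non-scalar involution in `N`. -/
theorem o12_c6_invol (h2 : (2 : F) ≠ 0) {n : ℕ} (hn : 8 ≤ n)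
    (N : Subgroup (GL (Fin n) F))
    (habs : ActsAbsolutelyIrreducibly (matrixSet N))
    (hB : ∀ a ∈ N, ∀ b ∈ N,
      (a : Matrix (Fin n) (Fin n) F) * (b : Matrix (Fin n) (Fin n) F)
          = (b : Matrix (Fin n) (Fin n) F) * (a : Matrix (Fin n) (Fin n) F) ∨
      (a : Matrix (Fin n) (Fin n) F) * (b : Matrix (Fin n) (Fin n) F)
          = -((b : Matrix (Fin n) (Fin n) F) * (a : Matrix (Fin n) (Fin n) F)))
    (hC : ∀ x ∈ N, (x : Matrix (Fin n) (Fin n) F) * (x : Matrix (Fin n) (Fin n) F) = 1 ∨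
      (x : Matrix (Fin n) (Fin n) F) * (x : Matrix (Fin n) (Fin n) F) = -1) :
    ∃ w ∈ N, (¬ ∃ c : F, (w : Matrix (Fin n) (Fin n) F) = c • (1 : Matrix (Fin n) (Fin n) F)) ∧
      (w : Matrix (Fin n) (Fin n) F) * (w : Matrix (Fin n) (Fin n) F) = 1 ∧
      ∃ y ∈ N, (w : Matrix (Fin n) (Fin n) F) * (y : Matrix (Fin n) (Fin n) F)
        = -((y : Matrix (Fin n) (Fin n) F) * (w : Matrix (Fin n) (Fin n) F)) := by
  classical
  have hn0 : 0 < n := by omega
  have hne : Nonempty (Fin n) := ⟨⟨0, hn0⟩⟩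
  obtain ⟨v0, hv0⟩ : ∃ v0 : Fin n → F, v0 ≠ 0 := ⟨Pi.single ⟨0, hn0⟩ 1, by
    intro h
    have := congrFun h ⟨0, hn0⟩
    simp at this⟩
  -- anticommuting partners
  have hD : ∀ x ∈ N, (¬ ∃ c : F, (x : Matrix (Fin n) (Fin n) F) = c • (1 : Matrix (Fin n) (Fin n) F)) →
      ∃ y ∈ N, (x : Matrix (Fin n) (Fin n) F) * (y : Matrix (Fin n) (Fin n) F)
        = -((y : Matrix (Fin n) (Fin n) F) * (x : Matrix (Fin n) (Fin n) F)) := by
    intro x hx hxs
    by_contra hcon
    push Not at hcon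
    apply hxs
    apply habs.2
    rintro s ⟨y, hy, rfl⟩
    rcases hB x hx y hy with h | h
    · exact h
    · exact absurd h (hcon y hy)
  have hEns : ∀ x y : GL (Fin n) F,
      (x : Matrix (Fin n) (Fin n) F) * (y : Matrix (Fin n) (Fin n) F)
        = -((y : Matrix (Fin n) (Fin n) F) * (x : Matrix (Fin n) (Fin n) F)) →
      ¬ ∃ c : F, (y : Matrix (Fin n) (Fin n) F) = c • (1 : Matrix (Fin n) (Fin n) F) := by
    rintro x y h ⟨c, hc⟩
    rw [hc] at h
    have h1 : c • (x : Matrix (Fin n) (Fin n) F) = -(c • (x : Matrix (Fin n) (Fin n) F)) := by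
      simpa using h
    have h3 : (2 : F) • (c • (x : Matrix (Fin n) (Fin n) F)) = 0 := by
      rw [two_smul]
      nth_rewrite 1 [h1]
      exact neg_add_cancel _
    have h4 : c • (x : Matrix (Fin n) (Fin n) F) = 0 := (smul_eq_zero.mp h3).resolve_left h2
    rcases smul_eq_zero.mp h4 with hc0 | hx0
    · rw [hc0, zero_smul] at hc
      exact Units.ne_zero y hc
    · exact Units.ne_zero x hx0
  -- a non-scalar element
  have hns : ∃ x ∈ N, ¬ ∃ c : F, (x : Matrix (Fin n) (Fin n) F) = c • (1 : Matrix (Fin n) (Fin n) F) := by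
    by_contra hcon
    push Not at hcon
    refine o12_irr_contra (matrixSet N) habs.1 (Submodule.span F {v0}) ?_ v0
      (Submodule.mem_span_singleton_self v0) hv0 ?_
    · rintro s ⟨g, hg, rfl⟩ u hu
      obtain ⟨c, hc⟩ := hcon g hg
      show (g : Matrix (Fin n) (Fin n) F) *ᵥ u ∈ _
      rw [hc, Matrix.smul_mulVec, Matrix.one_mulVec]
      exact Submodule.smul_mem _ _ hu
    · rw [finrank_span_singleton hv0]
      omega
  obtain ⟨x, hxN, hxs⟩ := hns
  obtain ⟨y, hyN, hxy⟩ := hD x hxN hxs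
  have hys := hEns x y hxy
  rcases hC x hxN with hxx | hxx
  · exact ⟨x, hxN, hxs, hxx, y, hyN, hxy⟩
  rcases hC y hyN with hyy | hyy
  · obtain ⟨y', hy'N, hyy'⟩ := hD y hyN hys
    exact ⟨y, hyN, hys, hyy, y', hy'N, hyy'⟩
  -- quaternion case
  obtain ⟨xm, hxm⟩ : ∃ xm : Matrix (Fin n) (Fin n) F, xm = (x : Matrix (Fin n) (Fin n) F) := ⟨_, rfl⟩
  obtain ⟨ym, hym⟩ : ∃ ym : Matrix (Fin n) (Fin n) F, ym = (y : Matrix (Fin n) (Fin n) F) := ⟨_, rfl⟩
  rw [← hxm] at hxx
  rw [← hym] at hyy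
  rw [← hxm, ← hym] at hxy
  have hyx : ym * xm = -(xm * ym) := by rw [hxy, neg_neg]
  have hz_ex : ∃ z ∈ N, ¬ ((∃ c : F, (z : Matrix (Fin n) (Fin n) F) = c • (1 : Matrix (Fin n) (Fin n) F)) ∨
      (∃ c : F, (z : Matrix (Fin n) (Fin n) F) = c • xm) ∨
      (∃ c : F, (z : Matrix (Fin n) (Fin n) F) = c • ym) ∨
      (∃ c : F, (z : Matrix (Fin n) (Fin n) F) = c • (xm * ym))) := by
    by_contra hcon
    push Not at hcon
    obtain ⟨T, hT⟩ : ∃ T : Finset (Fin n → F),
        T = {v0, xm *ᵥ v0, ym *ᵥ v0, (xm * ym) *ᵥ v0} := ⟨_, rfl⟩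
    have hmemT : ∀ u, u ∈ (T : Set (Fin n → F)) ↔
        u = v0 ∨ u = xm *ᵥ v0 ∨ u = ym *ᵥ v0 ∨ u = (xm * ym) *ᵥ v0 := by
      intro u
      rw [hT]
      simp
    have hsub : ∀ u, u ∈ (T : Set (Fin n → F)) → u ∈ Submodule.span F (T : Set (Fin n → F)) :=
      fun u hu => Submodule.subset_span hu
    have hxinv : ∀ u ∈ Submodule.span F (T : Set (Fin n → F)),
        xm *ᵥ u ∈ Submodule.span F (T : Set (Fin n → F)) := by
      intro u hu
      induction hu using Submodule.span_induction with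
      | mem u hu =>
        rcases (hmemT u).mp hu with rfl | rfl | rfl | rfl
        · exact hsub _ ((hmemT _).mpr (Or.inr (Or.inl rfl)))
        · rw [Matrix.mulVec_mulVec, hxx, Matrix.neg_mulVec, Matrix.one_mulVec]
          exact Submodule.neg_mem _ (hsub _ ((hmemT _).mpr (Or.inl rfl)))
        · rw [Matrix.mulVec_mulVec]
          exact hsub _ ((hmemT _).mpr (Or.inr (Or.inr (Or.inr rfl))))
        · rw [Matrix.mulVec_mulVec, ← mul_assoc, hxx, neg_mul, one_mul, Matrix.neg_mulVec]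
          exact Submodule.neg_mem _ (hsub _ ((hmemT _).mpr (Or.inr (Or.inr (Or.inl rfl)))))
      | zero => rw [Matrix.mulVec_zero]; exact Submodule.zero_mem _
      | add a b _ _ ha hb => rw [Matrix.mulVec_add]; exact Submodule.add_mem _ ha hb
      | smul c a _ ha => rw [Matrix.mulVec_smul]; exact Submodule.smul_mem _ c ha
    have hyinv : ∀ u ∈ Submodule.span F (T : Set (Fin n → F)),
        ym *ᵥ u ∈ Submodule.span F (T : Set (Fin n → F)) := by
      intro u hu
      induction hu using Submodule.span_induction with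
      | mem u hu =>
        rcases (hmemT u).mp hu with rfl | rfl | rfl | rfl
        · exact hsub _ ((hmemT _).mpr (Or.inr (Or.inr (Or.inl rfl))))
        · rw [Matrix.mulVec_mulVec, hyx, Matrix.neg_mulVec]
          exact Submodule.neg_mem _ (hsub _ ((hmemT _).mpr (Or.inr (Or.inr (Or.inr rfl)))))
        · rw [Matrix.mulVec_mulVec, hyy, Matrix.neg_mulVec, Matrix.one_mulVec]
          exact Submodule.neg_mem _ (hsub _ ((hmemT _).mpr (Or.inl rfl)))
        · have e : ym * (xm * ym) = xm := by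
            rw [← mul_assoc, hyx, neg_mul, mul_assoc, hyy, mul_neg, mul_one, neg_neg]
          rw [Matrix.mulVec_mulVec, e]
          exact hsub _ ((hmemT _).mpr (Or.inr (Or.inl rfl)))
      | zero => rw [Matrix.mulVec_zero]; exact Submodule.zero_mem _
      | add a b _ _ ha hb => rw [Matrix.mulVec_add]; exact Submodule.add_mem _ ha hb
      | smul c a _ ha => rw [Matrix.mulVec_smul]; exact Submodule.smul_mem _ c ha
    refine o12_irr_contra (matrixSet N) habs.1 (Submodule.span F (T : Set (Fin n → F))) ?_ v0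
      (hsub _ ((hmemT _).mpr (Or.inl rfl))) hv0 ?_
    · rintro s ⟨g, hg, rfl⟩ u hu
      show (g : Matrix (Fin n) (Fin n) F) *ᵥ u ∈ _
      rcases hcon g hg with ⟨c, hc⟩ | ⟨c, hc⟩ | ⟨c, hc⟩ | ⟨c, hc⟩
      · rw [hc, Matrix.smul_mulVec, Matrix.one_mulVec]
        exact Submodule.smul_mem _ _ hu
      · rw [hc, Matrix.smul_mulVec]
        exact Submodule.smul_mem _ _ (hxinv u hu)
      · rw [hc, Matrix.smul_mulVec]
        exact Submodule.smul_mem _ _ (hyinv u hu)
      · rw [hc, Matrix.smul_mulVec, ← Matrix.mulVec_mulVec]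
        exact Submodule.smul_mem _ _ (hxinv _ (hyinv u hu))
    · have h1 : Module.finrank F (Submodule.span F (T : Set (Fin n → F))) ≤ T.card :=
        finrank_span_finset_le_card T
      have h2 : T.card ≤ 4 := by
        rw [hT]
        exact Finset.card_le_four
      omega
  obtain ⟨z, hzN, hz⟩ := hz_ex
  have hz1 : ∀ c : F, (z : Matrix (Fin n) (Fin n) F) ≠ c • (1 : Matrix (Fin n) (Fin n) F) :=
    fun c h => hz (Or.inl ⟨c, h⟩)
  have hzx : ∀ c : F, (z : Matrix (Fin n) (Fin n) F) ≠ c • xm :=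
    fun c h => hz (Or.inr (Or.inl ⟨c, h⟩))
  have hzy : ∀ c : F, (z : Matrix (Fin n) (Fin n) F) ≠ c • ym :=
    fun c h => hz (Or.inr (Or.inr (Or.inl ⟨c, h⟩)))
  have hzxy : ∀ c : F, (z : Matrix (Fin n) (Fin n) F) ≠ c • (xm * ym) :=
    fun c h => hz (Or.inr (Or.inr (Or.inr ⟨c, h⟩)))
  -- finishing: given a non-scalar involution, get its partner
  have fin : ∀ w ∈ N, (¬ ∃ c : F, (w : Matrix (Fin n) (Fin n) F) = c • (1 : Matrix (Fin n) (Fin n) F)) →
      (w : Matrix (Fin n) (Fin n) F) * (w : Matrix (Fin n) (Fin n) F) = 1 →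
      ∃ w ∈ N, (¬ ∃ c : F, (w : Matrix (Fin n) (Fin n) F) = c • (1 : Matrix (Fin n) (Fin n) F)) ∧
      (w : Matrix (Fin n) (Fin n) F) * (w : Matrix (Fin n) (Fin n) F) = 1 ∧
      ∃ y ∈ N, (w : Matrix (Fin n) (Fin n) F) * (y : Matrix (Fin n) (Fin n) F)
        = -((y : Matrix (Fin n) (Fin n) F) * (w : Matrix (Fin n) (Fin n) F)) := by
    intro w hw hws hww
    obtain ⟨y', hy'N, hwy'⟩ := hD w hw hws
    exact ⟨w, hw, hws, hww, y', hy'N, hwy'⟩
  rcases hC z hzN with hzz | hzz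
  · exact fin z hzN (fun ⟨c, hc⟩ => hz1 c hc) hzz
  have hBx := hB z hzN x hxN
  rw [← hxm] at hBx
  have hBy := hB z hzN y hyN
  rw [← hym] at hBy
  rcases hBx with hcx | hax
  · -- w = z * x
    refine fin (z * x) (N.mul_mem hzN hxN) ?_ ?_
    · rintro ⟨c, hc⟩
      rw [Units.val_mul, ← hxm] at hc
      apply hzx (-c)
      have e : (z : Matrix (Fin n) (Fin n) F) * xm * xm = c • xm := by
        rw [hc, smul_mul_assoc, one_mul]
      rw [mul_assoc, hxx, mul_neg, mul_one] at e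
      rw [neg_smul, ← e, neg_neg]
    · rw [Units.val_mul, ← hxm]
      exact o12_q1 _ _ hcx hzz hxx
  rcases hBy with hcy | hay
  · -- w = z * y
    refine fin (z * y) (N.mul_mem hzN hyN) ?_ ?_
    · rintro ⟨c, hc⟩
      rw [Units.val_mul, ← hym] at hc
      apply hzy (-c)
      have e : (z : Matrix (Fin n) (Fin n) F) * ym * ym = c • ym := by
        rw [hc, smul_mul_assoc, one_mul]
      rw [mul_assoc, hyy, mul_neg, mul_one] at e
      rw [neg_smul, ← e, neg_neg]
    · rw [Units.val_mul, ← hym]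
      exact o12_q1 _ _ hcy hzz hyy
  · -- w = z * (x * y)
    refine fin (z * (x * y)) (N.mul_mem hzN (N.mul_mem hxN hyN)) ?_ ?_
    · rintro ⟨c, hc⟩
      rw [Units.val_mul, Units.val_mul, ← hxm, ← hym] at hc
      apply hzxy (-c)
      have e : (z : Matrix (Fin n) (Fin n) F) * (xm * ym) * (xm * ym) = c • (xm * ym) := by
        rw [hc, smul_mul_assoc, one_mul]
      rw [mul_assoc, o12_q3 xm ym hxy hxx hyy, mul_neg, mul_one] at e
      rw [neg_smul, ← e, neg_neg]
    · rw [Units.val_mul, Units.val_mul, ← hxm, ← hym]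
      exact o12_q2 _ _ _ hax hay hxy hzz hxx hyy

theorem o12_class_two_plus [Fintype F] (h2 : (2 : F) ≠ 0) {n : ℕ} (hn4 : 4 ∣ n) (hn : 8 ≤ n)
    (Q : (Fin n → F) → F) (hQ : IsNondegenerateQuadraticForm Q) (N : Subgroup (GL (Fin n) F))
    (hN : ∀ g ∈ N, ∀ x, Q ((g : Matrix (Fin n) (Fin n) F) *ᵥ x) = Q x)
    (habs : ActsAbsolutelyIrreducibly (matrixSet N))
    (hab : ∀ a ∈ N, ∀ b ∈ N, a * b * a⁻¹ * b⁻¹ ∈ scalars (Fin n) F)
    (hpow : ∀ x ∈ N, x ^ 2 ∈ scalars (Fin n) F) : IsPlusTypeOn Q ⊤ := by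
  classical
  have hn0 : 0 < n := by omega
  have hne : Nonempty (Fin n) := ⟨⟨0, hn0⟩⟩
  obtain ⟨v0, hv0⟩ : ∃ v0 : Fin n → F, v0 ≠ 0 := ⟨Pi.single ⟨0, hn0⟩ 1, by
    intro h
    have := congrFun h ⟨0, hn0⟩
    simp at this⟩
  obtain ⟨vq, hvq⟩ : ∃ v : Fin n → F, Q v ≠ 0 := by
    by_contra hcon
    push Not at hcon
    obtain ⟨⟨x, hx⟩, -⟩ := hQ.nondegenerate v0 hv0
    apply hx
    unfold QuadraticMap.polar
    rw [hcon, hcon, hcon]
    ring
  have hA : ∀ g ∈ N, g ∈ scalars (Fin n) F →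
      (g : Matrix (Fin n) (Fin n) F) = 1 ∨ (g : Matrix (Fin n) (Fin n) F) = -1 := by
    intro g hg hsc
    obtain ⟨c, hc⟩ := (mem_scalars_iff g).mp hsc
    have h1 := hN g hg vq
    rw [hc, Matrix.smul_mulVec, Matrix.one_mulVec, hQ.smul] at h1
    have h3 : ((c : F) - 1) * ((c : F) + 1) = 0 := by
      have h2' : (((c : F)) ^ 2 - 1) * Q vq = 0 := by linear_combination h1
      rcases mul_eq_zero.mp h2' with h | h
      · linear_combination h
      · exact absurd h hvq
    rcases mul_eq_zero.mp h3 with h | h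
    · left
      rw [hc, sub_eq_zero.mp h, one_smul]
    · right
      rw [hc, eq_neg_of_add_eq_zero_left h, neg_smul, one_smul]
  have hB : ∀ a ∈ N, ∀ b ∈ N,
      (a : Matrix (Fin n) (Fin n) F) * (b : Matrix (Fin n) (Fin n) F)
          = (b : Matrix (Fin n) (Fin n) F) * (a : Matrix (Fin n) (Fin n) F) ∨
      (a : Matrix (Fin n) (Fin n) F) * (b : Matrix (Fin n) (Fin n) F)
          = -((b : Matrix (Fin n) (Fin n) F) * (a : Matrix (Fin n) (Fin n) F)) := by
    intro a ha b hb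
    have hmem : a * b * a⁻¹ * b⁻¹ ∈ N :=
      N.mul_mem (N.mul_mem (N.mul_mem ha hb) (N.inv_mem ha)) (N.inv_mem hb)
    have hkey : ((a * b * a⁻¹ * b⁻¹ : GL (Fin n) F) : Matrix (Fin n) (Fin n) F)
        * ((b : Matrix (Fin n) (Fin n) F) * (a : Matrix (Fin n) (Fin n) F))
        = (a : Matrix (Fin n) (Fin n) F) * (b : Matrix (Fin n) (Fin n) F) := by
      have e : a * b * a⁻¹ * b⁻¹ * (b * a) = a * b := by group
      have e' := congrArg (fun g : GL (Fin n) F => (g : Matrix (Fin n) (Fin n) F)) e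
      simpa only [Units.val_mul] using e'
    rcases hA _ hmem (hab a ha b hb) with h | h
    · left
      rw [← hkey, h, one_mul]
    · right
      rw [← hkey, h, neg_one_mul]
  have hC : ∀ x ∈ N, (x : Matrix (Fin n) (Fin n) F) * (x : Matrix (Fin n) (Fin n) F) = 1 ∨
      (x : Matrix (Fin n) (Fin n) F) * (x : Matrix (Fin n) (Fin n) F) = -1 := by
    intro x hx
    have := hA (x ^ 2) (N.pow_mem hx 2) (hpow x hx)
    rwa [pow_two, Units.val_mul] at this
  obtain ⟨w, hwN, hws, hww, y, hyN, hwy⟩ := o12_c6_invol h2 hn N habs hB hC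
  obtain ⟨wm, hwm⟩ : ∃ wm : Matrix (Fin n) (Fin n) F, wm = (w : Matrix (Fin n) (Fin n) F) :=
    ⟨_, rfl⟩
  obtain ⟨ym, hym⟩ : ∃ ym : Matrix (Fin n) (Fin n) F, ym = (y : Matrix (Fin n) (Fin n) F) :=
    ⟨_, rfl⟩
  obtain ⟨yi, hyi⟩ : ∃ yi : Matrix (Fin n) (Fin n) F,
      yi = ((y⁻¹ : GL (Fin n) F) : Matrix (Fin n) (Fin n) F) := ⟨_, rfl⟩
  have hyyi : ym * yi = 1 := by
    rw [hym, hyi, ← Units.val_mul, mul_inv_cancel, Units.val_one]
  have hyiy : yi * ym = 1 := by
    rw [hym, hyi, ← Units.val_mul, inv_mul_cancel, Units.val_one]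
  rw [← hwm] at hww
  rw [← hwm, ← hym] at hwy
  have hQw : ∀ v, Q (wm *ᵥ v) = Q v := by
    intro v
    rw [hwm]
    exact hN w hwN v
  have hQy : ∀ v, Q (ym *ᵥ v) = Q v := by
    intro v
    rw [hym]
    exact hN y hyN v
  have hpw : ∀ u v, QuadraticMap.polar Q (wm *ᵥ u) (wm *ᵥ v) = QuadraticMap.polar Q u v := by
    intro u v
    unfold QuadraticMap.polar
    rw [← Matrix.mulVec_add, hQw, hQw, hQw]
  have hb := hQ.polar_bilinear
  have hpneg : ∀ u v, QuadraticMap.polar Q u (-v) = - QuadraticMap.polar Q u v := by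
    intro u v
    have := hb.smul_right (-1) u v
    rw [neg_one_smul, neg_one_mul] at this
    exact this
  obtain ⟨W₁, hW₁⟩ : ∃ W₁ : Submodule F (Fin n → F),
      W₁ = LinearMap.ker (Matrix.mulVecLin (wm - 1)) := ⟨_, rfl⟩
  obtain ⟨W₂, hW₂⟩ : ∃ W₂ : Submodule F (Fin n → F),
      W₂ = LinearMap.ker (Matrix.mulVecLin (wm + 1)) := ⟨_, rfl⟩
  have hm1 : ∀ v, v ∈ W₁ ↔ wm *ᵥ v = v := by
    intro v
    rw [hW₁, LinearMap.mem_ker, Matrix.mulVecLin_apply, Matrix.sub_mulVec, Matrix.one_mulVec,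
      sub_eq_zero]
  have hm2 : ∀ v, v ∈ W₂ ↔ wm *ᵥ v = -v := by
    intro v
    rw [hW₂, LinearMap.mem_ker, Matrix.mulVecLin_apply, Matrix.add_mulVec, Matrix.one_mulVec,
      add_eq_zero_iff_eq_neg]
  have horth : AreOrthogonalFor (QuadraticMap.polar Q) W₁ W₂ := by
    intro u hu v hv
    have h1 := hpw u v
    rw [(hm1 u).mp hu, (hm2 v).mp hv, hpneg] at h1
    have h3 : (2 : F) * QuadraticMap.polar Q u v = 0 := by linear_combination -h1
    exact (mul_eq_zero.mp h3).resolve_left h2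
  have hdec : ∀ x : Fin n → F, ∃ a ∈ W₁, ∃ b ∈ W₂, x = a + b := by
    intro x
    refine ⟨(2 : F)⁻¹ • (x + wm *ᵥ x), ?_, (2 : F)⁻¹ • (x - wm *ᵥ x), ?_, ?_⟩
    · rw [hm1, Matrix.mulVec_smul, Matrix.mulVec_add, Matrix.mulVec_mulVec, hww,
        Matrix.one_mulVec, add_comm]
    · rw [hm2, Matrix.mulVec_smul, Matrix.mulVec_sub, Matrix.mulVec_mulVec, hww,
        Matrix.one_mulVec, ← smul_neg, neg_sub]
    · rw [← smul_add]
      have : x + wm *ᵥ x + (x - wm *ᵥ x) = (2 : F) • x := by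
        rw [two_smul]
        abel
      rw [this, smul_smul, inv_mul_cancel₀ h2, one_smul]
  have hnd : IsNondegenerateOn (QuadraticMap.polar Q) W₁ := by
    intro u hu hu0
    obtain ⟨⟨x, hx⟩, ⟨x', hx'⟩⟩ := hQ.nondegenerate u hu0
    constructor
    · obtain ⟨a, ha, b, hb', rfl⟩ := hdec x
      refine ⟨a, ha, ?_⟩
      rw [hb.add_left] at hx
      have h0 : QuadraticMap.polar Q b u = 0 := by
        rw [QuadraticMap.polar_comm]
        exact horth u hu b hb'
      rw [h0, add_zero] at hx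
      exact hx
    · obtain ⟨a, ha, b, hb', rfl⟩ := hdec x'
      refine ⟨a, ha, ?_⟩
      rw [hb.add_right, horth u hu b hb', add_zero] at hx'
      exact hx'
  have h12 : ∀ u ∈ W₁, ym *ᵥ u ∈ W₂ := by
    intro u hu
    rw [hm2, Matrix.mulVec_mulVec, hwy, Matrix.neg_mulVec, ← Matrix.mulVec_mulVec,
      (hm1 u).mp hu]
  have hwyi : wm * yi = -(yi * wm) := by
    have e1 : yi * (wm * ym) * yi = -(yi * (ym * wm) * yi) := by
      rw [hwy]
      simp only [mul_neg, neg_mul]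
    have e2 : yi * (wm * ym) * yi = yi * wm := by
      rw [mul_assoc, mul_assoc, hyyi, mul_one]
    have e3 : yi * (ym * wm) * yi = wm * yi := by
      rw [← mul_assoc, hyiy, one_mul]
    rw [e2, e3] at e1
    rw [e1, neg_neg]
  have h21 : ∀ v ∈ W₂, yi *ᵥ v ∈ W₁ := by
    intro v hv
    rw [hm1, Matrix.mulVec_mulVec, hwyi, Matrix.neg_mulVec, ← Matrix.mulVec_mulVec,
      (hm2 v).mp hv, Matrix.mulVec_neg, neg_neg]
  have hiso : AreIsometricFor Q W₁ W₂ := by
    refine ⟨{ toFun := fun u => ⟨ym *ᵥ (u : Fin n → F), h12 u.1 u.2⟩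
              map_add' := fun a b => Subtype.ext (by simp [Matrix.mulVec_add])
              map_smul' := fun c a => Subtype.ext (by simp [Matrix.mulVec_smul])
              invFun := fun v => ⟨yi *ᵥ (v : Fin n → F), h21 v.1 v.2⟩
              left_inv := fun u => Subtype.ext (by simp [Matrix.mulVec_mulVec, hyiy])
              right_inv := fun v => Subtype.ext (by simp [Matrix.mulVec_mulVec, hyyi]) }, ?_⟩
    intro u
    exact hQy _
  have hinf : W₁ ⊓ W₂ = ⊥ := by
    rw [eq_bot_iff]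
    rintro v ⟨hv1, hv2⟩
    have hv1' := (hm1 v).mp hv1
    have hv2' := (hm2 v).mp hv2
    rw [hv1'] at hv2'
    have h0 : (2 : F) • v = 0 := by
      rw [two_smul]
      nth_rewrite 1 [hv2']
      exact neg_add_cancel v
    exact (Submodule.mem_bot F).mpr ((smul_eq_zero.mp h0).resolve_left h2)
  have hsup : W₁ ⊔ W₂ = ⊤ := by
    rw [eq_top_iff]
    intro x _
    obtain ⟨a, ha, b, hb', rfl⟩ := hdec x
    exact Submodule.add_mem_sup ha hb'
  have hfin := Submodule.finrank_sup_add_finrank_inf_eq W₁ W₂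
  rw [hinf, hsup, finrank_bot, finrank_top, Module.finrank_fintype_fun_eq_card,
    Fintype.card_fin, add_zero] at hfin
  have heq : Module.finrank F W₁ = Module.finrank F W₂ := by
    obtain ⟨e, -⟩ := hiso
    exact e.finrank_eq
  have heven : Even (Module.finrank F W₁) := by
    obtain ⟨k, hk⟩ := hn4
    exact ⟨k, by omega⟩
  obtain ⟨U, hU, hts, hUd⟩ := Helper14.o12_iso_pair Q hQ W₁ W₂ hnd horth hiso heven
  refine ⟨U, le_top, hts, ?_⟩
  rw [hUd, finrank_top, Module.finrank_fintype_fun_eq_card, Fintype.card_fin]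
  omega

end Cfsg.Agent.Helper76
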