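import Cfsg.Agent.Helper77.PRegular
import Cfsg.Agent.Helper77.ClassSum
import Cfsg.Agent.Helper77.BlockIdem
import Cfsg.Agent.Helper75.BlocksGalois
import Cfsg.Agent.Helper81.BlockDefect
import Cfsg.Agent.Helper79.Basic

/-!
# Intersections of a `p`-block and a `q`-block in groups without elements of order `pq`
(helper76)

* `isIntegral_of_forall_memLocalRing`: a complex number `z` with `q ^ b * z` an algebraic integer
  which is a local integer at every maximal ideal over `q` is an algebraic integer.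
* `not_dvd_card_centralizer_of_no_pq`: without elements of order `pq`, centralizers of
  `p`-singular elements have order prime to `q`.
* `exists_algInt_sum_inter`: `∑_{χ ∈ B_p ∩ B_q} χ(1) χ(y)` is divisible by the `q`-part of `|G|`
  for `p`-singular `y`.
-/

set_option autoImplicit false
set_option linter.style.haveILetI false

namespace Cfsg.Agent.Helper76

open scoped ComplexConjugate

universe u

/-- A complex number `z` with `q ^ b * z` an algebraic integer which is a local integer at every
maximal ideal of the algebraic integers over `q` is an algebraic integer. -/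
theorem isIntegral_of_forall_memLocalRing {q : ℕ} (hq : q.Prime) (b : ℕ) (z : ℂ)
    (hint : IsIntegral ℤ ((q : ℂ) ^ b * z))
    (hloc : ∀ M' : Ideal Cfsg.AlgInt, Cfsg.IsPModular q M' → Cfsg.MemLocalRing M' z) :
    IsIntegral ℤ z := by
  let I : Ideal Cfsg.AlgInt :=
    { carrier := {a | IsIntegral ℤ ((a : ℂ) * z)}
      add_mem' := fun {a b} ha hb => by
        show IsIntegral ℤ (((a + b : Cfsg.AlgInt) : ℂ) * z)
        have h1 : ((a + b : Cfsg.AlgInt) : ℂ) * z = (a : ℂ) * z + (b : ℂ) * z := by
          push_cast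
          ring
        rw [h1]
        exact IsIntegral.add ha hb
      zero_mem' := by
        show IsIntegral ℤ (((0 : Cfsg.AlgInt) : ℂ) * z)
        have h1 : ((0 : Cfsg.AlgInt) : ℂ) * z = 0 := by
          push_cast
          ring
        rw [h1]
        exact isIntegral_zero
      smul_mem' := fun c {a} ha => by
        show IsIntegral ℤ (((c • a : Cfsg.AlgInt) : ℂ) * z)
        have h1 : ((c • a : Cfsg.AlgInt) : ℂ) * z = (c : ℂ) * ((a : ℂ) * z) := by
          rw [smul_eq_mul]
          push_cast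
          ring
        rw [h1]
        exact IsIntegral.mul c.2 ha }
  by_cases hI : I = ⊤
  · have h1 : (1 : Cfsg.AlgInt) ∈ I := by
      rw [hI]
      trivial
    have h2 : IsIntegral ℤ (((1 : Cfsg.AlgInt) : ℂ) * z) := h1
    have h3 : ((1 : Cfsg.AlgInt) : ℂ) * z = z := by
      push_cast
      ring
    rwa [h3] at h2
  · obtain ⟨M', hM', hIM'⟩ := Ideal.exists_le_maximal I hI
    have hqb : ((q : Cfsg.AlgInt) ^ b) ∈ I := by
      show IsIntegral ℤ ((((q : Cfsg.AlgInt) ^ b : Cfsg.AlgInt) : ℂ) * z)
      have h1 : ((((q : Cfsg.AlgInt) ^ b : Cfsg.AlgInt) : ℂ)) = (q : ℂ) ^ b := by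
        push_cast
        rfl
      rw [h1]
      exact hint
    have hqM : (q : Cfsg.AlgInt) ∈ M' := hM'.isPrime.mem_of_pow_mem b (hIM' hqb)
    obtain ⟨a, s, hs, hz⟩ := hloc M' ⟨hq, hM', hqM⟩
    exfalso
    apply hs
    apply hIM'
    show IsIntegral ℤ ((s : ℂ) * z)
    have hs0 : (s : ℂ) ≠ 0 := Helper77.coe_ne_zero hs
    have h1 : (s : ℂ) * z = (a : ℂ) := by
      rw [← hz]
      field_simp
    rw [h1]
    exact a.2

section pq

variable {G : Type u} [Group G]

/-- Without elements of order `pq`, the centralizer of a `p`-singular element has order prime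
to `q`. -/
theorem not_dvd_card_centralizer_of_no_pq [Finite G] {p q : ℕ} [Fact p.Prime] [Fact q.Prime]
    (hpq : p ≠ q) (hno : ∀ g : G, orderOf g ≠ p * q) {h : G} (hh : p ∣ orderOf h) :
    ¬ q ∣ Nat.card (Subgroup.centralizer ({h} : Set G)) := by
  intro hq
  obtain ⟨u, hu⟩ := exists_prime_orderOf_dvd_card' q hq
  have hh' : orderOf (h ^ (orderOf h / p)) = p :=
    orderOf_pow_orderOf_div (orderOf_pos h).ne' hh
  have hcomm : Commute (u : G) (h ^ (orderOf h / p)) := by
    have h1 : h * (u : G) = (u : G) * h :=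
      Subgroup.mem_centralizer_iff.mp u.2 h (Set.mem_singleton h)
    have h2 : Commute (u : G) h := h1.symm
    exact h2.pow_right _
  have hcop : Nat.Coprime (orderOf (u : G)) (orderOf (h ^ (orderOf h / p))) := by
    rw [Subgroup.orderOf_coe, hu, hh']
    exact (Nat.coprime_primes Fact.out Fact.out).mpr hpq.symm
  have hord : orderOf ((u : G) * h ^ (orderOf h / p)) = q * p := by
    rw [hcomm.orderOf_mul_eq_mul_orderOf_of_coprime hcop, Subgroup.orderOf_coe, hu, hh']
  exact hno _ (by rw [hord, mul_comm])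

/-- Without elements of order `pq`, the class of a `p`-singular element has size divisible by
the `q`-part of `|G|`. -/
theorem pow_factorization_dvd_index_centralizer [Finite G] {p q : ℕ} [Fact p.Prime]
    [Fact q.Prime] (hpq : p ≠ q) (hno : ∀ g : G, orderOf g ≠ p * q) {h : G}
    (hh : p ∣ orderOf h) :
    q ^ (Nat.card G).factorization q ∣ (Subgroup.centralizer ({h} : Set G)).index := by
  have h1 := Subgroup.card_mul_index (Subgroup.centralizer ({h} : Set G))
  have h2 : q ^ (Nat.card G).factorization q ∣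
      Nat.card (Subgroup.centralizer ({h} : Set G)) *
        (Subgroup.centralizer ({h} : Set G)).index := by
    rw [h1]
    exact Nat.ordProj_dvd _ _
  exact (Nat.Coprime.pow_left _ ((Nat.Prime.coprime_iff_not_dvd Fact.out).mpr
    (not_dvd_card_centralizer_of_no_pq hpq hno hh))).dvd_of_dvd_mul_left h2

variable [Fintype G]

/-- If `G` has no element of order `pq`, then for a `p`-block `B_p`, a `q`-block `B_q` and a
`p`-singular element `y`, the sum of `χ(1) χ(y)` over `χ ∈ B_p ∩ B_q` is divisible by the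
`q`-part of `|G|` in the ring of algebraic integers. -/
theorem exists_algInt_sum_inter {p q : ℕ} [Fact p.Prime] [Fact q.Prime] (hpq : p ≠ q)
    {Mp Mq : Ideal Cfsg.AlgInt} (hMp : Cfsg.IsPModular p Mp) (hMq : Cfsg.IsPModular q Mq)
    (hno : ∀ g : G, orderOf g ≠ p * q) {Bp : Set (Cfsg.IrrCharacter G)}
    (hBp : Cfsg.IsPBlock Mp Bp) {Bq : Set (Cfsg.IrrCharacter G)} (hBq : Cfsg.IsPBlock Mq Bq)
    (y : G) (hy : p ∣ orderOf y) [Fintype (Cfsg.IrrCharacter G)]
    [DecidablePred (fun χ : Cfsg.IrrCharacter G => χ ∈ Bp)]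
    [DecidablePred (fun χ : Cfsg.IrrCharacter G => χ ∈ Bq)] :
    ∃ ω : Cfsg.AlgInt, ∑ χ : Cfsg.IrrCharacter G,
        (if χ ∈ Bp ∧ χ ∈ Bq then (χ : G → ℂ) 1 * (χ : G → ℂ) y else 0)
      = (q : ℂ) ^ (Nat.card G).factorization q * (ω : ℂ) := by
  classical
  have := Fintype.ofFinite (ConjClasses G)
  have hq : q.Prime := Fact.out
  obtain ⟨F, hF⟩ : ∃ F : G → ℂ, ∀ h : G, F h = ∑ χ : Cfsg.IrrCharacter G,
      (if χ ∈ Bp then (χ : G → ℂ) h * (χ : G → ℂ) y else 0) := ⟨_, fun _ => rfl⟩
  -- the sum in terms of the block idempotent of `B_q`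
  have hsumβ : ∀ χ : Cfsg.IrrCharacter G,
      ∑ h : G, Cfsg.blockCoeff Bq h * (χ : G → ℂ) h
        = (χ : G → ℂ) 1 * (if χ ∈ Bq then 1 else 0) := by
    intro χ
    have h1 := Helper77.omega_blockCoeff Bq χ
    unfold Helper81.omega at h1
    rw [div_eq_iff (Helper81.irr_one_ne_zero χ)] at h1
    rw [h1, mul_comm]
    by_cases hχq : χ ∈ Bq
    · simp only [if_pos hχq]
    · simp only [if_neg hχq]
  have hθ : ∑ χ : Cfsg.IrrCharacter G,
      (if χ ∈ Bp ∧ χ ∈ Bq then (χ : G → ℂ) 1 * (χ : G → ℂ) y else 0)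
      = ∑ h : G, Cfsg.blockCoeff Bq h * F h := by
    have h1 : ∀ h : G, Cfsg.blockCoeff Bq h * F h = ∑ χ : Cfsg.IrrCharacter G,
        (if χ ∈ Bp then Cfsg.blockCoeff Bq h * (χ : G → ℂ) h * (χ : G → ℂ) y else 0) := by
      intro h
      rw [hF, Finset.mul_sum]
      refine Finset.sum_congr rfl fun χ _ => ?_
      by_cases hχ : χ ∈ Bp
      · rw [if_pos hχ, if_pos hχ, mul_assoc]
      · rw [if_neg hχ, if_neg hχ, mul_zero]
    rw [Finset.sum_congr rfl fun h _ => h1 h, Finset.sum_comm]
    refine Finset.sum_congr rfl fun χ _ => ?_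
    by_cases hχ : χ ∈ Bp
    · simp only [if_pos hχ]
      rw [← Finset.sum_mul, hsumβ χ]
      by_cases hχq : χ ∈ Bq
      · rw [if_pos ⟨hχ, hχq⟩, if_pos hχq, mul_one]
      · rw [if_neg (fun h => hχq h.2), if_neg hχq, mul_zero, zero_mul]
    · simp only [if_neg hχ]
      rw [if_neg (fun h => hχ h.1), Finset.sum_const_zero]
  have hFreg : ∀ h : G, ¬ p ∣ orderOf h → F h = 0 := by
    intro h hh
    have hy' : p ∣ orderOf y⁻¹ := by rwa [orderOf_inv]
    have h1 := Helper77.weak_block_orthogonality' hMp hBp hh hy'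
    rw [hF]
    refine Eq.trans ?_ h1
    refine Finset.sum_congr rfl fun χ _ => ?_
    rw [Helper77.irr_inv, Complex.conj_conj]
  have hFcl : Cfsg.IsClassFunction G F := by
    intro g x
    rw [hF, hF]
    refine Finset.sum_congr rfl fun χ _ => ?_
    rw [Helper81.irr_isClassFunction χ g x]
  have hFint : ∀ h : G, IsIntegral ℤ (F h) := by
    intro h
    rw [hF]
    refine IsIntegral.sum _ fun χ _ => ?_
    by_cases hχ : χ ∈ Bp
    · rw [if_pos hχ]
      exact IsIntegral.mul (Helper81.irr_isIntegral χ h) (Helper81.irr_isIntegral χ y)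
    · rw [if_neg hχ]
      exact isIntegral_zero
  have hacl : Cfsg.IsClassFunction G (fun h => Cfsg.blockCoeff Bq h * F h) := by
    intro g x
    show Cfsg.blockCoeff Bq (x * g * x⁻¹) * F (x * g * x⁻¹) = Cfsg.blockCoeff Bq g * F g
    rw [Helper77.blockCoeff_isClassFunction Bq g x, hFcl g x]
  -- pass to conjugacy classes
  have hcls : ∑ h : G, Cfsg.blockCoeff Bq h * F h = ∑ c : ConjClasses G,
      Cfsg.blockCoeff Bq (Quotient.out c) * F (Quotient.out c) *
        ((Subgroup.centralizer ({Quotient.out c} : Set G)).index : ℂ) := by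
    have h1 := Helper77.omega_eq_sum_conjClasses (Helper79.trivIrr G) hacl
    have h2 : Helper81.omega (Helper79.trivIrr G : G → ℂ)
        (fun h => Cfsg.blockCoeff Bq h * F h) = ∑ h : G, Cfsg.blockCoeff Bq h * F h := by
      unfold Helper81.omega
      rw [Helper79.trivIrr_apply, div_one]
      refine Finset.sum_congr rfl fun h _ => ?_
      rw [Helper79.trivIrr_apply, mul_one]
    rw [← h2, h1]
    refine Finset.sum_congr rfl fun c _ => ?_
    unfold Cfsg.centralChar
    rw [Helper79.trivIrr_apply, Helper79.trivIrr_apply, mul_one, div_one]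
  have hq0 : ((q : ℂ) ^ (Nat.card G).factorization q) ≠ 0 :=
    pow_ne_zero _ (by exact_mod_cast hq.ne_zero)
  -- the quotient is an algebraic integer
  have hint : IsIntegral ℤ ((∑ h : G, Cfsg.blockCoeff Bq h * F h) /
      (q : ℂ) ^ (Nat.card G).factorization q) := by
    apply isIntegral_of_forall_memLocalRing hq ((Nat.card G).factorization q)
    · rw [mul_div_cancel₀ _ hq0, ← hθ]
      refine IsIntegral.sum _ fun χ _ => ?_
      by_cases hχ : χ ∈ Bp ∧ χ ∈ Bq
      · rw [if_pos hχ]
        exact IsIntegral.mul (Helper81.irr_isIntegral χ 1) (Helper81.irr_isIntegral χ y)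
      · rw [if_neg hχ]
        exact isIntegral_zero
    · intro M' hM'
      have hMm' := hM'.2.1
      have hBq' : Cfsg.IsPBlock M' Bq := by
        obtain ⟨χ₀, rfl⟩ := hBq
        refine ⟨χ₀, ?_⟩
        ext ψ
        exact Helper75.sameBlock_indep Mq M' hMq hM' χ₀ ψ
      rw [hcls, Finset.sum_div]
      refine Helper77.memLocalRing_sum hMm' _ _ fun c _ => ?_
      by_cases hc : p ∣ orderOf (Quotient.out c)
      · obtain ⟨m, hm⟩ := pow_factorization_dvd_index_centralizer hpq hno hc
        have h1 : Cfsg.blockCoeff Bq (Quotient.out c) * F (Quotient.out c) *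
            ((Subgroup.centralizer ({Quotient.out c} : Set G)).index : ℂ) /
              (q : ℂ) ^ (Nat.card G).factorization q
            = Cfsg.blockCoeff Bq (Quotient.out c) * F (Quotient.out c) * (m : ℂ) := by
          rw [hm, Nat.cast_mul, Nat.cast_pow]
          field_simp
        rw [h1]
        refine Helper77.memLocalRing_mul hMm' (Helper77.memLocalRing_mul hMm'
          (Helper77.blockCoeff_memLocalRing hMm' hBq' _)
          (Helper77.memLocalRing_of_isIntegral hMm' (hFint _))) ?_
        exact Helper77.memLocalRing_of_isIntegral hMm'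
          (by exact_mod_cast (isIntegral_algebraMap (x := (m : ℤ))))
      · rw [hFreg _ hc, mul_zero, zero_mul, zero_div]
        exact Helper77.memLocalRing_zero hMm'
  refine ⟨⟨_, hint⟩, ?_⟩
  rw [hθ]
  show _ = (q : ℂ) ^ (Nat.card G).factorization q *
    ((∑ h : G, Cfsg.blockCoeff Bq h * F h) / (q : ℂ) ^ (Nat.card G).factorization q)
  rw [mul_div_cancel₀ _ hq0]

end pq

end Cfsg.Agent.Helper76
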