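import Cfsg.Agent.Helper76.PrincipalInd
import Cfsg.Agent.Helper76.OddIndex

/-!
# Principal blocks of subgroups: every character lies under a principal one (helper76)

`G` is a finite group, `H ≤ G` any subgroup, `S` the indicator function of the `p`-regular
elements (`Helper75.pregInd`).

* `index_mul_omega_pregInd`: `[G : H] ψ(1) Ω_ψ(S_H) = ∑_χ χ(1) Ω_χ(S_G) ⟨χ_H, ψ⟩`.
* `exists_principal_over`: every `ψ` in the principal block of `H` is a constituent of `χ_H`
  for some `χ` in the principal block of `G`.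
* `charDegree_eq_sum_res`, `sum_charDegree_mul_res`: degree bookkeeping for restriction.
-/

set_option autoImplicit false
set_option linter.style.haveILetI false

namespace Cfsg.Agent.Helper76

open scoped ComplexConjugate

universe u

section principalCover

variable {G : Type u} [Group G] [Fintype G]

/-- Okuyama's identity for a subgroup: `[G : H] ψ(1) Ω_ψ(S_H) = ∑_χ χ(1) Ω_χ(S_G) ⟨χ_H, ψ⟩`. -/
theorem index_mul_omega_pregInd (p : ℕ) (H : Subgroup G) [Fintype H]
    [Fintype (Cfsg.IrrCharacter G)] (ψ : Cfsg.IrrCharacter H) :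
    (H.index : ℂ) * ((ψ : H → ℂ) 1 * Helper81.omega (ψ : H → ℂ) (Helper75.pregInd p H))
      = ∑ χ : Cfsg.IrrCharacter G, (χ : G → ℂ) 1 *
          Helper81.omega (χ : G → ℂ) (Helper75.pregInd p G) *
          Cfsg.classInner (fun h : H => (χ : G → ℂ) h) (ψ : H → ℂ) := by
  classical
  have hScl : Cfsg.IsClassFunction G (Helper75.pregInd p G) := Helper75.pregInd_isClassFunction p
  have h1 := Helper15.classFun_eq_sum hScl
  have h2 : (fun h : H => Helper75.pregInd p G (h : G))
      = ∑ χ : Cfsg.IrrCharacter G, Cfsg.classInner (Helper75.pregInd p G) (χ : G → ℂ) •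
          (fun h : H => (χ : G → ℂ) h) := by
    funext h
    conv_lhs => rw [h1]
    simp only [Finset.sum_apply, Pi.smul_apply]
  have h3 : Cfsg.classInner (fun h : H => Helper75.pregInd p G (h : G)) (ψ : H → ℂ)
      = ∑ χ : Cfsg.IrrCharacter G, Cfsg.classInner (Helper75.pregInd p G) (χ : G → ℂ) *
          Cfsg.classInner (fun h : H => (χ : G → ℂ) h) (ψ : H → ℂ) := by
    rw [h2, Helper15.classInner_sum_left]
    exact Finset.sum_congr rfl fun χ _ => Helper15.classInner_smul_left _ _ _
  rw [Helper75.pregInd_res, classInner_pregInd] at h3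
  simp only [classInner_pregInd] at h3
  have hG0 : (Nat.card G : ℂ) ≠ 0 := by exact_mod_cast Nat.card_pos.ne'
  have hH0 : (Nat.card H : ℂ) ≠ 0 := by exact_mod_cast Nat.card_pos.ne'
  have hcard : (Nat.card G : ℂ) = (Nat.card H : ℂ) * (H.index : ℂ) := by
    rw [← Nat.cast_mul, Subgroup.card_mul_index]
  have h5 : (Nat.card G : ℂ) * ((Nat.card H : ℂ)⁻¹ *
      ((ψ : H → ℂ) 1 * Helper81.omega (ψ : H → ℂ) (Helper75.pregInd p H)))
      = (H.index : ℂ) * ((ψ : H → ℂ) 1 *
        Helper81.omega (ψ : H → ℂ) (Helper75.pregInd p H)) := by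
    rw [hcard]
    field_simp
  rw [← h5, h3, Finset.mul_sum]
  refine Finset.sum_congr rfl fun χ _ => ?_
  field_simp

/-- Every irreducible character in the principal block of a subgroup `H` is a constituent of
the restriction of some irreducible character in the principal block of `G`. -/
theorem exists_principal_over {p : ℕ} [Fact p.Prime] {M : Ideal Cfsg.AlgInt}
    (hM : Cfsg.IsPModular p M) (H : Subgroup G) [Fintype H]
    (ψ : Cfsg.IrrCharacter H) (hψ : ψ ∈ Cfsg.principalBlock M H) :
    ∃ χ : Cfsg.IrrCharacter G, χ ∈ Cfsg.principalBlock M G ∧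
      Cfsg.classInner (fun h : H => (χ : G → ℂ) h) (ψ : H → ℂ) ≠ 0 := by
  classical
  have := Fintype.ofFinite (Cfsg.IrrCharacter G)
  have hMm := hM.2.1
  by_contra hcon
  push Not at hcon
  have h4 := index_mul_omega_pregInd p H ψ
  have hsum : (∑ χ : Cfsg.IrrCharacter G, (χ : G → ℂ) 1 *
      Helper81.omega (χ : G → ℂ) (Helper75.pregInd p G) *
      Cfsg.classInner (fun h : H => (χ : G → ℂ) h) (ψ : H → ℂ)) = 0 := by
    refine Finset.sum_eq_zero fun χ _ => ?_
    by_cases hχ : χ ∈ Cfsg.principalBlock M G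
    · rw [hcon χ hχ, mul_zero]
    · rw [Helper75.omega_pregInd_of_not_mem hM hχ, mul_zero, zero_mul]
  rw [hsum] at h4
  have hi0 : (H.index : ℂ) ≠ 0 := by
    have : H.index ≠ 0 := Subgroup.index_ne_zero_of_finite
    exact_mod_cast this
  have h5 : Helper81.omega (ψ : H → ℂ) (Helper75.pregInd p H) = 0 := by
    rcases mul_eq_zero.mp h4 with h | h
    · exact absurd h hi0
    · rcases mul_eq_zero.mp h with h' | h'
      · exact absurd h' (Helper81.irr_one_ne_zero ψ)
      · exact h'
  have h6 := (Helper75.mem_principalBlock_iff_omega hM ψ).mp hψ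
  rw [h5] at h6
  exact h6 (Helper77.memLocalIdeal_zero hMm)

/-- The degree of `χ` is the sum of the degrees of the constituents of `χ_H` with
multiplicities. -/
theorem charDegree_eq_sum_res (H : Subgroup G) [Fintype H] [Fintype (Cfsg.IrrCharacter H)]
    (χ : Cfsg.IrrCharacter G) (m : Cfsg.IrrCharacter H → ℕ)
    (hm : ∀ θ : Cfsg.IrrCharacter H,
      Cfsg.classInner (fun h : H => (χ : G → ℂ) h) (θ : H → ℂ) = (m θ : ℂ)) :
    Cfsg.charDegree (χ : G → ℂ)
      = ∑ θ : Cfsg.IrrCharacter H, m θ * Cfsg.charDegree (θ : H → ℂ) := by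
  classical
  have hcl : Cfsg.IsClassFunction H (fun h : H => (χ : G → ℂ) h) :=
    Helper15.isClassFunction_of_isChar
      (Helper79.isCharacter_restrict (Helper79.irr_isCharacter χ) H)
  have h1 := congrFun (Helper15.classFun_eq_sum hcl) 1
  simp only [Finset.sum_apply, Pi.smul_apply, smul_eq_mul, hm] at h1
  rw [Subgroup.coe_one, Helper81.irr_one_eq_charDegree] at h1
  simp only [Helper81.irr_one_eq_charDegree] at h1
  exact_mod_cast h1

/-- `∑_χ χ(1) ⟨χ_H, θ⟩ = [G : H] θ(1)` (the regular character restricts to `[G : H]` copies of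
the regular character). -/
theorem sum_charDegree_mul_res (H : Subgroup G) [Fintype H] [Fintype (Cfsg.IrrCharacter G)]
    (θ : Cfsg.IrrCharacter H) (m : Cfsg.IrrCharacter G → ℕ)
    (hm : ∀ χ : Cfsg.IrrCharacter G,
      Cfsg.classInner (fun h : H => (χ : G → ℂ) h) (θ : H → ℂ) = (m χ : ℂ)) :
    ∑ χ : Cfsg.IrrCharacter G, Cfsg.charDegree (χ : G → ℂ) * m χ
      = H.index * Cfsg.charDegree (θ : H → ℂ) := by
  classical
  have h1 : Cfsg.classInner (∑ χ : Cfsg.IrrCharacter G,
      (χ : G → ℂ) 1 • (fun n : H => (χ : G → ℂ) n)) (θ : H → ℂ)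
      = ∑ χ : Cfsg.IrrCharacter G, (χ : G → ℂ) 1 * (m χ : ℂ) := by
    rw [Helper15.classInner_sum_left]
    refine Finset.sum_congr rfl fun χ _ => ?_
    rw [Helper15.classInner_smul_left, hm χ]
  have h2 : (∑ χ : Cfsg.IrrCharacter G, (χ : G → ℂ) 1 • (fun n : H => (χ : G → ℂ) n))
      = fun n : H => if (n : G) = 1 then (Nat.card G : ℂ) else 0 := by
    funext n
    rw [← Helper81.sum_irr_one_mul (n : G)]
    simp only [Finset.sum_apply, Pi.smul_apply, smul_eq_mul]
  rw [h2] at h1
  unfold Cfsg.classInner at h1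
  beta_reduce at h1
  rw [Finset.sum_eq_single (1 : H)] at h1
  · rw [if_pos (Subgroup.coe_one H)] at h1
    have hH0 : (Nat.card H : ℂ) ≠ 0 := by exact_mod_cast Nat.card_pos.ne'
    have hcard : (Nat.card G : ℂ) = (Nat.card H : ℂ) * (H.index : ℂ) := by
      rw [← Nat.cast_mul, Subgroup.card_mul_index]
    have h3 : conj ((θ : H → ℂ) 1) = (Cfsg.charDegree (θ : H → ℂ) : ℂ) := by
      rw [Helper81.irr_one_eq_charDegree, Complex.conj_natCast]
    rw [h3, hcard] at h1
    simp only [Helper81.irr_one_eq_charDegree] at h1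
    have h4 : (Nat.card H : ℂ)⁻¹ * ((Nat.card H : ℂ) * (H.index : ℂ) *
        (Cfsg.charDegree (θ : H → ℂ) : ℂ)) = (H.index : ℂ) * (Cfsg.charDegree (θ : H → ℂ) : ℂ) := by
      field_simp
    rw [h4] at h1
    exact_mod_cast h1.symm
  · intro n _ hn
    have : (n : G) ≠ 1 := fun h => hn (Subtype.ext h)
    rw [if_neg this, zero_mul]
  · intro h
    exact absurd (Finset.mem_univ _) h

end principalCover

end Cfsg.Agent.Helper76
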