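import Mathlib

/-!
# CALL S5979, piece DIAG (helper76): a matrix with `A ^ r = s • 1`, where `s` has `r` distinct
`r`-th roots in the field, is diagonalisable.
-/

set_option autoImplicit false

namespace Cfsg.Agent.Helper76.TEDIAG

open Matrix Polynomial
open scoped Kronecker

/-! ## Piece DIAG -/
theorem diag_of_pow {K : Type*} [Field K] {m : ℕ} (r : ℕ) (hr0 : 0 < r)
    (A : Matrix (Fin m) (Fin m) K) (s : K) (hA : A ^ r = s • (1 : Matrix (Fin m) (Fin m) K))
    (θ : Fin r → K) (hθ : Function.Injective θ) (hθs : ∀ k, θ k ^ r = s) :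
    ∃ (P P' : Matrix (Fin m) (Fin m) K) (d : Fin m → K), P * P' = 1 ∧ P' * P = 1 ∧
      A = P * Matrix.diagonal d * P' ∧ ∀ i, d i ^ r = s := by
  classical
  obtain ⟨f, hf⟩ : ∃ f : Module.End K (Fin m → K), f = Matrix.toLin' A := ⟨_, rfl⟩
  have hfr : f ^ r = s • (1 : Module.End K (Fin m → K)) := by
    rw [hf, ← Matrix.toLin'_pow, hA]
    simp
    rfl
  have hprod : ∏ k : Fin r, (X - C (θ k)) = (X ^ r - C s : K[X]) := by
    have hmon1 : (∏ k : Fin r, (X - C (θ k)) : K[X]).Monic :=
      Polynomial.monic_prod_of_monic _ _ (fun k _ => Polynomial.monic_X_sub_C (θ k))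
    have hmon2 : (X ^ r - C s : K[X]).Monic := Polynomial.monic_X_pow_sub_C s hr0.ne'
    have hdvd : ∏ k : Fin r, (X - C (θ k)) ∣ (X ^ r - C s : K[X]) := by
      apply Finset.prod_dvd_of_coprime
      · intro i _ j _ hij
        exact Polynomial.pairwise_coprime_X_sub_C hθ hij
      · intro k _
        rw [Polynomial.dvd_iff_isRoot]
        simp [hθs k]
    have hdeg : (X ^ r - C s : K[X]).natDegree ≤ (∏ k : Fin r, (X - C (θ k)) : K[X]).natDegree := by
      rw [Polynomial.natDegree_X_pow_sub_C, Polynomial.natDegree_prod_of_monic _ _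
        (fun k _ => Polynomial.monic_X_sub_C (θ k))]
      simp
    exact (Polynomial.eq_of_monic_of_dvd_of_natDegree_le hmon1 hmon2 hdvd hdeg).symm
  have hE : ∀ k, LinearMap.ker (aeval f (X - C (θ k))) = f.eigenspace (θ k) := by
    intro k
    rw [Module.End.eigenspace_def]
    simp [Algebra.algebraMap_eq_smul_one]
  have hker : ∀ S : Finset (Fin r), LinearMap.ker (aeval f (∏ k ∈ S, (X - C (θ k)))) =
      ⨆ k ∈ S, f.eigenspace (θ k) := by
    intro S
    induction S using Finset.induction_on with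
    | empty => simp [Module.End.one_eq_id]
    | insert a S ha ih =>
      rw [Finset.prod_insert ha, Finset.iSup_insert, ← ih, ← hE a]
      refine (Polynomial.sup_ker_aeval_eq_ker_aeval_mul_of_coprime f ?_).symm
      refine IsCoprime.prod_right fun k hk => ?_
      exact Polynomial.pairwise_coprime_X_sub_C hθ (fun h => ha (h ▸ hk))
  have htop : ⨆ k, f.eigenspace (θ k) = ⊤ := by
    have h := hker Finset.univ
    rw [hprod] at h
    have h0 : aeval f (X ^ r - C s : K[X]) = 0 := by
      simp [hfr, Algebra.algebraMap_eq_smul_one]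
    rw [h0, LinearMap.ker_zero] at h
    simpa using h.symm
  have hind : iSupIndep (fun k => f.eigenspace (θ k)) :=
    (Module.End.eigenspaces_iSupIndep f).comp hθ
  have hint := DirectSum.isInternal_submodule_of_iSupIndep_of_iSup_eq_top hind htop
  have hb0 := fun a => hint.collectedBasis_mem (fun k => Module.finBasis K (f.eigenspace (θ k))) a
  generalize hint.collectedBasis (fun k => Module.finBasis K (f.eigenspace (θ k))) = b at hb0
  have hb : ∀ a, b a ∈ f.eigenspace (θ a.1) := hb0
  obtain ⟨e, -⟩ : ∃ e : (Σ k : Fin r, Fin (Module.finrank K (f.eigenspace (θ k)))) ≃ Fin m,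
      True := ⟨b.indexEquiv (Pi.basisFun K (Fin m)), trivial⟩
  obtain ⟨b', hb'⟩ : ∃ b' : Module.Basis (Fin m) K (Fin m → K), b' = b.reindex e := ⟨_, rfl⟩
  obtain ⟨d, hd⟩ : ∃ d : Fin m → K, d = fun i => θ (e.symm i).1 := ⟨_, rfl⟩
  have heig : ∀ j, A *ᵥ (b' j) = d j • b' j := by
    intro j
    have h := hb (e.symm j)
    have hfx : ∀ x, f x = A *ᵥ x := fun x => by rw [hf, Matrix.toLin'_apply]
    rw [Module.End.mem_eigenspace_iff, hfx] at h
    rw [hb', hd, Module.Basis.reindex_apply]
    exact h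
  refine ⟨(Pi.basisFun K (Fin m)).toMatrix b', b'.toMatrix (Pi.basisFun K (Fin m)), d,
    Module.Basis.toMatrix_mul_toMatrix_flip _ _, Module.Basis.toMatrix_mul_toMatrix_flip _ _,
    ?_, fun i => by rw [hd]; exact hθs _⟩
  have hAP : A * (Pi.basisFun K (Fin m)).toMatrix b' =
      (Pi.basisFun K (Fin m)).toMatrix b' * Matrix.diagonal d := by
    ext i j
    rw [Matrix.mul_diagonal, Matrix.mul_apply]
    have h := congrFun (heig j) i
    simp only [Module.Basis.toMatrix_apply, Pi.basisFun_repr]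
    rw [Matrix.mulVec, dotProduct] at h
    rw [h, Pi.smul_apply, smul_eq_mul, mul_comm]
  calc A = A * ((Pi.basisFun K (Fin m)).toMatrix b' * b'.toMatrix (Pi.basisFun K (Fin m))) := by
        rw [Module.Basis.toMatrix_mul_toMatrix_flip, mul_one]
    _ = (Pi.basisFun K (Fin m)).toMatrix b' * Matrix.diagonal d *
          b'.toMatrix (Pi.basisFun K (Fin m)) := by
        rw [← mul_assoc, hAP]

end Cfsg.Agent.Helper76.TEDIAG
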