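import Mathlib
import Cfsg.Agent.Helper97.TNDefs

/-!
# CALL S2413, piece WE (helper76): action of the Coxeter element `iotaO w` on `e_c`, `z`
-/

set_option autoImplicit false

universe u

namespace Cfsg.Agent.Helper76

open Cfsg Matrix Cfsg.Agent.Helper45 Cfsg.Agent.Helper98 Cfsg.Agent.Helper97.TM
  Cfsg.Agent.Helper97.TN

section odd

variable {m : ℕ} {F : Type u} [Field F]

/-- WE (three statements) -/
theorem tn_w_e (n : ℕ) (w : Matrix.SpecialLinearGroup (Fin (n + 1)) F)
    (hw : (w : Matrix (Fin (n + 1)) (Fin (n + 1)) F) =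
      Matrix.of (fun i j => if j.val = i.val + 1 then 1 else
        if i.val = n ∧ j.val = 0 then (-1) ^ n else 0))
    (c d : Fin (n + 1)) (h : c.val = d.val + 1) :
    mv ⇑(QO (n + 1) F) (iotaO (n + 1) F w) (eO (n + 1) F c) = eO (n + 1) F d := by
  rw [mv_iotaO]
  funext x
  rcases x with u | i | i
  · cases u; simp
  · simp only [Sum.elim_inr, Sum.elim_inl, eO_ee]
    have h1 : (eO (n + 1) F c ∘ Sum.inr ∘ Sum.inl : Fin (n + 1) → F) = Pi.single c 1 := by
      funext j
      simp [Pi.single_apply]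
    rw [h1, Matrix.mulVec_single_one, hw]
    simp only [Matrix.col_apply, Matrix.of_apply]
    by_cases hid : i = d
    · subst hid
      simp [h]
    · have h2 : ¬ c.val = i.val + 1 := by
        intro h3; apply hid; apply Fin.ext; omega
      have hc0 : c ≠ 0 := by
        intro h0; rw [h0] at h; simp at h
      simp [h2, hid, hc0]
  · simp only [Sum.elim_inr, eO_ff]
    have h1 : (eO (n + 1) F c ∘ Sum.inr ∘ Sum.inr : Fin (n + 1) → F) = 0 := by
      funext j
      simp
    rw [h1, Matrix.mulVec_zero]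
    rfl

theorem tn_w_e0 (n : ℕ) (w : Matrix.SpecialLinearGroup (Fin (n + 1)) F)
    (hw : (w : Matrix (Fin (n + 1)) (Fin (n + 1)) F) =
      Matrix.of (fun i j => if j.val = i.val + 1 then 1 else
        if i.val = n ∧ j.val = 0 then (-1) ^ n else 0)) :
    mv ⇑(QO (n + 1) F) (iotaO (n + 1) F w) (eO (n + 1) F 0) =
      ((-1 : F) ^ n) • eO (n + 1) F (Fin.last n) := by
  rw [mv_iotaO]
  funext x
  rcases x with u | i | i
  · cases u; simp
  · simp only [Sum.elim_inr, Sum.elim_inl, Pi.smul_apply, eO_ee, smul_eq_mul]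
    have h1 : (eO (n + 1) F 0 ∘ Sum.inr ∘ Sum.inl : Fin (n + 1) → F) = Pi.single 0 1 := by
      funext j
      simp [Pi.single_apply]
    rw [h1, Matrix.mulVec_single_one, hw]
    simp only [Matrix.col_apply, Matrix.of_apply]
    by_cases hid : i = Fin.last n
    · subst hid
      simp
    · have h3 : ¬ (i.val = n) := by
        intro h4; apply hid; apply Fin.ext; simpa using h4
      simp [h3, hid]
  · simp only [Sum.elim_inr, Pi.smul_apply, eO_ff, smul_eq_mul, mul_zero]
    have h1 : (eO (n + 1) F 0 ∘ Sum.inr ∘ Sum.inr : Fin (n + 1) → F) = 0 := by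
      funext j
      simp
    rw [h1, Matrix.mulVec_zero]
    rfl

theorem tn_w_z (A : Matrix.SpecialLinearGroup (Fin m) F) :
    mv ⇑(QO m F) (iotaO m F A) (zO m F) = zO m F := by
  rw [mv_iotaO]
  funext x
  rcases x with u | i | i
  · cases u; simp
  · simp only [Sum.elim_inr, Sum.elim_inl, zO_ee]
    have h1 : (zO m F ∘ Sum.inr ∘ Sum.inl : Fin m → F) = 0 := by
      funext j
      simp
    rw [h1, Matrix.mulVec_zero]
    rfl
  · simp only [Sum.elim_inr, zO_ff]
    have h1 : (zO m F ∘ Sum.inr ∘ Sum.inr : Fin m → F) = 0 := by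
      funext j
      simp
    rw [h1, Matrix.mulVec_zero]
    rfl

end odd

end Cfsg.Agent.Helper76
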